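import Mathlib
import Cfsg.Agent.H82.JxDefs

/-!
# S2948 / S2949 piece JX-FUN (helper53 for helper82)

An abelian 2-group `B` acting by conjugation on a nontrivial elementary abelian 2-group `U` with at
most two fixed points satisfies `2 |B : C_B(U)| ≤ |U|`.  Proof by characters: pick `χ : U →* ℂˣ`
with `χ f ≠ 1` for the non-identity fixed point `f`; then `b ↦ χ ∘ c_b` is injective modulo
`C_B(U)` and takes its values among the characters `μ` with `μ f ≠ 1`, at most half of all.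
-/

set_option autoImplicit false
set_option linter.style.haveILetI false

namespace Cfsg.Agent.H53.Jx

open Cfsg Cfsg.Agent.H82.Jx

universe u

section Aux

variable {G : Type u} [Group G]

/-- the conjugation action of a subgroup `B` on a subgroup `M` that it normalizes -/
@[reducible] def conjActOn (B M : Subgroup G) (hinv : ∀ b ∈ B, ∀ m ∈ M, b * m * b⁻¹ ∈ M) :
    MulAction ↥B ↥M where
  smul b m := ⟨b * m * b⁻¹, hinv b b.2 m m.2⟩
  one_smul m := by
    apply Subtype.ext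
    show ((1 : ↥B) : G) * (m : G) * ((1 : ↥B) : G)⁻¹ = m
    simp
  mul_smul b c m := by
    apply Subtype.ext
    show ((b * c : ↥B) : G) * (m : G) * ((b * c : ↥B) : G)⁻¹ = b * (c * m * (c : G)⁻¹) * (b : G)⁻¹
    simp [mul_assoc]

/-- a 2-group acting by conjugation on a nontrivial subgroup of exponent 2 has a non-identity
fixed point -/
theorem fixed_pt [Finite G] (B M : Subgroup G) (hB : IsPGroup 2 ↥B)
    (hM2 : ∀ m ∈ M, m * m = 1) (hinv : ∀ b ∈ B, ∀ m ∈ M, b * m * b⁻¹ ∈ M) (hM : M ≠ ⊥) :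
    ∃ m ∈ M, m ≠ 1 ∧ ∀ b ∈ B, b * m * b⁻¹ = m := by
  letI := conjActOn B M hinv
  haveI : Fact (Nat.Prime 2) := ⟨Nat.prime_two⟩
  obtain ⟨m₀, hm₀1⟩ := Subgroup.ne_bot_iff_exists_ne_one.mp hM
  have hdvd : 2 ∣ Nat.card ↥M := by
    have ho : orderOf m₀ = 2 := by
      apply orderOf_eq_prime
      · rw [pow_two]
        exact Subtype.ext (hM2 m₀ m₀.2)
      · exact hm₀1
    rw [← ho]
    exact orderOf_dvd_natCard m₀
  have h1 : (1 : ↥M) ∈ MulAction.fixedPoints ↥B ↥M := by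
    intro b
    apply Subtype.ext
    show (b : G) * ((1 : ↥M) : G) * (b : G)⁻¹ = ((1 : ↥M) : G)
    simp
  obtain ⟨m, hm, hne⟩ := hB.exists_fixed_point_of_prime_dvd_card_of_fixed_point ↥M hdvd h1
  refine ⟨m, m.2, fun h => hne (Subtype.ext h.symm), fun b hb => ?_⟩
  have := hm ⟨b, hb⟩
  exact congrArg Subtype.val this

end Aux

theorem fn : StFun.{u} := by
  intro G _ _ B U hBc hB2 hUc hU2 hinv hF hU
  classical
  letI : CommGroup ↥U :=
    { (inferInstance : Group ↥U) with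
      mul_comm := fun a b => Subtype.ext (hUc a a.2 b b.2) }
  obtain ⟨f, hfU, hf1, hfB⟩ := fixed_pt B U hB2 hU2 hinv hU
  -- every fixed point is `1` or `f`
  have hFf : ∀ m ∈ U, (∀ b ∈ B, b * m * b⁻¹ = m) → m = 1 ∨ m = f := by
    intro m hmU hmB
    by_contra hcon
    push Not at hcon
    have hmem : ∀ z ∈ U, (∀ b ∈ B, b * z * b⁻¹ = z) →
        z ∈ U ⊓ Subgroup.centralizer (B : Set G) := by
      intro z hz hzB
      refine Subgroup.mem_inf.mpr ⟨hz, ?_⟩
      rw [Subgroup.mem_centralizer_iff]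
      intro b hb
      calc b * z = (b * z * b⁻¹) * b := by group
        _ = z * b := by rw [hzB b hb]
    have hsub : ({1, f, m} : Set G) ⊆
        ((U ⊓ Subgroup.centralizer (B : Set G) : Subgroup G) : Set G) := by
      intro z hz
      rcases hz with rfl | rfl | rfl
      · exact Subgroup.one_mem _
      · exact hmem _ hfU hfB
      · exact hmem _ hmU hmB
    have h3 : ({1, f, m} : Set G).ncard = 3 :=
      Set.ncard_eq_three.mpr ⟨1, f, m, hf1.symm, fun h => hcon.1 h.symm,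
        fun h => hcon.2 h.symm, rfl⟩
    have hle := Set.ncard_le_ncard hsub (Set.toFinite _)
    rw [h3, ← Nat.card_coe_set_eq] at hle
    exact absurd (hle.trans hF) (by norm_num)
  set f' : ↥U := ⟨f, hfU⟩ with hf'
  have hf'1 : f' ≠ 1 := fun h => hf1 (congrArg Subtype.val h)
  have hf'2 : f' * f' = 1 := Subtype.ext (hU2 f hfU)
  obtain ⟨χ, hχ⟩ := CommGroup.exists_apply_ne_one_of_hasEnoughRootsOfUnity ↥U ℂ hf'1
  -- conjugation on `U`
  let cj : ↥B → ↥U → ↥U := fun b v => ⟨b * v * b⁻¹, hinv b b.2 v v.2⟩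
  have cj_mul : ∀ b v w, cj b (v * w) = cj b v * cj b w := by
    intro b v w
    apply Subtype.ext
    show (b : G) * ((v * w : ↥U) : G) * (b : G)⁻¹ = (b * v * (b : G)⁻¹) * (b * w * (b : G)⁻¹)
    simp [mul_assoc]
  have cj_one : ∀ b, cj b 1 = 1 := by
    intro b
    apply Subtype.ext
    show (b : G) * ((1 : ↥U) : G) * (b : G)⁻¹ = ((1 : ↥U) : G)
    simp
  have cj_f : ∀ b, cj b f' = f' := fun b => Subtype.ext (hfB b b.2)
  let φ : ↥B → (↥U →* ℂˣ) := fun b =>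
    { toFun := fun v => χ (cj b v)
      map_one' := by rw [cj_one, map_one]
      map_mul' := fun v w => by rw [cj_mul, map_mul] }
  have φ_apply : ∀ b v, φ b v = χ (cj b v) := fun b v => rfl
  -- the key: `φ` is injective modulo the centralizer of `U`
  have hkey : ∀ b₀ b : ↥B, φ b₀ = φ b →
      ((b₀⁻¹ * b : ↥B) : G) ∈ Subgroup.centralizer (U : Set G) := by
    intro b₀ b hφ
    by_contra hcon
    set c : ↥B := b₀⁻¹ * b with hc
    have hcU : ∀ v ∈ U, (c : G) * v * (c : G)⁻¹ ∈ U := fun v hv => hinv c c.2 v hv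
    obtain ⟨u₀, hu₀, hcu₀⟩ : ∃ v ∈ U, (c : G) * v * (c : G)⁻¹ ≠ v := by
      by_contra h
      push Not at h
      apply hcon
      rw [Subgroup.mem_centralizer_iff]
      intro v hv
      calc v * (c : G) = ((c : G) * v * (c : G)⁻¹)⁻¹⁻¹ * c := by rw [inv_inv, h v hv]
        _ = (c : G) * v := by group
    let M : Subgroup G :=
      { carrier := {m | ∃ v ∈ U, m = (c : G) * v * (c : G)⁻¹ * v⁻¹}
        one_mem' := ⟨1, U.one_mem, by simp⟩
        mul_mem' := by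
          rintro _ _ ⟨v, hv, rfl⟩ ⟨w, hw, rfl⟩
          refine ⟨v * w, U.mul_mem hv hw, ?_⟩
          have hcm := hUc v⁻¹ (U.inv_mem hv) ((c : G) * w * (c : G)⁻¹ * w⁻¹)
            (U.mul_mem (hcU w hw) (U.inv_mem hw))
          calc (c : G) * v * (c : G)⁻¹ * v⁻¹ * ((c : G) * w * (c : G)⁻¹ * w⁻¹)
              = ((c : G) * v * (c : G)⁻¹) * (v⁻¹ * ((c : G) * w * (c : G)⁻¹ * w⁻¹)) := by group
            _ = ((c : G) * v * (c : G)⁻¹) * (((c : G) * w * (c : G)⁻¹ * w⁻¹) * v⁻¹) := by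
                rw [hcm]
            _ = (c : G) * (v * w) * (c : G)⁻¹ * (v * w)⁻¹ := by group
        inv_mem' := by
          rintro _ ⟨v, hv, rfl⟩
          refine ⟨v, hv, ?_⟩
          exact inv_eq_of_mul_eq_one_left
            (hU2 _ (U.mul_mem (hcU v hv) (U.inv_mem hv))) }
    have hMU : M ≤ U := by
      rintro _ ⟨v, hv, rfl⟩
      exact U.mul_mem (hcU v hv) (U.inv_mem hv)
    have hM1 : M ≠ ⊥ := by
      intro h
      have hm : (c : G) * u₀ * (c : G)⁻¹ * u₀⁻¹ ∈ M := ⟨u₀, hu₀, rfl⟩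
      rw [h, Subgroup.mem_bot] at hm
      exact hcu₀ (mul_inv_eq_one.mp hm)
    have hMinv : ∀ d ∈ B, ∀ m ∈ M, d * m * d⁻¹ ∈ M := by
      rintro d hd _ ⟨v, hv, rfl⟩
      refine ⟨d * v * d⁻¹, hinv d hd v hv, ?_⟩
      have hdc := hBc d hd c c.2
      calc d * ((c : G) * v * (c : G)⁻¹ * v⁻¹) * d⁻¹
          = (d * (c : G)) * v * (d * (c : G))⁻¹ * (d * v⁻¹ * d⁻¹) := by group
        _ = ((c : G) * d) * v * ((c : G) * d)⁻¹ * (d * v⁻¹ * d⁻¹) := by rw [hdc]
        _ = (c : G) * (d * v * d⁻¹) * (c : G)⁻¹ * (d * v * d⁻¹)⁻¹ := by group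
    obtain ⟨m₁, hm₁M, hm₁1, hm₁B⟩ :=
      fixed_pt B M hB2 (fun m hm => hU2 m (hMU hm)) hMinv hM1
    have hm₁f : m₁ = f := (hFf m₁ (hMU hm₁M) hm₁B).resolve_left hm₁1
    obtain ⟨v, hv, hfv⟩ := hm₁M
    rw [hm₁f] at hfv
    -- `f' = cj c v * v⁻¹`
    have h1 : f' = cj c ⟨v, hv⟩ * (⟨v, hv⟩ : ↥U)⁻¹ := Subtype.ext hfv
    have h2 : cj b ⟨v, hv⟩ = cj b₀ (cj c ⟨v, hv⟩) := by
      apply Subtype.ext
      show (b : G) * v * (b : G)⁻¹ = (b₀ : G) * ((c : G) * v * (c : G)⁻¹) * (b₀ : G)⁻¹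
      rw [hc]
      simp only [Subgroup.coe_mul, Subgroup.coe_inv]
      group
    have h3 : φ b₀ f' = 1 := by
      rw [h1, map_mul, map_inv, φ_apply b₀ (cj c ⟨v, hv⟩), ← h2, ← φ_apply b, ← hφ]
      exact mul_inv_cancel _
    rw [φ_apply, cj_f] at h3
    exact hχ h3
  -- counting characters
  have hcard : Nat.card (↥U →* ℂˣ) = Nat.card ↥U :=
    CommGroup.card_monoidHom_of_hasEnoughRootsOfUnity ↥U ℂ
  haveI : Finite (↥U →* ℂˣ) := by
    apply Nat.finite_of_card_ne_zero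
    rw [hcard]
    exact Nat.card_pos.ne'
  have hval : ∀ μ : ↥U →* ℂˣ, μ f' ≠ 1 → μ f' = -1 := by
    intro μ hμ
    have h1 : μ f' * μ f' = 1 := by rw [← map_mul, hf'2, map_one]
    have h2 : ((μ f' : ℂˣ) : ℂ) * ((μ f' : ℂˣ) : ℂ) = 1 := by
      rw [← Units.val_mul, h1, Units.val_one]
    rcases mul_self_eq_one_iff.mp h2 with h | h
    · exact absurd (Units.ext (by rw [h, Units.val_one])) hμ
    · exact Units.ext (by rw [h, Units.val_neg, Units.val_one])
  let S : Set (↥U →* ℂˣ) := {μ | μ f' ≠ 1}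
  have hS1 : S.ncard ≤ Sᶜ.ncard := by
    apply Set.ncard_le_ncard_of_injOn (fun μ => μ * χ⁻¹)
    · intro μ hμ
      show ¬ ((μ * χ⁻¹) f' ≠ 1)
      rw [not_not, MonoidHom.mul_apply, MonoidHom.inv_apply, hval μ hμ, hval χ hχ]
      exact mul_inv_cancel _
    · intro μ _ ν _ h
      exact mul_right_cancel h
  have hS2 : S.ncard + Sᶜ.ncard = Nat.card (↥U →* ℂˣ) := Set.ncard_add_ncard_compl S
  have hS3 : 2 * S.ncard ≤ Nat.card ↥U := by
    rw [← hcard]
    omega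
  -- the surjection from `S` onto the cosets
  have hφS : ∀ b : ↥B, φ b ∈ S := by
    intro b
    show φ b f' ≠ 1
    rw [φ_apply, cj_f]
    exact hχ
  let K' : Subgroup ↥B := (B ⊓ Subgroup.centralizer (U : Set G)).subgroupOf B
  let g : ↥S → ↥B ⧸ K' := fun μ =>
    if h : ∃ b : ↥B, φ b = μ.1 then (QuotientGroup.mk h.choose : ↥B ⧸ K')
    else (QuotientGroup.mk 1 : ↥B ⧸ K')
  have hg : Function.Surjective g := by
    intro q
    obtain ⟨b, rfl⟩ := QuotientGroup.mk_surjective q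
    refine ⟨⟨φ b, hφS b⟩, ?_⟩
    have hex : ∃ b' : ↥B, φ b' = φ b := ⟨b, rfl⟩
    show (if h : ∃ b' : ↥B, φ b' = φ b then (QuotientGroup.mk h.choose : ↥B ⧸ K')
      else (QuotientGroup.mk 1 : ↥B ⧸ K')) = _
    rw [dif_pos hex]
    rw [QuotientGroup.eq]
    show ((hex.choose⁻¹ * b : ↥B) : G) ∈ B ⊓ Subgroup.centralizer (U : Set G)
    exact ⟨(hex.choose⁻¹ * b).2, hkey _ _ hex.choose_spec⟩
  have hidx : (B ⊓ Subgroup.centralizer (U : Set G)).relIndex B ≤ S.ncard := by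
    rw [← Nat.card_coe_set_eq]
    exact Nat.card_le_card_of_surjective g hg
  omega

end Cfsg.Agent.H53.Jx

universe u in
example : Cfsg.Agent.H82.Jx.StFun.{u} := Cfsg.Agent.H53.Jx.fn
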