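import Mathlib
import Cfsg.Agent.H14.SpDefs

/-!
# S2944 piece SP-CORE (helper53 for helper14): the pure involution from the conclusion of S0617
-/

set_option autoImplicit false
set_option linter.style.haveILetI false

namespace Cfsg.Agent.H53.Sp

open Cfsg Cfsg.Agent.H14.Sp
open scoped commutatorElement

universe u

section Aux

variable {Y : Type u} [Group Y]

/-- conjugation form of membership in a centralizer -/
theorem cent_iff {g : Y} {S : Subgroup Y} :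
    g ∈ Subgroup.centralizer (S : Set Y) ↔ ∀ s ∈ S, g * s * g⁻¹ = s := by
  rw [Subgroup.mem_centralizer_iff]
  constructor
  · intro h s hs
    rw [← h s hs, mul_inv_cancel_right]
  · intro h s hs
    calc s * g = (g * s * g⁻¹) * g := by rw [h s hs]
      _ = g * s := by group

/-- an element normalizing `A` and `B` normalizes `⁅A, B⁆` -/
theorem conj_comm_mem {A B : Subgroup Y} {g : Y} (hA : ∀ a ∈ A, g * a * g⁻¹ ∈ A)
    (hB : ∀ b ∈ B, g * b * g⁻¹ ∈ B) : ∀ w ∈ ⁅A, B⁆, g * w * g⁻¹ ∈ ⁅A, B⁆ := by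
  have hle : ⁅A, B⁆ ≤ (⁅A, B⁆).comap (MulAut.conj g).toMonoidHom := by
    rw [Subgroup.commutator_le]
    intro a ha b hb
    rw [Subgroup.mem_comap]
    show g * ⁅a, b⁆ * g⁻¹ ∈ ⁅A, B⁆
    have : g * ⁅a, b⁆ * g⁻¹ = ⁅g * a * g⁻¹, g * b * g⁻¹⁆ := by
      simp only [commutatorElement_def]
      group
    rw [this]
    exact Subgroup.commutator_mem_commutator (hA a ha) (hB b hb)
  intro w hw
  exact hle hw

/-- faithfulness: an element of `H` centralizing all the factors of `V` is trivial -/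
theorem faithful_aux {ι : Type*} (V H V₀ : Subgroup Y) (Wf : ι → Subgroup Y)
    (hfaith : H ⊓ Subgroup.centralizer (V : Set Y) = ⊥) (hsup : V₀ ⊔ (⨆ i, Wf i) = V) (g : Y)
    (hg : g ∈ H) (h0 : g ∈ Subgroup.centralizer (V₀ : Set Y))
    (hW : ∀ i, g ∈ Subgroup.centralizer (Wf i : Set Y)) : g = 1 := by
  have key : ∀ A : Subgroup Y,
      g ∈ Subgroup.centralizer (A : Set Y) ↔ A ≤ Subgroup.centralizer ({g} : Set Y) := by
    intro A
    constructor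
    · intro h a ha
      rw [Subgroup.mem_centralizer_iff]
      intro k hk
      rw [Set.mem_singleton_iff] at hk
      rw [hk]
      exact ((Subgroup.mem_centralizer_iff.mp h) a ha).symm
    · intro h
      rw [Subgroup.mem_centralizer_iff]
      intro a ha
      exact ((Subgroup.mem_centralizer_iff.mp (h ha)) g (Set.mem_singleton g)).symm
  have hV : g ∈ Subgroup.centralizer (V : Set Y) := by
    rw [key, ← hsup]
    exact sup_le ((key _).mp h0) (iSup_le fun i => (key _).mp (hW i))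
  have hmem : g ∈ H ⊓ Subgroup.centralizer (V : Set Y) := ⟨hg, hV⟩
  rw [hfaith, Subgroup.mem_bot] at hmem
  exact hmem

end Aux

theorem core (h4 : StFour.{u}) : StCore.{u} := by
  intro Y _ _ ι V H E hVe hHV hfaith hEn hEiso hWcard hEind hEsup hVind hVsup x hxH hxodd hx1 W
    hWc hxW
  classical
  obtain ⟨hVcomm, hV2⟩ := hVe
  have hc : ∀ a ∈ V, ∀ b ∈ V, a * b = b * a := fun a ha b hb =>
    congrArg Subtype.val (mul_comm' (⟨a, ha⟩ : V) ⟨b, hb⟩)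
  have hEH : ∀ i, E i ≤ H := fun i => hEsup ▸ le_iSup E i
  have hnV : ∀ h ∈ H, ∀ v ∈ V, h * v * h⁻¹ ∈ V := fun h hh v hv =>
    (Subgroup.mem_normalizer_iff.mp (hHV hh) v).mp hv
  have hnE : ∀ i, ∀ h ∈ H, ∀ e ∈ E i, h * e * h⁻¹ ∈ E i := fun i h hh e he =>
    (Subgroup.mem_normalizer_iff.mp (hEn i hh) e).mp he
  have hWV : ∀ i, ⁅V, E i⁆ ≤ V := by
    intro i
    rw [Subgroup.commutator_le]
    intro v hv e he
    rw [commutatorElement_def]
    have : v * e * v⁻¹ * e⁻¹ = v * (e * v⁻¹ * e⁻¹) := by group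
    rw [this]
    exact V.mul_mem hv (hnV e (hEH i he) v⁻¹ (V.inv_mem hv))
  have hnW : ∀ i, ∀ h ∈ H, ∀ w ∈ ⁅V, E i⁆, h * w * h⁻¹ ∈ ⁅V, E i⁆ := fun i h hh =>
    conj_comm_mem (hnV h hh) (hnE i h hh)
  have hV0 : ∀ h ∈ H, h ∈ Subgroup.centralizer
      ((V ⊓ Subgroup.centralizer (H : Set Y) : Subgroup Y) : Set Y) := by
    intro h hh
    rw [Subgroup.mem_centralizer_iff]
    intro v hv
    exact ((Subgroup.mem_centralizer_iff.mp hv.2) h hh).symm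
  have hdisj : ∀ l i, l ≠ i → ⁅V, E l⁆ ⊓ ⁅V, E i⁆ = ⊥ := by
    intro l i hli
    have := hVind.pairwiseDisjoint
      (show (some l : Option ι) ≠ some i from fun h => hli (Option.some.inj h))
    exact disjoint_iff.mp this
  have hEcent : ∀ l i, l ≠ i → ∀ e ∈ E l,
      e ∈ Subgroup.centralizer ((⁅V, E i⁆ : Subgroup Y) : Set Y) := by
    intro l i hli e he
    rw [cent_iff]
    intro w hw
    have h1 : e * w * e⁻¹ * w⁻¹ ∈ ⁅V, E i⁆ :=
      Subgroup.mul_mem _ (hnW i e (hEH l he) w hw) (Subgroup.inv_mem _ hw)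
    have h2 : e * w * e⁻¹ * w⁻¹ ∈ ⁅V, E l⁆ := by
      have : e * w * e⁻¹ * w⁻¹ = (⁅w, e⁆)⁻¹ := by
        rw [commutatorElement_def]
        group
      rw [this]
      exact Subgroup.inv_mem _ (Subgroup.commutator_mem_commutator (hWV i hw) he)
    have h3 : e * w * e⁻¹ * w⁻¹ ∈ ⁅V, E l⁆ ⊓ ⁅V, E i⁆ := ⟨h2, h1⟩
    rw [hdisj l i hli, Subgroup.mem_bot] at h3
    exact mul_inv_eq_one.mp h3
  have hF : ∀ g ∈ H, (∀ i, g ∈ Subgroup.centralizer ((⁅V, E i⁆ : Subgroup Y) : Set Y)) →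
      g = 1 := fun g hg hW =>
    faithful_aux V H _ (fun i => ⁅V, E i⁆) hfaith hVsup g hg (hV0 g hg) hW
  obtain ⟨i, hxi⟩ : ∃ i, x ∉ Subgroup.centralizer ((⁅V, E i⁆ : Subgroup Y) : Set Y) := by
    by_contra h
    push Not at h
    exact hx1 (hF x hxH h)
  obtain ⟨w₀, hw₀, hxw₀⟩ : ∃ w ∈ ⁅V, E i⁆, x * w * x⁻¹ ≠ w := by
    by_contra h
    push Not at h
    exact hxi (cent_iff.mpr h)
  obtain ⟨e⟩ := hEiso i
  have hdet : Matrix.det (!![1, 1; 0, 1] : Matrix (Fin 2) (Fin 2) (ZMod 2)) = 1 := by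
    rw [Matrix.det_fin_two_of]
    decide
  set M : Matrix.SpecialLinearGroup (Fin 2) (ZMod 2) := ⟨!![1, 1; 0, 1], hdet⟩ with hM
  have hM2 : M * M = 1 := by
    apply Subtype.ext
    show (!![1, 1; 0, 1] : Matrix (Fin 2) (Fin 2) (ZMod 2)) * !![1, 1; 0, 1] = 1
    decide
  have hM1 : M ≠ 1 := by
    intro h
    have h' : (!![1, 1; 0, 1] : Matrix (Fin 2) (Fin 2) (ZMod 2)) 0 1 =
        (1 : Matrix (Fin 2) (Fin 2) (ZMod 2)) 0 1 :=
      congrArg (fun A : Matrix.SpecialLinearGroup (Fin 2) (ZMod 2) => A.1 0 1) h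
    exact absurd h' (by decide)
  set t : Y := ((e.symm M : E i) : Y) with ht
  have htE : t ∈ E i := (e.symm M).2
  have htH : t ∈ H := hEH i htE
  have htt : t * t = 1 := by
    have h1 : e.symm M * e.symm M = 1 := by rw [← map_mul, hM2, map_one]
    have h2 := congrArg (fun z : E i => (z : Y)) h1
    simpa using h2
  have ht1 : t ≠ 1 := by
    intro h
    apply hM1
    have h1 : e.symm M = 1 := Subtype.ext h
    have h2 := congrArg e h1
    simpa using h2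
  have htcent : ∀ l, l ≠ i → t ∈ Subgroup.centralizer ((⁅V, E l⁆ : Subgroup Y) : Set Y) :=
    fun l hl => hEcent i l (Ne.symm hl) t htE
  obtain ⟨w₁, hw₁, htw₁⟩ : ∃ w ∈ ⁅V, E i⁆, t * w * t⁻¹ ≠ w := by
    by_contra h
    push Not at h
    apply ht1
    apply hF t htH
    intro l
    by_cases hl : l = i
    · rw [hl]; exact cent_iff.mpr h
    · exact htcent l hl
  have hW2 : ∀ w ∈ ⁅V, E i⁆, w * w = 1 := by
    intro w hw
    have := hV2 w (hWV i hw)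
    rwa [pow_two] at this
  obtain ⟨F1, F2, F3, -⟩ := h4 (⁅V, E i⁆) x t t (hWcard i) hW2 (hnW i x hxH) (hnW i t htH)
    (hnW i t htH) hxodd htt htt ⟨w₀, hw₀, hxw₀⟩ ⟨w₁, hw₁, htw₁⟩ ⟨w₁, hw₁, htw₁⟩
  have hWiW : ⁅V, E i⁆ = W := by
    apply Subgroup.eq_of_le_of_card_ge
    · intro w hw
      obtain ⟨u, hu, rfl⟩ := F2 w hw
      exact hxW u (hWV i hu)
    · rw [hWcard i]; exact hWc
  have hxcent : ∀ l, l ≠ i → x ∈ Subgroup.centralizer ((⁅V, E l⁆ : Subgroup Y) : Set Y) := by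
    intro l hl
    rw [cent_iff]
    intro w hw
    have h1 : x * w * x⁻¹ * w⁻¹ ∈ ⁅V, E l⁆ :=
      Subgroup.mul_mem _ (hnW l x hxH w hw) (Subgroup.inv_mem _ hw)
    have h2 : x * w * x⁻¹ * w⁻¹ ∈ ⁅V, E i⁆ := by
      rw [hWiW]; exact hxW w (hWV l hw)
    have h3 : x * w * x⁻¹ * w⁻¹ ∈ ⁅V, E l⁆ ⊓ ⁅V, E i⁆ := ⟨h1, h2⟩
    rw [hdisj l i hl, Subgroup.mem_bot] at h3
    exact mul_inv_eq_one.mp h3
  have htx : t * x * t⁻¹ = x⁻¹ := by
    have hg : t * x * t⁻¹ * x = 1 := by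
      apply hF _ (H.mul_mem (H.mul_mem (H.mul_mem htH hxH) (H.inv_mem htH)) hxH)
      intro l
      by_cases hl : l = i
      · rw [hl]; exact cent_iff.mpr F3
      · exact Subgroup.mul_mem _ (Subgroup.mul_mem _ (Subgroup.mul_mem _ (htcent l hl)
          (hxcent l hl)) (Subgroup.inv_mem _ (htcent l hl))) (hxcent l hl)
    exact mul_eq_one_iff_eq_inv.mp hg
  -- the decomposition `V = C_V(x, t) * W_i`
  let P : Subgroup Y :=
    { carrier := {v | ∃ a w, v = a * w ∧ a ∈ V ∧ x * a * x⁻¹ = a ∧ t * a * t⁻¹ = a ∧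
        w ∈ ⁅V, E i⁆}
      one_mem' := ⟨1, 1, by simp, V.one_mem, by simp, by simp, Subgroup.one_mem _⟩
      mul_mem' := by
        rintro _ _ ⟨a₁, w₁, rfl, ha₁, hx₁, ht₁, hw₁⟩ ⟨a₂, w₂, rfl, ha₂, hx₂, ht₂, hw₂⟩
        refine ⟨a₁ * a₂, w₁ * w₂, ?_, V.mul_mem ha₁ ha₂, ?_, ?_, Subgroup.mul_mem _ hw₁ hw₂⟩
        · have hcm := hc w₁ (hWV i hw₁) a₂ ha₂
          calc a₁ * w₁ * (a₂ * w₂) = a₁ * (w₁ * a₂) * w₂ := by group
            _ = a₁ * (a₂ * w₁) * w₂ := by rw [hcm]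
            _ = a₁ * a₂ * (w₁ * w₂) := by group
        · calc x * (a₁ * a₂) * x⁻¹ = (x * a₁ * x⁻¹) * (x * a₂ * x⁻¹) := by group
            _ = a₁ * a₂ := by rw [hx₁, hx₂]
        · calc t * (a₁ * a₂) * t⁻¹ = (t * a₁ * t⁻¹) * (t * a₂ * t⁻¹) := by group
            _ = a₁ * a₂ := by rw [ht₁, ht₂]
      inv_mem' := by
        rintro _ ⟨a, w, rfl, ha, hxa, hta, hw⟩
        refine ⟨a⁻¹, w⁻¹, ?_, V.inv_mem ha, ?_, ?_, Subgroup.inv_mem _ hw⟩
        · rw [mul_inv_rev]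
          exact hc _ (V.inv_mem (hWV i hw)) _ (V.inv_mem ha)
        · calc x * a⁻¹ * x⁻¹ = (x * a * x⁻¹)⁻¹ := by group
            _ = a⁻¹ := by rw [hxa]
        · calc t * a⁻¹ * t⁻¹ = (t * a * t⁻¹)⁻¹ := by group
            _ = a⁻¹ := by rw [hta] }
  have hVP : V ≤ P := by
    rw [← hVsup]
    refine sup_le ?_ (iSup_le ?_)
    · intro v hv
      exact ⟨v, 1, by simp, hv.1, cent_iff.mp (hV0 x hxH) v hv, cent_iff.mp (hV0 t htH) v hv,
        Subgroup.one_mem _⟩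
    · intro l w hw
      by_cases hl : l = i
      · rw [hl] at hw
        exact ⟨1, w, by simp, V.one_mem, by simp, by simp, hw⟩
      · exact ⟨w, 1, by simp, hWV l hw, cent_iff.mp (hxcent l hl) w hw,
          cent_iff.mp (htcent l hl) w hw, Subgroup.one_mem _⟩
  have K1 : ∀ v ∈ V, x * v * x⁻¹ = v → t * v * t⁻¹ = v := by
    intro v hv hxv
    obtain ⟨a, w, rfl, ha, hxa, hta, hw⟩ := hVP hv
    have hxw : x * w * x⁻¹ = w := by
      have h1 : x * (a * w) * x⁻¹ = (x * a * x⁻¹) * (x * w * x⁻¹) := by group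
      rw [h1, hxa] at hxv
      exact mul_left_cancel hxv
    have hw1 : w = 1 := F1 w hw hxw
    rw [hw1, mul_one]
    exact hta
  refine ⟨t, htH, htt, htx, ?_⟩
  intro y hyH hyV hyx
  have hyH' : ∀ h ∈ H, y * h * y⁻¹ ∈ H := fun h hh =>
    (Subgroup.mem_normalizer_iff.mp hyH h).mp hh
  have hyV' : ∀ v ∈ V, y⁻¹ * v * y ∈ V := fun v hv =>
    (Subgroup.mem_normalizer_iff''.mp hyV v).mp hv
  have ht'H : y * t * y⁻¹ ∈ H := hyH' t htH
  have ht't' : (y * t * y⁻¹) * (y * t * y⁻¹) = 1 := by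
    calc y * t * y⁻¹ * (y * t * y⁻¹) = y * (t * t) * y⁻¹ := by group
      _ = 1 := by rw [htt]; group
  have ht'1 : y * t * y⁻¹ ≠ 1 := by
    intro h
    apply ht1
    calc t = y⁻¹ * (y * t * y⁻¹) * y := by group
      _ = 1 := by rw [h]; group
  have hycx : ∀ v ∈ V, x * v * x⁻¹ = v → x * (y⁻¹ * v * y) * x⁻¹ = y⁻¹ * v * y := by
    intro v hv hxv
    have hxv' : x⁻¹ * v * x = v := by
      calc x⁻¹ * v * x = x⁻¹ * (x * v * x⁻¹) * x := by rw [hxv]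
        _ = v := by group
    rcases hyx with h | h
    · calc x * (y⁻¹ * v * y) * x⁻¹
          = y⁻¹ * ((y * x * y⁻¹) * v * (y * x * y⁻¹)⁻¹) * y := by group
        _ = y⁻¹ * (x * v * x⁻¹) * y := by rw [h]
        _ = y⁻¹ * v * y := by rw [hxv]
    · calc x * (y⁻¹ * v * y) * x⁻¹
          = y⁻¹ * ((y * x * y⁻¹) * v * (y * x * y⁻¹)⁻¹) * y := by group
        _ = y⁻¹ * (x⁻¹ * v * x⁻¹⁻¹) * y := by rw [h]
        _ = y⁻¹ * v * y := by rw [inv_inv, hxv']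
  have ht'cx : ∀ v ∈ V, x * v * x⁻¹ = v → (y * t * y⁻¹) * v * (y * t * y⁻¹)⁻¹ = v := by
    intro v hv hxv
    have h1 := K1 (y⁻¹ * v * y) (hyV' v hv) (hycx v hv hxv)
    calc (y * t * y⁻¹) * v * (y * t * y⁻¹)⁻¹ = y * (t * (y⁻¹ * v * y) * t⁻¹) * y⁻¹ := by group
      _ = y * (y⁻¹ * v * y) * y⁻¹ := by rw [h1]
      _ = v := by group
  have ht'cent : ∀ l, l ≠ i →
      y * t * y⁻¹ ∈ Subgroup.centralizer ((⁅V, E l⁆ : Subgroup Y) : Set Y) := by
    intro l hl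
    rw [cent_iff]
    intro w hw
    exact ht'cx w (hWV l hw) (cent_iff.mp (hxcent l hl) w hw)
  obtain ⟨w₂, hw₂, ht'w₂⟩ : ∃ w ∈ ⁅V, E i⁆, (y * t * y⁻¹) * w * (y * t * y⁻¹)⁻¹ ≠ w := by
    by_contra h
    push Not at h
    apply ht'1
    apply hF _ ht'H
    intro l
    by_cases hl : l = i
    · rw [hl]; exact cent_iff.mpr h
    · exact ht'cent l hl
  obtain ⟨-, -, -, m, hm⟩ := h4 (⁅V, E i⁆) x t (y * t * y⁻¹) (hWcard i) hW2 (hnW i x hxH)
    (hnW i t htH) (hnW i _ ht'H) hxodd htt ht't' ⟨w₀, hw₀, hxw₀⟩ ⟨w₁, hw₁, htw₁⟩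
    ⟨w₂, hw₂, ht'w₂⟩
  refine ⟨m, ?_⟩
  have hd : (y * t * y⁻¹) * t⁻¹ * (x ^ m)⁻¹ = 1 := by
    apply hF _ (H.mul_mem (H.mul_mem ht'H (H.inv_mem htH)) (H.inv_mem (H.pow_mem hxH m)))
    intro l
    by_cases hl : l = i
    · rw [hl, cent_iff]
      intro w hw
      have hw' : (x ^ m)⁻¹ * w * x ^ m ∈ ⁅V, E i⁆ := by
        have := hnW i ((x ^ m)⁻¹) (H.inv_mem (H.pow_mem hxH m)) w hw
        simpa using this
      have h5 := hm _ hw'
      calc (y * t * y⁻¹) * t⁻¹ * (x ^ m)⁻¹ * w * ((y * t * y⁻¹) * t⁻¹ * (x ^ m)⁻¹)⁻¹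
          = ((y * t * y⁻¹) * t⁻¹) * ((x ^ m)⁻¹ * w * x ^ m) * ((y * t * y⁻¹) * t⁻¹)⁻¹ := by
            group
        _ = x ^ m * ((x ^ m)⁻¹ * w * x ^ m) * (x ^ m)⁻¹ := h5
        _ = w := by group
    · exact Subgroup.mul_mem _ (Subgroup.mul_mem _ (ht'cent l hl)
        (Subgroup.inv_mem _ (htcent l hl)))
        (Subgroup.inv_mem _ (Subgroup.pow_mem _ (hxcent l hl) m))
  exact mul_inv_eq_one.mp hd

end Cfsg.Agent.H53.Sp

universe u in
example (h : Cfsg.Agent.H14.Sp.StFour.{u}) : Cfsg.Agent.H14.Sp.StCore.{u} :=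
  Cfsg.Agent.H53.Sp.core h
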