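import Mathlib
import Cfsg.Agent.H86.Ev2Defs

/-!
# EV2-EXJPLUS (helper86's shared project): an isometry of the plus space squaring to `-1` (helper53)

`mono π c` is the monomial matrix `(M u) p = c p * u (π p)`; for `d` even the block rotation
`e_{2k} ↦ e_{2k+1} ↦ -e_{2k}` on both halves, for `-1 = s * s` the matrix `diag(s, -s)`.
-/

set_option autoImplicit false

namespace Cfsg.Agent.H53.Ev2

open Cfsg.Agent.H86.Ev2

universe u

section Mono

variable {ι : Type} [Fintype ι] [DecidableEq ι] {F : Type u} [Field F]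

/-- the monomial matrix with `(M u) p = c p * u (π p)` -/
def mono (π : ι → ι) (c : ι → F) : Matrix ι ι F := Matrix.of fun p q => if q = π p then c p else 0

theorem mono_mulVec (π : ι → ι) (c : ι → F) (u : ι → F) (p : ι) :
    (mono π c).mulVec u p = c p * u (π p) := by
  simp [mono, Matrix.mulVec, dotProduct]

theorem mono_mul_self (π : ι → ι) (c : ι → F) (hπ : ∀ p, π (π p) = p)
    (hc : ∀ p, c p * c (π p) = -1) : mono π c * mono π c = -1 := by
  ext p r
  rw [Matrix.mul_apply]
  simp only [mono, Matrix.of_apply]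
  rw [Finset.sum_eq_single (π p)]
  · rw [if_pos rfl, hπ]
    by_cases h : r = p
    · subst h
      rw [if_pos rfl, hc]
      simp
    · rw [if_neg h, mul_zero, Matrix.neg_apply, Matrix.one_apply_ne (Ne.symm h), neg_zero]
  · intro q _ hq
    rw [if_neg hq, zero_mul]
  · intro h
    exact absurd (Finset.mem_univ _) h

/-- a matrix squaring to `-1` as a unit -/
def unitOfSq (M : Matrix ι ι F) (h : M * M = -1) : Matrix.GeneralLinearGroup ι F :=
  ⟨M, -M, by rw [mul_neg, h, neg_neg], by rw [neg_mul, h, neg_neg]⟩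

theorem unitOfSq_val (M : Matrix ι ι F) (h : M * M = -1) :
    ((unitOfSq M h : Matrix.GeneralLinearGroup ι F) : Matrix ι ι F) = M := rfl

end Mono

section Rot

variable {F : Type u} [Field F]

/-- the involution `2k ↔ 2k+1` of `Fin d` -/
def tw (d : ℕ) (i : Fin d) : Fin d :=
  if i.val % 2 = 0 then (if h : i.val + 1 < d then ⟨i.val + 1, h⟩ else i)
  else ⟨i.val - 1, by have := i.isLt; omega⟩

theorem tw_val (d : ℕ) (hd : d % 2 = 0) (i : Fin d) :
    (tw d i).val = if i.val % 2 = 0 then i.val + 1 else i.val - 1 := by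
  unfold tw
  have := i.isLt
  by_cases h : i.val % 2 = 0
  · rw [if_pos h, if_pos h, dif_pos (by omega)]
  · rw [if_neg h, if_neg h]

theorem tw_tw (d : ℕ) (hd : d % 2 = 0) (i : Fin d) : tw d (tw d i) = i := by
  apply Fin.ext
  rw [tw_val d hd, tw_val d hd]
  by_cases h : i.val % 2 = 0
  · rw [if_pos h, if_neg (by omega)]; omega
  · rw [if_neg h, if_pos (by omega)]; omega

/-- the signs of the block rotation -/
def sg (F : Type u) [Field F] (d : ℕ) (i : Fin d) : F := if i.val % 2 = 0 then -1 else 1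

theorem sg_mul_tw (d : ℕ) (hd : d % 2 = 0) (i : Fin d) : sg F d i * sg F d (tw d i) = -1 := by
  unfold sg
  rw [tw_val d hd]
  by_cases h : i.val % 2 = 0
  · rw [if_pos h, if_pos h, if_neg (by omega)]; simp
  · rw [if_neg h, if_neg h, if_pos (by omega)]; simp

theorem sg_mul_self (d : ℕ) (i : Fin d) : sg F d i * sg F d i = 1 := by
  unfold sg
  by_cases h : i.val % 2 = 0
  · rw [if_pos h]; simp
  · rw [if_neg h]; simp

/-- the block rotation on `Fin d ⊕ Fin d` -/
def rotM (F : Type u) [Field F] (d : ℕ) : Matrix (Fin d ⊕ Fin d) (Fin d ⊕ Fin d) F :=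
  mono (Sum.map (tw d) (tw d)) (fun p => sg F d (Sum.elim id id p))

theorem rotM_sq (d : ℕ) (hd : d % 2 = 0) : rotM F d * rotM F d = -1 := by
  apply mono_mul_self
  · rintro (i | i)
    · show Sum.inl (tw d (tw d i)) = Sum.inl i
      rw [tw_tw d hd]
    · show Sum.inr (tw d (tw d i)) = Sum.inr i
      rw [tw_tw d hd]
  · rintro (i | i)
    · exact sg_mul_tw d hd i
    · exact sg_mul_tw d hd i

theorem rotM_quad (d : ℕ) (hd : d % 2 = 0) (u : Fin d ⊕ Fin d → F) :
    Cfsg.quadFormPlus d F ((rotM F d).mulVec u) = Cfsg.quadFormPlus d F u := by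
  unfold Cfsg.quadFormPlus rotM
  simp only [mono_mulVec]
  have e : ∀ i : Fin d, sg F d (Sum.elim id id (Sum.inl i : Fin d ⊕ Fin d)) *
      u (Sum.map (tw d) (tw d) (Sum.inl i)) *
      (sg F d (Sum.elim id id (Sum.inr i : Fin d ⊕ Fin d)) * u (Sum.map (tw d) (tw d) (Sum.inr i))) =
      u (Sum.inl (tw d i)) * u (Sum.inr (tw d i)) := by
    intro i
    show sg F d i * u (Sum.inl (tw d i)) * (sg F d i * u (Sum.inr (tw d i))) = _
    calc sg F d i * u (Sum.inl (tw d i)) * (sg F d i * u (Sum.inr (tw d i)))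
        = (sg F d i * sg F d i) * (u (Sum.inl (tw d i)) * u (Sum.inr (tw d i))) := by ring
      _ = _ := by rw [sg_mul_self, one_mul]
  rw [Finset.sum_congr rfl (fun i _ => e i)]
  have hinv : Function.Involutive (tw d) := tw_tw d hd
  exact Function.Bijective.sum_comp hinv.bijective (fun i => u (Sum.inl i) * u (Sum.inr i))

end Rot

/-- piece EV2-EXJPLUS. -/
theorem exJPlus : StExJPlus.{u} := by
  intro F _ d h
  rcases h with hd | ⟨s, hs⟩
  · have hd' : d % 2 = 0 := Nat.even_iff.mp hd
    refine ⟨unitOfSq (rotM F d) (rotM_sq d hd'), ?_, rotM_sq d hd'⟩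
    intro u v
    exact rotM_quad d hd' u
  · -- `diag(s, -s)`
    have hs' : s * s = -1 := hs.symm
    let c : Fin d ⊕ Fin d → F := Sum.elim (fun _ => s) (fun _ => -s)
    have hsq : mono (id : Fin d ⊕ Fin d → Fin d ⊕ Fin d) c * mono id c = -1 := by
      apply mono_mul_self
      · intro p; rfl
      · rintro (i | i)
        · exact hs'
        · show -s * -s = -1
          rw [neg_mul_neg, hs']
    refine ⟨unitOfSq _ hsq, ?_, hsq⟩
    intro u v
    show Cfsg.quadFormPlus d F ((mono id c).mulVec u) = Cfsg.quadFormPlus d F u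
    unfold Cfsg.quadFormPlus
    simp only [mono_mulVec]
    apply Finset.sum_congr rfl
    intro i _
    show s * u (Sum.inl i) * (-s * u (Sum.inr i)) = u (Sum.inl i) * u (Sum.inr i)
    calc s * u (Sum.inl i) * (-s * u (Sum.inr i))
        = -(s * s) * (u (Sum.inl i) * u (Sum.inr i)) := by ring
      _ = _ := by rw [hs', neg_neg, one_mul]

example : Cfsg.Agent.H86.Ev2.StExJPlus.{u} := exJPlus

end Cfsg.Agent.H53.Ev2
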