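import Mathlib
import Cfsg.Agent.H99.ElSTR

/-!
# S5979-FIN (helper53, for helper99): an element of order `r` whose tensor factor is small is scalar

Two facts about matrices `Y` with `Y ^ r = 1` over a finite field `F` with `q` elements, `r` a
prime different from the characteristic, `c` the order of `q` modulo `r`:
* `c ∣ rank (Y - 1)`;
* if `(A ⊗ B) ^ r = 1`, `2 ≤ c` and `A` has size `a < c`, then `A` is scalar.
-/

set_option autoImplicit false

open scoped Kronecker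

namespace Cfsg.Agent.H53.Ten

/-- The dimension count for a matrix of order dividing `r`. -/
theorem ten_fin_mod {F : Type*} [Field F] [Fintype F] {b : ℕ} (r : ℕ) (hr : r.Prime)
    (hrF : (r : F) ≠ 0) (Y : Matrix (Fin b) (Fin b) F) (hY : Y ^ r = 1) :
    ∃ a' : ℕ, b = Module.finrank F ↥(LinearMap.ker (Matrix.toLinAlgEquiv' Y - 1))
      + a' * orderOf (Fintype.card F : ZMod r) := by
  have hT : (Matrix.toLinAlgEquiv' Y) ^ r = 1 := by
    rw [← map_pow, hY, map_one]
  obtain ⟨a', ha'⟩ := Cfsg.Agent.H99.El.finrank_invariant_mod (Matrix.toLinAlgEquiv' Y) r hr hrF hT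
    ⊤ (fun v _ => Submodule.mem_top)
  refine ⟨a', ?_⟩
  rw [finrank_top, Module.finrank_fin_fun, top_inf_eq] at ha'
  exact ha'

theorem order_dvd_rank_sub_one {F : Type*} [Field F] [Fintype F] {b : ℕ} (r : ℕ) (hr : r.Prime)
    (hrF : (r : F) ≠ 0) (Y : Matrix (Fin b) (Fin b) F) (hY : Y ^ r = 1) :
    orderOf (Fintype.card F : ZMod r) ∣ (Y - 1).rank := by
  obtain ⟨a', ha'⟩ := ten_fin_mod r hr hrF Y hY
  have hT1 : Matrix.toLinAlgEquiv' Y - 1 = (Y - 1).mulVecLin := by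
    rw [← map_one (Matrix.toLinAlgEquiv' (R := F) (n := Fin b)), ← map_sub]
    rfl
  have hrn := LinearMap.finrank_range_add_finrank_ker ((Y - 1).mulVecLin)
  rw [Module.finrank_fin_fun] at hrn
  have hrank : (Y - 1).rank = Module.finrank F ↥(LinearMap.range ((Y - 1).mulVecLin)) := rfl
  rw [hT1] at ha'
  refine ⟨a', ?_⟩
  rw [hrank]
  have h3 : Module.finrank F ↥(LinearMap.range ((Y - 1).mulVecLin))
      + Module.finrank F ↥(LinearMap.ker ((Y - 1).mulVecLin))
      = a' * orderOf (Fintype.card F : ZMod r)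
        + Module.finrank F ↥(LinearMap.ker ((Y - 1).mulVecLin)) := by
    rw [hrn, add_comm]; exact ha'
  rw [Nat.add_right_cancel h3, mul_comm]

/-- Powers of a Kronecker product. -/
theorem ten_kron_pow {F : Type*} [Field F] {a b : ℕ}
    (A : Matrix (Fin a) (Fin a) F) (B : Matrix (Fin b) (Fin b) F) (k : ℕ) :
    (A ⊗ₖ B) ^ k = (A ^ k) ⊗ₖ (B ^ k) := by
  induction k with
  | zero => rw [pow_zero, pow_zero, pow_zero, Matrix.one_kronecker_one]
  | succ k ih => rw [pow_succ, pow_succ, pow_succ, ih, Matrix.mul_kronecker_mul]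

theorem scalar_of_kronecker_pow_eq_one {F : Type*} [Field F] [Fintype F] {a b : ℕ} (hb : 0 < b)
    (r : ℕ) (hr : r.Prime) (hrF : (r : F) ≠ 0) (hc : 2 ≤ orderOf (Fintype.card F : ZMod r))
    (hac : a < orderOf (Fintype.card F : ZMod r))
    (A : Matrix (Fin a) (Fin a) F) (B : Matrix (Fin b) (Fin b) F) (h : (A ⊗ₖ B) ^ r = 1) :
    ∃ α : F, A = α • (1 : Matrix (Fin a) (Fin a) F) := by
  classical
  rcases Nat.eq_zero_or_pos a with ha0 | ha0
  · subst ha0
    exact ⟨0, Subsingleton.elim _ _⟩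
  rw [ten_kron_pow] at h
  obtain ⟨β, hβ⟩ : ∃ β : F, β = (B ^ r) ⟨0, hb⟩ ⟨0, hb⟩ := ⟨_, rfl⟩
  have hent : ∀ i j : Fin a, (A ^ r) i j * β = (1 : Matrix (Fin a) (Fin a) F) i j := by
    intro i j
    have h1 := congrFun (congrFun h (i, ⟨0, hb⟩)) (j, ⟨0, hb⟩)
    rw [Matrix.kroneckerMap_apply, ← hβ] at h1
    rw [h1, Matrix.one_apply, Matrix.one_apply]
    by_cases hij : i = j
    · subst hij; simp
    · have : ¬ ((i, (⟨0, hb⟩ : Fin b)) = (j, ⟨0, hb⟩)) := by
        intro hh; exact hij (Prod.ext_iff.mp hh).1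
      rw [if_neg this, if_neg hij]
  have hβ0 : β ≠ 0 := by
    intro h0
    have := hent ⟨0, ha0⟩ ⟨0, ha0⟩
    rw [h0, mul_zero, Matrix.one_apply_eq] at this
    exact zero_ne_one this
  have hAr : A ^ r = β⁻¹ • (1 : Matrix (Fin a) (Fin a) F) := by
    ext i j
    have h1 := hent i j
    rw [Matrix.smul_apply, smul_eq_mul, ← h1]
    field_simp
  -- `r` is coprime to `q - 1`
  have hq1 : 1 ≤ Fintype.card F := Fintype.card_pos
  have hndvd : ¬ r ∣ Fintype.card F - 1 := by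
    intro hdvd
    have h1 : (Fintype.card F : ZMod r) = 1 := by
      have h2 : ((Fintype.card F - 1 : ℕ) : ZMod r) = 0 :=
        (ZMod.natCast_eq_zero_iff _ _).mpr hdvd
      rw [Nat.cast_sub hq1, Nat.cast_one, sub_eq_zero] at h2
      exact h2
    rw [h1, orderOf_one] at hc
    omega
  have hcop : (Nat.card Fˣ).Coprime r := by
    rw [Nat.card_eq_fintype_card, Fintype.card_units]
    exact (Nat.coprime_comm.mp ((Nat.Prime.coprime_iff_not_dvd hr).mpr hndvd))
  obtain ⟨ν, hν⟩ := (powCoprime hcop).surjective (Units.mk0 β⁻¹ (inv_ne_zero hβ0))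
  have hν' : (ν : F) ^ r = β⁻¹ := by
    have := congrArg (fun u : Fˣ => (u : F)) hν
    simpa [powCoprime_apply] using this
  have hν0 : (ν : F) ≠ 0 := ν.ne_zero
  obtain ⟨A', hA'⟩ : ∃ A' : Matrix (Fin a) (Fin a) F, A' = (ν : F)⁻¹ • A := ⟨_, rfl⟩
  have hA'r : A' ^ r = 1 := by
    rw [hA', smul_pow, hAr, inv_pow, hν', inv_inv, smul_smul, mul_inv_cancel₀ hβ0, one_smul]
  obtain ⟨a', ha'⟩ := ten_fin_mod r hr hrF A' hA'r
  have ha'0 : a' = 0 := by
    by_contra hne
    have h1 : 1 ≤ a' := Nat.one_le_iff_ne_zero.mpr hne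
    have h2 : orderOf (Fintype.card F : ZMod r) ≤ a' * orderOf (Fintype.card F : ZMod r) :=
      Nat.le_mul_of_pos_left _ h1
    omega
  rw [ha'0, zero_mul, add_zero] at ha'
  have hker : LinearMap.ker (Matrix.toLinAlgEquiv' A' - 1) = ⊤ := by
    apply Submodule.eq_top_of_finrank_eq
    rw [← ha', Module.finrank_fin_fun]
  have hT1 : Matrix.toLinAlgEquiv' A' = 1 := by
    have := LinearMap.ker_eq_top.mp hker
    exact sub_eq_zero.mp this
  have hA'1 : A' = 1 := by
    apply (Matrix.toLinAlgEquiv' (R := F) (n := Fin a)).injective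
    rw [hT1, map_one]
  refine ⟨(ν : F), ?_⟩
  rw [← hA'1, hA', smul_smul, mul_inv_cancel₀ hν0, one_smul]

example {F : Type*} [Field F] [Fintype F] {a b : ℕ} (hb : 0 < b)
    (r : ℕ) (hr : r.Prime) (hrF : (r : F) ≠ 0) (hc : 2 ≤ orderOf (Fintype.card F : ZMod r))
    (hac : a < orderOf (Fintype.card F : ZMod r))
    (A : Matrix (Fin a) (Fin a) F) (B : Matrix (Fin b) (Fin b) F) (h : (A ⊗ₖ B) ^ r = 1) :
    ∃ α : F, A = α • (1 : Matrix (Fin a) (Fin a) F) :=
  scalar_of_kronecker_pow_eq_one hb r hr hrF hc hac A B h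

example {F : Type*} [Field F] [Fintype F] {b : ℕ} (r : ℕ) (hr : r.Prime)
    (hrF : (r : F) ≠ 0) (Y : Matrix (Fin b) (Fin b) F) (hY : Y ^ r = 1) :
    orderOf (Fintype.card F : ZMod r) ∣ (Y - 1).rank :=
  order_dvd_rank_sub_one r hr hrF Y hY

end Cfsg.Agent.H53.Ten
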