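import Mathlib
import Cfsg.Agent.H52.JxDefs
import Cfsg.Agent.Helper55.UqBase

/-!
# JX-PF (piece of S2953 / JY-KILL2, helper52's sub-project JX)

Generic facts on `O₂(K ⊔ T)` for a configuration `Base S M T K L`: it lies in `T` (`T` is a Sylow
2-subgroup of `K ⊔ T`, because it is one of the maximal 2-local over `K ⊔ T` of helper55's
`exists_max`), it is non-trivial (part of `K ∈ 𝒦_{G∖M}(T)`), and `K ⊔ T` normalizes it.
-/

set_option autoImplicit false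
open Cfsg

namespace Cfsg.Agent.H53.Jx

open Cfsg.Agent.Helper55 Cfsg.Agent.Helper55.ThJ Cfsg.Agent.Helper55.J48
open Cfsg.Agent.H64.Jz Cfsg.Agent.H64.Jy Cfsg.Agent.H52.Jx

universe u

/-- JX-PF (helper52's KILL2 sub-project of S2953). -/
theorem pf : StPF.{u} := by
  intro G _ _ S M T K L hB
  obtain ⟨hZN, hO, hM, hMJ, hT, hTS, hK, hLmax, hKL⟩ := id hB
  obtain ⟨hL, hN, hZ⟩ := id hZN
  obtain ⟨L₁, -, hXL, -, hov, -⟩ :=
    Cfsg.Agent.Helper55.Uq.exists_max hL hN hZ S M hMJ T hT K hK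
  obtain ⟨hTL, hT2, hodd⟩ := hov.1
  -- `T` is a Sylow 2-subgroup of `K ⊔ T`
  have hTP : T ≤ K ⊔ T := le_sup_right
  have hmul : T.relIndex (K ⊔ T) * (K ⊔ T).relIndex L₁ = T.relIndex L₁ :=
    Subgroup.relIndex_mul_relIndex T (K ⊔ T) L₁ hTP hXL
  have hodd' : Odd (T.relIndex (K ⊔ T)) := by
    rw [← hmul] at hodd
    exact Nat.Odd.of_mul_left hodd
  have hsyl : IsSylowTwoIn T (K ⊔ T) := ⟨hTP, hT2, hodd'⟩
  exact ⟨pCoreOf_le_of_sylowIn hsyl, hK.2.2, le_normalizer_pCoreOf (K ⊔ T)⟩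

end Cfsg.Agent.H53.Jx

universe u in
example : Cfsg.Agent.H52.Jx.StPF.{u} := Cfsg.Agent.H53.Jx.pf.{u}

#print axioms Cfsg.Agent.H53.Jx.pf
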