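import Mathlib
import Cfsg.Agent.H86.Ev2Defs
import Cfsg.Agent.H53.Ev2ExJPlus

/-!
# EV2-EXJMINUS (helper86's shared project): an isometry of the minus space squaring to `-1` (helper53)

Block rotation on the hyperbolic part, and `s • [[-a, -2b], [2, a]]` with `s² (a² - 4b) = -1` on the
anisotropic plane.
-/

set_option autoImplicit false

namespace Cfsg.Agent.H53.Ev2

open Cfsg.Agent.H86.Ev2

universe u

section Plane

variable {F : Type u} [Field F]

/-- the matrix on the anisotropic plane -/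
def planeM (a b s : F) : Matrix (Fin 2) (Fin 2) F := !![-a * s, -2 * b * s; 2 * s, a * s]

theorem planeM_sq (a b s : F) (hs : s * s * (a ^ 2 - 4 * b) = -1) :
    planeM a b s * planeM a b s = -1 := by
  ext i j
  fin_cases i <;> fin_cases j <;> simp [planeM, Matrix.mul_apply, Fin.sum_univ_two] <;>
    first | linear_combination hs | ring

theorem planeM_mulVec_zero (a b s : F) (y : Fin 2 → F) :
    (planeM a b s).mulVec y 0 = -a * s * y 0 + -2 * b * s * y 1 := by
  simp [planeM, Matrix.mulVec, dotProduct, Fin.sum_univ_two]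

theorem planeM_mulVec_one (a b s : F) (y : Fin 2 → F) :
    (planeM a b s).mulVec y 1 = 2 * s * y 0 + a * s * y 1 := by
  simp [planeM, Matrix.mulVec, dotProduct, Fin.sum_univ_two]

end Plane

/-- piece EV2-EXJMINUS. -/
theorem exJMinus : StExJMinus.{u} := by
  intro F _ _ n a b h2 haniso hn hm1
  classical
  have hn' : n % 2 = 0 := Nat.even_iff.mp hn
  -- the discriminant is a nonsquare
  have hΔ : ¬ IsSquare (a ^ 2 - 4 * b) := by
    rintro ⟨t, ht⟩
    have := haniso ((-a + t) / 2) 1 (by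
      field_simp
      linear_combination (-1 : F) * ht)
    exact one_ne_zero this.2
  have hΔ0 : a ^ 2 - 4 * b ≠ 0 := by
    intro h0
    exact hΔ ⟨0, by rw [h0, mul_zero]⟩
  -- `-Δ` is a square
  have hsq : IsSquare (-1 * (a ^ 2 - 4 * b)) := by
    rw [← quadraticChar_one_iff_isSquare (mul_ne_zero (neg_ne_zero.mpr one_ne_zero) hΔ0), map_mul,
      quadraticChar_neg_one_iff_not_isSquare.mpr hm1, quadraticChar_neg_one_iff_not_isSquare.mpr hΔ]
    norm_num
  obtain ⟨t, ht⟩ := hsq
  set Δ := a ^ 2 - 4 * b with hΔdef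
  let s : F := t / Δ
  have hs : s * s * (a ^ 2 - 4 * b) = -1 := by
    show t / Δ * (t / Δ) * Δ = -1
    field_simp
    linear_combination -ht
  let M : Matrix ((Fin n ⊕ Fin n) ⊕ Fin 2) ((Fin n ⊕ Fin n) ⊕ Fin 2) F :=
    Matrix.fromBlocks (rotM F n) 0 0 (planeM a b s)
  have hM : M * M = -1 := by
    show Matrix.fromBlocks (rotM F n) 0 0 (planeM a b s) *
      Matrix.fromBlocks (rotM F n) 0 0 (planeM a b s) = -1
    rw [Matrix.fromBlocks_multiply, rotM_sq n hn', planeM_sq a b s hs]
    simp only [Matrix.mul_zero, Matrix.zero_mul, add_zero, zero_add]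
    ext (i | i) (j | j) <;> simp [Matrix.one_apply]
  refine ⟨unitOfSq M hM, ?_, hM⟩
  intro u v
  show Cfsg.quadFormMinus n F a b (M.mulVec u) = Cfsg.quadFormMinus n F a b u
  have hl : ∀ p : Fin n ⊕ Fin n, M.mulVec u (Sum.inl p) = (rotM F n).mulVec (u ∘ Sum.inl) p := by
    intro p
    show (Matrix.fromBlocks (rotM F n) 0 0 (planeM a b s)).mulVec u (Sum.inl p) = _
    rw [Matrix.fromBlocks_mulVec]
    simp
  have hr : ∀ k : Fin 2, M.mulVec u (Sum.inr k) = (planeM a b s).mulVec (u ∘ Sum.inr) k := by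
    intro k
    show (Matrix.fromBlocks (rotM F n) 0 0 (planeM a b s)).mulVec u (Sum.inr k) = _
    rw [Matrix.fromBlocks_mulVec]
    simp
  have hplus := rotM_quad n hn' (u ∘ Sum.inl)
  unfold Cfsg.quadFormPlus at hplus
  unfold Cfsg.quadFormMinus
  simp only [hl, hr, planeM_mulVec_zero, planeM_mulVec_one]
  rw [hplus]
  simp only [Function.comp_apply]
  linear_combination (-(u (Sum.inr 0) ^ 2 + a * u (Sum.inr 0) * u (Sum.inr 1) +
    b * u (Sum.inr 1) ^ 2)) * hs

example : Cfsg.Agent.H86.Ev2.StExJMinus.{u} := exJMinus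

end Cfsg.Agent.H53.Ev2
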