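import Cfsg.Agent.H23.StbHatDefs

/-!
# S2124-FINALH (helper23's project): the count `|Out| · |H| = |Ĥ| · |Aut F|` (helper53)
-/

set_option autoImplicit false

namespace Cfsg.Agent.H53.Stb

open Cfsg.Lie Cfsg.Agent.H23 Cfsg.Agent.H23.Stb

universe u

/-- Counting through a surjection with known fibres. -/
theorem card_of_fibres {T S O : Type*} [Group T] (Hs : Subgroup T) (Ψ : T × S → O)
    (hsurj : ∀ o, ∃ p, Ψ p = o)
    (hiff : ∀ k σ k' σ', Ψ (k, σ) = Ψ (k', σ') ↔ σ = σ' ∧ k⁻¹ * k' ∈ Hs) :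
    Nat.card O * Nat.card Hs = Nat.card T * Nat.card S := by
  let f : (T ⧸ Hs) × S → O := fun x => Ψ (x.1.out, x.2)
  have hf : Function.Bijective f := by
    constructor
    · rintro ⟨q, σ⟩ ⟨q', σ'⟩ h
      obtain ⟨h1, h2⟩ := (hiff _ _ _ _).mp h
      have hq : q = q' := by
        rw [← QuotientGroup.out_eq' q, ← QuotientGroup.out_eq' q']
        exact QuotientGroup.eq.mpr h2
      have h1' : σ = σ' := h1
      rw [hq, h1']
    · intro o
      obtain ⟨⟨k, σ⟩, rfl⟩ := hsurj o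
      refine ⟨(QuotientGroup.mk k, σ), ?_⟩
      show Ψ ((QuotientGroup.mk k : T ⧸ Hs).out, σ) = Ψ (k, σ)
      rw [hiff]
      refine ⟨rfl, ?_⟩
      exact QuotientGroup.eq.mp (QuotientGroup.out_eq' (QuotientGroup.mk k : T ⧸ Hs))
  have e1 : Nat.card O = Nat.card (T ⧸ Hs) * Nat.card S := by
    rw [← Nat.card_prod]; exact (Nat.card_congr (Equiv.ofBijective f hf)).symm
  have e2 : Nat.card T = Nat.card (T ⧸ Hs) * Nat.card Hs :=
    Subgroup.card_eq_card_quotient_mul_card_subgroup Hs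
  rw [e1, e2]; ring

/-- **S2124-FINALH**. -/
theorem finalH (h1 : StInnH.{u}) (h2 : StField.{u}) (h3 : StHatAut.{u}) : StFinalH.{u} := by
  intro D F _ _ z η rT w0 hC hrank hθ
  have hS : Sem D F z := hC.hP.sem
  have hT : Tab D := hC.hP.tab
  choose Φ hΦ using fun σ : F ≃+* F => h2 D F z hS σ
  have hδ' : ∀ k : ↥(torusGroup D F), ∃ δ : ↥(D.group F) ≃* ↥(D.group F), ∀ y : ↥(D.group F),
      ((δ y : ↥(D.group F)) : GL D.Idx F) =
        (k : GL D.Idx F) * (y : GL D.Idx F) * (k : GL D.Idx F)⁻¹ :=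
    fun k => h3 D F z hS k.1 k.2
  choose δ hδ using hδ'
  let Hs : Subgroup ↥(torusGroup D F) := (D.diagonalSubgroup F).subgroupOf (torusGroup D F)
  let Ψ : ↥(torusGroup D F) × (F ≃+* F) → Cfsg.Out ↥(D.group F) :=
    fun p => QuotientGroup.mk ((δ p.1 : MulAut ↥(D.group F)) * (Φ p.2 : MulAut ↥(D.group F)))
  have hcard : Nat.card ↥Hs = Nat.card ↥(D.diagonalSubgroup F) :=
    Nat.card_congr (Subgroup.subgroupOfEquivOfLe (diagonal_le_torus hS hT)).toEquiv
  rw [← hcard]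
  refine card_of_fibres Hs Ψ ?_ ?_
  · -- surjectivity
    intro o
    obtain ⟨θ, rfl⟩ := QuotientGroup.mk_surjective o
    obtain ⟨g, k, hk, σ, hE⟩ := hθ θ
    refine ⟨((⟨k, hk⟩ : ↥(torusGroup D F))⁻¹, σ), ?_⟩
    have e : (θ : MulAut ↥(D.group F)) =
        MulAut.conj g⁻¹ * ((δ (⟨k, hk⟩ : ↥(torusGroup D F))⁻¹ : MulAut ↥(D.group F)) * Φ σ) := by
      apply MulEquiv.ext
      intro y
      apply Subtype.ext
      have hy := hE y
      rw [conjL_apply] at hy
      simp only [MulAut.mul_apply, MulAut.conj_apply, Subgroup.coe_mul, InvMemClass.coe_inv, hδ,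
        hΦ, ← hy]
      group
    show (QuotientGroup.mk ((δ (⟨k, hk⟩ : ↥(torusGroup D F))⁻¹ : MulAut ↥(D.group F)) * Φ σ) :
      Cfsg.Out ↥(D.group F)) = QuotientGroup.mk θ
    have h1' : (QuotientGroup.mk (MulAut.conj g⁻¹ : MulAut ↥(D.group F)) :
        Cfsg.Out ↥(D.group F)) = 1 :=
      (QuotientGroup.eq_one_iff _).mpr ⟨g⁻¹, rfl⟩
    have e' : (QuotientGroup.mk (MulAut.conj g⁻¹ *
        ((δ (⟨k, hk⟩ : ↥(torusGroup D F))⁻¹ : MulAut ↥(D.group F)) * Φ σ)) :
          Cfsg.Out ↥(D.group F)) =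
        QuotientGroup.mk ((δ (⟨k, hk⟩ : ↥(torusGroup D F))⁻¹ : MulAut ↥(D.group F)) * Φ σ) := by
      rw [QuotientGroup.mk_mul, h1', one_mul]
    rw [e]; exact e'.symm
  · -- fibres
    intro k σ k' σ'
    constructor
    · intro h
      have h' : ((δ k : MulAut ↥(D.group F)) * Φ σ)⁻¹ * ((δ k' : MulAut ↥(D.group F)) * Φ σ') ∈
          Cfsg.Inn ↥(D.group F) := QuotientGroup.eq.mp h
      obtain ⟨x, hx⟩ := h'
      have hx' : ((δ k : MulAut ↥(D.group F)) * Φ σ) * MulAut.conj x =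
          (δ k' : MulAut ↥(D.group F)) * Φ σ' := by
        rw [hx, mul_inv_cancel_left]
      -- the element `gx`
      have hgx : glMap D (σ : F →+* F) (x : GL D.Idx F) ∈ D.group F := by
        rw [← hΦ σ x]; exact (Φ σ x).2
      let ρ : F ≃ F := σ.symm.toEquiv.trans σ'.toEquiv
      have hρ : ∀ t : F, ρ t = σ' (σ.symm t) := fun t => rfl
      have hconj : ∀ r < D.nroots, ∀ t : F,
          glMap D (σ : F →+* F) (x : GL D.Idx F) * xU hC.hP.sem r t *
              (glMap D (σ : F →+* F) (x : GL D.Idx F))⁻¹ =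
            ((k : GL D.Idx F)⁻¹ * (k' : GL D.Idx F)) * xU hC.hP.sem r (ρ t) *
              ((k : GL D.Idx F)⁻¹ * (k' : GL D.Idx F))⁻¹ := by
        intro r _ t
        have hy := congrArg (fun a : MulAut ↥(D.group F) =>
          ((a (xG hS r (σ.symm t)) : ↥(D.group F)) : GL D.Idx F)) hx'
        simp only [MulAut.mul_apply, MulAut.conj_apply, hδ, hΦ, Subgroup.coe_mul,
          InvMemClass.coe_inv, map_mul, map_inv] at hy
        have e1 : ((xG hS r (σ.symm t) : ↥(D.group F)) : GL D.Idx F) = xU hS r (σ.symm t) := rfl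
        rw [e1, glMap_xU hS hS, glMap_xU hS hS] at hy
        have e2 : (σ : F →+* F) (σ.symm t) = t := σ.apply_symm_apply t
        have e3 : (σ' : F →+* F) (σ.symm t) = ρ t := rfl
        rw [e2, e3] at hy
        calc glMap D (σ : F →+* F) (x : GL D.Idx F) * xU hS r t *
              (glMap D (σ : F →+* F) (x : GL D.Idx F))⁻¹
            = (k : GL D.Idx F)⁻¹ * ((k : GL D.Idx F) * glMap D (σ : F →+* F) (x : GL D.Idx F) *
                (k : GL D.Idx F)⁻¹ * ((k : GL D.Idx F) * xU hS r t * (k : GL D.Idx F)⁻¹) *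
                ((k : GL D.Idx F) * glMap D (σ : F →+* F) (x : GL D.Idx F) *
                  (k : GL D.Idx F)⁻¹)⁻¹) * (k : GL D.Idx F) := by group
          _ = (k : GL D.Idx F)⁻¹ * ((k' : GL D.Idx F) * xU hS r (ρ t) * (k' : GL D.Idx F)⁻¹) *
                (k : GL D.Idx F) := by rw [hy]
          _ = _ := by group
      have hmem : (k : GL D.Idx F)⁻¹ * (k' : GL D.Idx F) ∈ torusGroup D F :=
        (torusGroup D F).mul_mem ((torusGroup D F).inv_mem k.2) k'.2
      have hρ1 : ρ 1 = 1 := by rw [hρ, map_one, map_one]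
      obtain ⟨hid, hH⟩ := h1 D F z η rT w0 hC _ hgx _ hmem ρ hconj hρ1 hrank
      refine ⟨?_, ?_⟩
      · apply RingEquiv.ext
        intro s
        have := hid (σ s)
        rw [hρ, σ.symm_apply_apply] at this
        exact this.symm
      · show ((k⁻¹ * k' : ↥(torusGroup D F)) : GL D.Idx F) ∈ D.diagonalSubgroup F
        exact hH
    · rintro ⟨rfl, hH⟩
      have hH' : (k : GL D.Idx F)⁻¹ * (k' : GL D.Idx F) ∈ D.diagonalSubgroup F := hH
      let hG : ↥(D.group F) := ⟨(k : GL D.Idx F)⁻¹ * (k' : GL D.Idx F), diagonal_le_group hS hH'⟩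
      show (QuotientGroup.mk ((δ k : MulAut ↥(D.group F)) * Φ σ) : Cfsg.Out ↥(D.group F)) =
        QuotientGroup.mk ((δ k' : MulAut ↥(D.group F)) * Φ σ)
      rw [QuotientGroup.eq]
      refine ⟨(Φ σ).symm hG, ?_⟩
      rw [eq_inv_mul_iff_mul_eq]
      apply MulEquiv.ext
      intro y
      apply Subtype.ext
      simp only [MulAut.mul_apply, MulAut.conj_apply, hδ, map_mul, map_inv,
        MulEquiv.apply_symm_apply, Subgroup.coe_mul, InvMemClass.coe_inv]
      have ehG : ((hG : ↥(D.group F)) : GL D.Idx F) = (k : GL D.Idx F)⁻¹ * (k' : GL D.Idx F) := rfl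
      rw [ehG]
      group

example (h1 : Cfsg.Agent.H23.Stb.StInnH.{u}) (h2 : Cfsg.Agent.H23.Stb.StField.{u})
    (h3 : Cfsg.Agent.H23.Stb.StHatAut.{u}) : Cfsg.Agent.H23.Stb.StFinalH.{u} := finalH h1 h2 h3

end Cfsg.Agent.H53.Stb
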