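import Mathlib

/-!
# helper53: S3777 piece MAXSUB (a maximal subgroup between `K < H` in a `p`-group), for helper43
-/

set_option autoImplicit false

namespace Cfsg.Agent.H53.VL

/-- `|B : A| * |A| = |B|` for `A ≤ B`. -/
theorem relIndex_mul_card_of_le {G : Type*} [Group G] {A B : Subgroup G} (h : A ≤ B) :
    A.relIndex B * Nat.card A = Nat.card B := by
  have h1 := Subgroup.card_mul_index (A.subgroupOf B)
  rw [Nat.card_congr (Subgroup.subgroupOfEquivOfLe h).toEquiv] at h1
  rw [mul_comm]; exact h1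

/-- In a `p`-group a proper subgroup has at most `1/p` of the elements. -/
theorem p_mul_card_le {G : Type*} [Group G] [Finite G] {p : ℕ} [Fact p.Prime]
    (hG : IsPGroup p G) {A B : Subgroup G} (h : A ≤ B) (hne : A ≠ B) :
    p * Nat.card A ≤ Nat.card B := by
  have hp : p.Prime := Fact.out
  obtain ⟨a, ha⟩ := IsPGroup.iff_card.mp (hG.to_subgroup A)
  obtain ⟨b, hb⟩ := IsPGroup.iff_card.mp (hG.to_subgroup B)
  have hle : Nat.card A ≤ Nat.card B := Nat.le_of_dvd Nat.card_pos (Subgroup.card_dvd_of_le h)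
  have hlt : Nat.card A < Nat.card B := by
    rcases hle.lt_or_eq with h' | h'
    · exact h'
    · exact absurd (Subgroup.eq_of_le_of_card_ge h h'.ge) hne
  rw [ha, hb] at hlt ⊢
  have hab : a < b := (Nat.pow_lt_pow_iff_right hp.one_lt).mp hlt
  calc p * p ^ a = p ^ (a + 1) := by ring
    _ ≤ p ^ b := Nat.pow_le_pow_right hp.pos hab

theorem exists_max_between {G : Type*} [Group G] [Finite G] {p : ℕ} [Fact p.Prime]
    (hG : IsPGroup p G) (K H : Subgroup G) (hKH : K ≤ H) (hne : K ≠ H) :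
    ∃ M : Subgroup G, K ≤ M ∧ M ≤ H ∧ M.relIndex H = p := by
  have hp : p.Prime := Fact.out
  obtain ⟨N, hN⟩ := IsPGroup.iff_card.mp (hG.to_subgroup H)
  obtain ⟨k, hk⟩ := IsPGroup.iff_card.mp (hG.to_subgroup K)
  have hlt : p * Nat.card K ≤ Nat.card H := p_mul_card_le hG hKH hne
  have hkN : k < N := by
    rw [hk, hN] at hlt
    have h1 : p ^ (k + 1) ≤ p ^ N := by
      calc p ^ (k + 1) = p * p ^ k := by ring
        _ ≤ p ^ N := hlt
    have := (Nat.pow_le_pow_iff_right hp.one_lt).mp h1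
    omega
  obtain ⟨n, rfl⟩ : ∃ n, N = n + 1 := ⟨N - 1, by omega⟩
  have hK' : Nat.card (K.subgroupOf H) = p ^ k := by
    rw [← hk]; exact Nat.card_congr (Subgroup.subgroupOfEquivOfLe hKH).toEquiv
  obtain ⟨M', hM'card, hKM'⟩ := Sylow.exists_subgroup_card_pow_prime_le p (n := k) (m := n)
    (by rw [hN]; exact pow_dvd_pow p (Nat.le_succ n)) (K.subgroupOf H) hK' (by omega)
  have hle : M'.map H.subtype ≤ H := Subgroup.map_subtype_le M'
  refine ⟨M'.map H.subtype, ?_, hle, ?_⟩
  · intro x hx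
    exact ⟨⟨x, hKH hx⟩, hKM' (Subgroup.mem_subgroupOf.mpr hx), rfl⟩
  · have hcardM : Nat.card (M'.map H.subtype) = p ^ n := by
      rw [Subgroup.card_map_of_injective H.subtype_injective, hM'card]
    have h1 := relIndex_mul_card_of_le hle
    rw [hcardM, hN, pow_succ] at h1
    have hpos : 0 < p ^ n := pow_pos hp.pos n
    exact Nat.eq_of_mul_eq_mul_right hpos (by rw [h1, mul_comm])

example {G : Type*} [Group G] [Finite G] {p : ℕ} [Fact p.Prime] (hG : IsPGroup p G)
    (K H : Subgroup G) (hKH : K ≤ H) (hne : K ≠ H) :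
    ∃ M : Subgroup G, K ≤ M ∧ M ≤ H ∧ M.relIndex H = p := exists_max_between hG K H hKH hne

end Cfsg.Agent.H53.VL
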