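import Mathlib
import Cfsg.Agent.H53.VLMaxSub

/-!
# helper53: S3777 piece COVER (counting), for helper43
-/

set_option autoImplicit false

namespace Cfsg.Agent.H53.VL

theorem cover_card {G : Type*} [Group G] [Finite G] {p : ℕ} [Fact p.Prime] (hG : IsPGroup p G)
    (M D N₂ M₃ : Subgroup G) (hDM : D ≤ M) (hD : D.relIndex M = p)
    (hN₂M : N₂ ≤ M) (hN₂D : ¬ N₂ ≤ D) (hN₂ne : N₂ ≠ M)
    (hM₃M : M₃ ≤ M) (hM₃ : M₃.relIndex M = p) (hM₃N₂ : M₃ ⊓ N₂ ≤ D) (hM₃D : ¬ M₃ ≤ D)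
    (hcover : ∀ w ∈ M, w ∈ M₃ ∨ w ∈ D ∨ w ∈ N₂) :
    Nat.card M = p * Nat.card N₂ := by
  have hp : p.Prime := Fact.out
  have hcD : p * Nat.card D = Nat.card M := by rw [← hD]; exact relIndex_mul_card_of_le hDM
  have hcM₃ : p * Nat.card M₃ = Nat.card M := by rw [← hM₃]; exact relIndex_mul_card_of_le hM₃M
  have hcard : Nat.card D = Nat.card M₃ := Nat.eq_of_mul_eq_mul_left hp.pos (hcD.trans hcM₃.symm)
  have hDM₃ : ¬ D ≤ M₃ := by
    intro h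
    exact hM₃D (Subgroup.eq_of_le_of_card_ge h hcard.symm.le).symm.le
  obtain ⟨x, hxM₃, hxD⟩ := SetLike.not_le_iff_exists.mp hM₃D
  obtain ⟨y, hyD, hyM₃⟩ := SetLike.not_le_iff_exists.mp hDM₃
  have key : ∀ e' ∈ M₃ ⊓ D, x * (y * e') ∈ N₂ := by
    intro e' he'
    have hyeD : y * e' ∈ D := mul_mem hyD he'.2
    have hyeM₃ : y * e' ∉ M₃ := fun h => hyM₃ (by
      have h3 := mul_mem h (inv_mem he'.1)
      have e3 : y * e' * e'⁻¹ = y := by group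
      rwa [e3] at h3)
    have hmem : x * (y * e') ∈ M := mul_mem (hM₃M hxM₃) (hDM hyeD)
    rcases hcover _ hmem with h | h | h
    · exfalso
      apply hyeM₃
      have h3 := mul_mem (inv_mem hxM₃) h
      have e3 : x⁻¹ * (x * (y * e')) = y * e' := by group
      rwa [e3] at h3
    · exfalso
      apply hxD
      have h3 := mul_mem h (inv_mem hyeD)
      have e3 : x * (y * e') * (y * e')⁻¹ = x := by group
      rwa [e3] at h3
    · exact h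
  have h1 := key 1 (one_mem _)
  have hEN : M₃ ⊓ D ≤ N₂ := by
    intro e he
    have h2 := key e he
    have he' : e = (x * (y * 1))⁻¹ * (x * (y * e)) := by group
    rw [he']; exact mul_mem (inv_mem h1) h2
  have hENne : M₃ ⊓ D ≠ N₂ := by
    intro h
    rw [← h] at h1
    have h3 := mul_mem (inv_mem hxM₃) h1.1
    have e3 : x⁻¹ * (x * (y * 1)) = y := by group
    rw [e3] at h3
    exact hyM₃ h3
  have ha : p * Nat.card N₂ ≤ Nat.card M := p_mul_card_le hG hN₂M hN₂ne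
  have hb : p * Nat.card (M₃ ⊓ D : Subgroup G) ≤ Nat.card N₂ := p_mul_card_le hG hEN hENne
  have hEM : M₃ ⊓ D ≤ M := inf_le_left.trans hM₃M
  have hc : Nat.card M ≤ p * p * Nat.card (M₃ ⊓ D : Subgroup G) := by
    rw [← relIndex_mul_card_of_le hEM]
    apply Nat.mul_le_mul_right
    calc (M₃ ⊓ D).relIndex M ≤ M₃.relIndex M * D.relIndex M := Subgroup.relIndex_inf_le
      _ = p * p := by rw [hM₃, hD]
  apply le_antisymm _ ha
  calc Nat.card M ≤ p * p * Nat.card (M₃ ⊓ D : Subgroup G) := hc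
    _ = p * (p * Nat.card (M₃ ⊓ D : Subgroup G)) := by ring
    _ ≤ p * Nat.card N₂ := Nat.mul_le_mul_left p hb

example {G : Type*} [Group G] [Finite G] {p : ℕ} [Fact p.Prime] (hG : IsPGroup p G)
    (M D N₂ M₃ : Subgroup G) (hDM : D ≤ M) (hD : D.relIndex M = p)
    (hN₂M : N₂ ≤ M) (hN₂D : ¬ N₂ ≤ D) (hN₂ne : N₂ ≠ M)
    (hM₃M : M₃ ≤ M) (hM₃ : M₃.relIndex M = p) (hM₃N₂ : M₃ ⊓ N₂ ≤ D) (hM₃D : ¬ M₃ ≤ D)
    (hcover : ∀ w ∈ M, w ∈ M₃ ∨ w ∈ D ∨ w ∈ N₂) :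
    Nat.card M = p * Nat.card N₂ :=
  cover_card hG M D N₂ M₃ hDM hD hN₂M hN₂D hN₂ne hM₃M hM₃ hM₃N₂ hM₃D hcover

end Cfsg.Agent.H53.VL
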