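import Mathlib

/-!
# helper53: S3777 piece DROP (relIndex bookkeeping), for helper43
-/

set_option autoImplicit false

namespace Cfsg.Agent.H53.VL

theorem relIndex_drop {G : Type*} [Group G] [Finite G] {p : ℕ} (H M : Subgroup G) (hMH : M ≤ H)
    (hidx : M.relIndex H = p) (K : Subgroup G) (hK : K ⊓ H ≤ M) :
    K.relIndex M * p = K.relIndex H := by
  have h1 : K.relIndex H = (K ⊓ H).relIndex H := (Subgroup.inf_relIndex_right K H).symm
  have h2 : K.relIndex M = (K ⊓ H).relIndex M := by
    rw [← Subgroup.inf_relIndex_right K M, ← Subgroup.inf_relIndex_right (K ⊓ H) M]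
    congr 1
    rw [inf_assoc, inf_eq_right.mpr hMH]
  rw [h1, h2, ← hidx]
  exact Subgroup.relIndex_mul_relIndex (K ⊓ H) M H hK hMH

example {G : Type*} [Group G] [Finite G] {p : ℕ} (H M : Subgroup G) (hMH : M ≤ H)
    (hidx : M.relIndex H = p) (K : Subgroup G) (hK : K ⊓ H ≤ M) :
    K.relIndex M * p = K.relIndex H := relIndex_drop H M hMH hidx K hK

end Cfsg.Agent.H53.VL
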