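import Mathlib
import Cfsg.Agent.H48.EpDefs2
import Cfsg.Agent.H98.EpCntB
import Cfsg.Agent.H4.OhCntOrb

/-!
# EP-CNTA (helper53, for helper48; type-generic core reusable for the minus twin EQ-CNTA)

If the fixed space `K` of an isometry `x` with `x ^ r = 1` of the standard plus space has
dimension `< c` and `m < dim K`, `m < c`, the number of nondegenerate `m`-spaces of a given type
`pl` is prime to `r`, PROVIDED the isometries fixing a nondegenerate subspace `R` pointwise act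
transitively on the nondegenerate subspaces of given dimension and type `pl` orthogonal to `R`
(`OrbTy`; Witt).  Port of helper25's `OhCnt` and helper4's `OhCntOrb`.
-/

set_option autoImplicit false

namespace Cfsg.Agent.H53.Ep

open Cfsg.Agent.H45 Cfsg.Agent.H42.Spd Cfsg.Agent.H42.Ti Cfsg.Agent.H48.Ep Module

universe u

/-- The nondegenerate `m`-spaces of type `pl` (`QPlus ↔ pl`) of the standard plus space. -/
def IsTy (F : Type u) [Field F] (d m : ℕ) (pl : Prop) (W : Submodule F (Fin d ⊕ Fin d → F)) :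
    Prop :=
  finrank F W = m ∧ QNd (Cfsg.Agent.H49.QP d F) W ∧ (QPlus (Cfsg.Agent.H49.QP d F) W ↔ pl)

/-- Witt transitivity for the type `pl`: two nondegenerate subspaces of the same dimension and of
type `pl`, both orthogonal to a nondegenerate subspace `R`, are conjugate under an isometry
fixing `R` pointwise. -/
def OrbTy (F : Type u) [Field F] [Fintype F] (d : ℕ) (pl : Prop) : Prop :=
  ∀ R W W' : Submodule F (Fin d ⊕ Fin d → F),
    QNd (Cfsg.Agent.H49.QP d F) R → QNd (Cfsg.Agent.H49.QP d F) W →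
    QNd (Cfsg.Agent.H49.QP d F) W' →
    (∀ u ∈ W, ∀ v ∈ R, QuadraticMap.polar (Cfsg.quadFormPlus d F) u v = 0) →
    (∀ u ∈ W', ∀ v ∈ R, QuadraticMap.polar (Cfsg.quadFormPlus d F) u v = 0) →
    Module.finrank F W = Module.finrank F W' →
    (QPlus (Cfsg.Agent.H49.QP d F) W ↔ pl) → (QPlus (Cfsg.Agent.H49.QP d F) W' ↔ pl) →
    ∃ g : Matrix.GeneralLinearGroup (Fin d ⊕ Fin d) F,
      g ∈ Cfsg.isometryGroup F (Cfsg.quadFormPlus d F) ∧
      (∀ v ∈ R, Matrix.toLin' (g : Matrix (Fin d ⊕ Fin d) (Fin d ⊕ Fin d) F) v = v) ∧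
      W.map (Matrix.toLin' (g : Matrix (Fin d ⊕ Fin d) (Fin d ⊕ Fin d) F)) = W'

/-- The type-generic count: the number of nondegenerate `m`-spaces of type `pl` is prime to
`r`. -/
theorem cntA_core (hS : StStruct.{u,u}) (hBr : StBridge.{u})
    (F : Type u) [Field F] [Fintype F] (p : ℕ) [Fact p.Prime] [CharP F p] (r : ℕ)
    (hr : r.Prime) (hr2 : r ≠ 2) (hrp : r ≠ p) (d m : ℕ) (pl : Prop) (hm : Even m)
    (hm2 : 2 ≤ m) (hmc : m < cc F r) (hOrb : OrbTy F d pl)
    (x : Matrix.GeneralLinearGroup (Fin d ⊕ Fin d) F)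
    (hx : x ∈ Cfsg.isometryGroup F (Cfsg.quadFormPlus d F)) (hxr : x ^ r = 1)
    (hmK : m < finrank F ↥(LinearMap.ker (Matrix.toLin'
      (x : Matrix (Fin d ⊕ Fin d) (Fin d ⊕ Fin d) F) - 1)))
    (hKc : finrank F ↥(LinearMap.ker (Matrix.toLin'
      (x : Matrix (Fin d ⊕ Fin d) (Fin d ⊕ Fin d) F) - 1)) < cc F r) :
    ¬ r ∣ Nat.card {W : Submodule F (Fin d ⊕ Fin d → F) // IsTy F d m pl W} := by
  classical
  obtain ⟨hNdTop, hPlusTop, hfr, -, hIso⟩ := hBr F d m
  obtain ⟨T, hT⟩ : ∃ T : Module.End F (Fin d ⊕ Fin d → F),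
      T = Matrix.toLin' (x : Matrix (Fin d ⊕ Fin d) (Fin d ⊕ Fin d) F) := ⟨_, rfl⟩
  rw [← hT] at hmK hKc
  have hTiso : ∀ v, Cfsg.Agent.H49.QP d F (T v) = Cfsg.Agent.H49.QP d F v := by
    rw [hT]
    exact (hIso x).mp hx
  have hTpow : T ^ r = 1 := by
    have h1 : ((x ^ r : Matrix.GeneralLinearGroup (Fin d ⊕ Fin d) F) :
        Matrix (Fin d ⊕ Fin d) (Fin d ⊕ Fin d) F) = 1 := by
      rw [hxr]
      rfl
    have h2' : (x : Matrix (Fin d ⊕ Fin d) (Fin d ⊕ Fin d) F) ^ r = 1 := by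
      rw [← h1]
      exact (Units.val_pow_eq_pow_val x r).symm
    have h3 := congrArg (Matrix.toLinAlgEquiv' (R := F)) h2'
    rw [map_pow, map_one] at h3
    rw [hT]
    exact h3
  have hrF : (r : F) ≠ 0 := by
    intro h0
    have h1 := (CharP.cast_eq_zero_iff F p r).mp h0
    exact hrp ((Nat.prime_dvd_prime_iff_eq Fact.out hr).mp h1).symm
  have hEven : Even (finrank F (Fin d ⊕ Fin d → F)) := by
    rw [hfr]
    exact even_two_mul d
  obtain ⟨hKnd, A, -, -, hEx, hUp⟩ := hS F (Fin d ⊕ Fin d → F) (Cfsg.Agent.H49.QP d F) T r True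
    hr hr2 hrF hNdTop hTiso hTpow hEven (iff_true_intro hPlusTop)
  have hkkTop : kk T ⊤ = finrank F ↥(LinearMap.ker (T - 1)) := by
    unfold kk
    rw [top_inf_eq]
  -- powers of `T`
  have hTk_iso : ∀ (k : ℕ) (a : Fin d ⊕ Fin d → F),
      Cfsg.Agent.H49.QP d F ((T ^ k) a) = Cfsg.Agent.H49.QP d F a := by
    intro k
    induction k with
    | zero => intro a; simp
    | succ k ih =>
      intro a
      rw [pow_succ, Module.End.mul_apply, ih, hTiso]
  have hTinj : Function.Injective T := by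
    intro a b hab
    have h1 : (T ^ r) a = (T ^ r) b := by
      obtain ⟨k, hk⟩ : ∃ k, r = k + 1 := ⟨r - 1, by have := hr.pos; omega⟩
      rw [hk, pow_succ, Module.End.mul_apply, Module.End.mul_apply, hab]
    rw [hTpow] at h1
    exact h1
  have hTk_inj : ∀ k : ℕ, Function.Injective (T ^ k) := by
    intro k
    induction k with
    | zero => intro a b hab; simpa using hab
    | succ k ih =>
      intro a b hab
      rw [pow_succ, Module.End.mul_apply, Module.End.mul_apply] at hab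
      exact hTinj (ih hab)
  have hmapk : ∀ (k : ℕ) (W : Submodule F (Fin d ⊕ Fin d → F)),
      (W.map T).map (T ^ k) = W.map (T ^ (k + 1)) := by
    intro k W
    rw [pow_succ, Module.End.mul_eq_comp, Submodule.map_comp]
  have hmapr : ∀ W : Submodule F (Fin d ⊕ Fin d → F), W.map (T ^ r) = W := by
    intro W
    rw [hTpow, Module.End.one_eq_id, Submodule.map_id]
  have hPlusT : ∀ W : Submodule F (Fin d ⊕ Fin d → F),
      QPlus (Cfsg.Agent.H49.QP d F) (W.map T) ↔ QPlus (Cfsg.Agent.H49.QP d F) W := by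
    intro W
    constructor
    · intro hW
      obtain ⟨k, hk⟩ : ∃ k, r = k + 1 := ⟨r - 1, by have := hr.pos; omega⟩
      have h1 := Cfsg.Agent.H98.Ep.cntB_plus_map (Cfsg.Agent.H49.QP d F) (T ^ k) (hTk_iso k)
        (hTk_inj k) (W.map T) hW
      rw [hmapk, ← hk, hmapr] at h1
      exact h1
    · exact Cfsg.Agent.H98.Ep.cntB_plus_map _ T hTiso hTinj W
  have hTymap : ∀ W : Submodule F (Fin d ⊕ Fin d → F),
      IsTy F d m pl W → IsTy F d m pl (W.map T) := by
    intro W hW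
    obtain ⟨h1, h2', h3⟩ := hW
    refine ⟨?_, Cfsg.Agent.H98.Ep.cntB_nd_map _ T hTiso W h2', (hPlusT W).trans h3⟩
    rw [← (Submodule.equivMapOfInjective T hTinj W).finrank_eq]
    exact h1
  have hfinS : Finite (Submodule F (Fin d ⊕ Fin d → F)) :=
    Finite.of_injective (fun W : Submodule F (Fin d ⊕ Fin d → F) =>
      (W : Set (Fin d ⊕ Fin d → F))) SetLike.coe_injective
  obtain ⟨τ, hτ⟩ : ∃ τ : {W : Submodule F (Fin d ⊕ Fin d → F) // IsTy F d m pl W} →
      {W : Submodule F (Fin d ⊕ Fin d → F) // IsTy F d m pl W},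
      ∀ W, (τ W).1 = W.1.map T := ⟨fun W => ⟨W.1.map T, hTymap W.1 W.2⟩, fun _ => rfl⟩
  have hiter : ∀ (k : ℕ) (W : {W : Submodule F (Fin d ⊕ Fin d → F) // IsTy F d m pl W}),
      (τ^[k] W).1 = W.1.map (T ^ k) := by
    intro k
    induction k with
    | zero =>
      intro W
      rw [Function.iterate_zero, id, pow_zero, Module.End.one_eq_id, Submodule.map_id]
    | succ k ih =>
      intro W
      rw [Function.iterate_succ_apply, ih, hτ, hmapk]
  have hτr : ∀ W, τ^[r] W = W := by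
    intro W
    apply Subtype.ext
    rw [hiter, hmapr]
  have hmod := Cfsg.Agent.H98.Ep.cntB_card_modEq_fix τ r hr hτr
  -- invariant nondegenerate `m`-spaces lie in `ker (T - 1)`
  have hinvle : ∀ W : Submodule F (Fin d ⊕ Fin d → F), W ∈ T.invtSubmodule →
      QNd (Cfsg.Agent.H49.QP d F) W → finrank F W = m → W ≤ LinearMap.ker (T - 1) := by
    intro W hWinv h2' h1
    have hWe : Even (finrank F W) := by
      rw [h1]
      exact hm
    obtain ⟨j, -, hj1, -, -, -⟩ := hUp W (QPlus (Cfsg.Agent.H49.QP d F) W) hWinv h2' hWe Iff.rfl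
    have hj0 : j = 0 := by
      by_contra hne
      have h4 : cc F r * 1 ≤ cc F r * j := Nat.mul_le_mul_left _ (Nat.pos_of_ne_zero hne)
      omega
    rw [hj0, mul_zero, zero_add] at hj1
    have h4 : finrank F ↥(W ⊓ LinearMap.ker (T - 1)) = finrank F W := hj1.symm
    have h5 : W ⊓ LinearMap.ker (T - 1) = W := Submodule.eq_of_le_of_finrank_eq inf_le_left h4
    exact inf_eq_left.mp h5
  have hfixle : ∀ W : Submodule F (Fin d ⊕ Fin d → F), IsTy F d m pl W →
      W.map T = W → W ≤ LinearMap.ker (T - 1) := by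
    intro W hW hfix
    obtain ⟨h1, h2', -⟩ := hW
    have hWinv : W ∈ T.invtSubmodule := by
      rw [Module.End.mem_invtSubmodule]
      intro v hv
      rw [Submodule.mem_comap, ← hfix]
      exact ⟨v, hv, rfl⟩
    exact hinvle W hWinv h2' h1
  have hlefix : ∀ W : Submodule F (Fin d ⊕ Fin d → F),
      W ≤ LinearMap.ker (T - 1) → W.map T = W := by
    intro W hle
    have hfixv : ∀ w ∈ W, T w = w := by
      intro w hw
      have h1 := LinearMap.mem_ker.mp (hle hw)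
      rw [LinearMap.sub_apply, Module.End.one_apply, sub_eq_zero] at h1
      exact h1
    apply le_antisymm
    · rintro _ ⟨w, hw, rfl⟩
      rw [hfixv w hw]
      exact hw
    · intro w hw
      exact ⟨w, hw, hfixv w hw⟩
  have hcard : Nat.card {W : {W : Submodule F (Fin d ⊕ Fin d → F) //
        IsTy F d m pl W} // τ W = W} =
      Nat.card {W : Submodule F (Fin d ⊕ Fin d → F) // IsTy F d m pl W ∧
        W ≤ LinearMap.ker (T - 1)} := by
    apply Nat.card_congr
    refine ⟨fun W => ⟨W.1.1, W.1.2, hfixle W.1.1 W.1.2 ?_⟩,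
      fun W => ⟨⟨W.1, W.2.1⟩, Subtype.ext ?_⟩, fun W => rfl, fun W => rfl⟩
    · rw [← hτ]
      exact congrArg Subtype.val W.2
    · rw [hτ]
      exact hlefix W.1 W.2.2
  -- the bilinear form
  have hBpol : ∀ a b : Fin d ⊕ Fin d → F,
      QuadraticMap.polarBilin (Cfsg.Agent.H49.QP d F) a b =
        QuadraticMap.polar (Cfsg.quadFormPlus d F) a b := by
    intro a b
    rw [QuadraticMap.polarBilin_apply_apply, Cfsg.Agent.H49.QP_coe]
  have hBsymm : ∀ a b : Fin d ⊕ Fin d → F,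
      QuadraticMap.polarBilin (Cfsg.Agent.H49.QP d F) a b =
        QuadraticMap.polarBilin (Cfsg.Agent.H49.QP d F) b a := by
    intro a b
    rw [QuadraticMap.polarBilin_apply_apply, QuadraticMap.polarBilin_apply_apply,
      QuadraticMap.polar_comm]
  have hBnd : ∀ a : Fin d ⊕ Fin d → F,
      (∀ b, QuadraticMap.polarBilin (Cfsg.Agent.H49.QP d F) a b = 0) → a = 0 := by
    intro a ha
    have h1 : a ∈ (⊤ : Submodule F (Fin d ⊕ Fin d → F)) ⊓
        perp (QuadraticMap.polarBilin (Cfsg.Agent.H49.QP d F)) ⊤ := by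
      refine ⟨trivial, fun u _ => ?_⟩
      rw [hBsymm]
      exact ha u
    have h2 : (⊤ : Submodule F (Fin d ⊕ Fin d → F)) ⊓
        perp (QuadraticMap.polarBilin (Cfsg.Agent.H49.QP d F)) ⊤ = ⊥ := hNdTop
    rw [h2] at h1
    exact (Submodule.mem_bot F).mp h1
  have hBiso : ∀ a b : Fin d ⊕ Fin d → F,
      QuadraticMap.polarBilin (Cfsg.Agent.H49.QP d F) (T a) (T b) =
        QuadraticMap.polarBilin (Cfsg.Agent.H49.QP d F) a b :=
    Cfsg.Agent.H98.Ep.cntB_polar _ T hTiso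
  have hRK := Cfsg.Agent.H4.Oh.co_range_ker (QuadraticMap.polarBilin (Cfsg.Agent.H49.QP d F)) T
    hBiso
  have hKnd' : LinearMap.ker (T - 1) ⊓
      perp (QuadraticMap.polarBilin (Cfsg.Agent.H49.QP d F)) (LinearMap.ker (T - 1)) = ⊥ := hKnd
  have hKR : LinearMap.ker (T - 1) ⊓ LinearMap.range (T - 1) = ⊥ := by
    rw [eq_bot_iff]
    rintro v ⟨hv1, hv2⟩
    have h1 : v ∈ LinearMap.ker (T - 1) ⊓
        perp (QuadraticMap.polarBilin (Cfsg.Agent.H49.QP d F)) (LinearMap.ker (T - 1)) := by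
      refine ⟨hv1, fun u hu => ?_⟩
      rw [hBsymm]
      exact hRK v hv2 u hu
    rw [hKnd'] at h1
    exact h1
  have hrn := LinearMap.finrank_range_add_finrank_ker (T - 1)
  have hKU : LinearMap.ker (T - 1) ⊔ LinearMap.range (T - 1) = ⊤ := by
    apply Submodule.eq_top_of_finrank_eq
    have h1 := Submodule.finrank_sup_add_finrank_inf_eq (LinearMap.ker (T - 1))
      (LinearMap.range (T - 1))
    rw [hKR, finrank_bot] at h1
    omega
  have hRnd := Cfsg.Agent.H4.Oh.co_range_nondeg (QuadraticMap.polarBilin (Cfsg.Agent.H49.QP d F))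
    T hBsymm hBnd hKU hRK
  have hperp := Cfsg.Agent.H4.Oh.co_perp_range_le
    (QuadraticMap.polarBilin (Cfsg.Agent.H49.QP d F)) T hKU hRK hRnd
  -- a starting point
  obtain ⟨W₀, hW₀inv, hW₀nd, hW₀m, hW₀pl⟩ := hEx 0 m pl (Nat.zero_le _) (by omega) hm
    (fun h => absurd h (by omega)) (fun h => absurd h (by omega))
  rw [mul_zero, zero_add] at hW₀m
  have hW₀K : W₀ ≤ LinearMap.ker (T - 1) := hinvle W₀ hW₀inv hW₀nd hW₀m
  -- the group
  obtain ⟨G, hG⟩ : ∃ G : Subgroup (Matrix.GeneralLinearGroup (Fin d ⊕ Fin d) F),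
      G = Cfsg.isometryGroup F (Cfsg.quadFormPlus d F) ⊓
        Cfsg.Agent.H4.Oh.fixGrp (LinearMap.range (T - 1)) := ⟨_, rfl⟩
  let _ : MulAction ↥G (Submodule F (Fin d ⊕ Fin d → F)) := Cfsg.Agent.H4.Oh.subAct G
  have hsmul : ∀ (g : ↥G) (W : Submodule F (Fin d ⊕ Fin d → F)),
      g • W = W.map (Cfsg.Agent.H4.Oh.tl (g : Matrix.GeneralLinearGroup (Fin d ⊕ Fin d) F)) :=
    fun _ _ => rfl
  have hGmem : ∀ g : ↥G, (g : Matrix.GeneralLinearGroup (Fin d ⊕ Fin d) F) ∈
      Cfsg.isometryGroup F (Cfsg.quadFormPlus d F) ⊓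
        Cfsg.Agent.H4.Oh.fixGrp (LinearMap.range (T - 1)) := by
    intro g
    rw [← hG]
    exact g.2
  have hGQ : ∀ g : ↥G, ∀ v,
      Cfsg.Agent.H49.QP d F
        (Cfsg.Agent.H4.Oh.tl (g : Matrix.GeneralLinearGroup (Fin d ⊕ Fin d) F) v) =
        Cfsg.Agent.H49.QP d F v :=
    fun g => (hIso g).mp (hGmem g).1
  have hGiso : ∀ g : ↥G, ∀ a b,
      QuadraticMap.polarBilin (Cfsg.Agent.H49.QP d F)
        (Cfsg.Agent.H4.Oh.tl (g : Matrix.GeneralLinearGroup (Fin d ⊕ Fin d) F) a)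
        (Cfsg.Agent.H4.Oh.tl (g : Matrix.GeneralLinearGroup (Fin d ⊕ Fin d) F) b) =
        QuadraticMap.polarBilin (Cfsg.Agent.H49.QP d F) a b :=
    fun g => Cfsg.Agent.H98.Ep.cntB_polar _ _ (hGQ g)
  have hGfix : ∀ g : ↥G, ∀ v ∈ LinearMap.range (T - 1),
      Cfsg.Agent.H4.Oh.tl (g : Matrix.GeneralLinearGroup (Fin d ⊕ Fin d) F) v = v :=
    fun g => (hGmem g).2
  -- the set is the orbit of `W₀`
  have horb : ∀ W : Submodule F (Fin d ⊕ Fin d → F),
      (IsTy F d m pl W ∧ W ≤ LinearMap.ker (T - 1)) ↔ W ∈ MulAction.orbit ↥G W₀ := by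
    intro W
    constructor
    · rintro ⟨⟨hWm, hWnd, hWpl⟩, hWK⟩
      obtain ⟨g, hg1, hg2, hg3⟩ := hOrb (LinearMap.range (T - 1)) W₀ W hRnd hW₀nd hWnd
        (by
          intro u hu v hv
          rw [← hBpol, hBsymm]
          exact hRK v hv u (hW₀K hu))
        (by
          intro u hu v hv
          rw [← hBpol, hBsymm]
          exact hRK v hv u (hWK hu))
        (by rw [hW₀m, hWm]) hW₀pl hWpl
      have hgG : g ∈ G := by
        rw [hG]
        exact ⟨hg1, hg2⟩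
      exact ⟨⟨g, hgG⟩, hg3⟩
    · rintro ⟨g, rfl⟩
      beta_reduce
      have hinj := Cfsg.Agent.H4.Oh.tl_injective
        (g : Matrix.GeneralLinearGroup (Fin d ⊕ Fin d) F)
      refine ⟨⟨?_, ?_, ?_⟩, ?_⟩
      · show Module.finrank F ↥(g • W₀) = m
        rw [hsmul, Cfsg.Agent.H4.Oh.co_finrank_map _ hinj, hW₀m]
      · rw [hsmul]
        exact Cfsg.Agent.H4.Oh.co_map_nondeg _ _ (hGiso g) W₀ hW₀nd
      · rw [← hW₀pl]
        constructor
        · intro h
          have hh := Cfsg.Agent.H98.Ep.cntB_plus_map (Cfsg.Agent.H49.QP d F) _ (hGQ g⁻¹)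
            (Cfsg.Agent.H4.Oh.tl_injective _) (g • W₀) h
          rw [← hsmul, inv_smul_smul] at hh
          exact hh
        · intro h
          rw [hsmul]
          exact Cfsg.Agent.H98.Ep.cntB_plus_map (Cfsg.Agent.H49.QP d F) _ (hGQ g) hinj W₀ h
      · show g • W₀ ≤ LinearMap.ker (T - 1)
        rw [hsmul]
        exact Cfsg.Agent.H4.Oh.co_map_le_ker _ T hperp hRK _ (hGiso g) (hGfix g) W₀ hW₀K
  have hcard2 : Nat.card {W : Submodule F (Fin d ⊕ Fin d → F) //
      IsTy F d m pl W ∧ W ≤ LinearMap.ker (T - 1)} = Nat.card ↥(MulAction.orbit ↥G W₀) :=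
    Nat.card_congr (Equiv.subtypeEquivRight horb)
  have hdvd : Nat.card ↥(MulAction.orbit ↥G W₀) ∣ Nat.card ↥G := by
    have h := Nat.card_congr (MulAction.orbitProdStabilizerEquivGroup ↥G W₀)
    rw [Nat.card_prod] at h
    exact Dvd.intro _ h
  intro hdiv
  have hdiv2 : r ∣ Nat.card ↥(MulAction.orbit ↥G W₀) := by
    rw [← hcard2, ← hcard]
    exact (hmod.dvd_iff (dvd_refl r)).mp hdiv
  have hrG : r ∣ Nat.card ↥G := hdiv2.trans hdvd
  have hfact : Fact r.Prime := ⟨hr⟩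
  obtain ⟨g, hg⟩ := exists_prime_orderOf_dvd_card' r hrG
  have hgr : g ^ r = 1 := by
    rw [← hg]
    exact pow_orderOf_eq_one g
  have hgpow : Cfsg.Agent.H4.Oh.tl (g : Matrix.GeneralLinearGroup (Fin d ⊕ Fin d) F) ^ r = 1 := by
    rw [← Cfsg.Agent.H4.Oh.tl_pow, ← Subgroup.coe_pow, hgr, Subgroup.coe_one,
      Cfsg.Agent.H4.Oh.tl_one]
  obtain ⟨-, A', hA', -⟩ := hS F (Fin d ⊕ Fin d → F) (Cfsg.Agent.H49.QP d F)
    (Cfsg.Agent.H4.Oh.tl (g : Matrix.GeneralLinearGroup (Fin d ⊕ Fin d) F)) r True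
    hr hr2 hrF hNdTop (hGQ g) hgpow hEven (iff_true_intro hPlusTop)
  have hRle : LinearMap.range (T - 1) ≤ LinearMap.ker
      (Cfsg.Agent.H4.Oh.tl (g : Matrix.GeneralLinearGroup (Fin d ⊕ Fin d) F) - 1) := by
    intro v hv
    rw [LinearMap.mem_ker, LinearMap.sub_apply, Module.End.one_apply, hGfix g v hv, sub_self]
  have h3 := Submodule.finrank_mono hRle
  have hkk' : kk (Cfsg.Agent.H4.Oh.tl (g : Matrix.GeneralLinearGroup (Fin d ⊕ Fin d) F)) ⊤ =
      finrank F ↥(LinearMap.ker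
        (Cfsg.Agent.H4.Oh.tl (g : Matrix.GeneralLinearGroup (Fin d ⊕ Fin d) F) - 1)) := by
    unfold kk
    rw [top_inf_eq]
  have hA0 : A' = 0 := by
    by_contra hne
    have : cc F r ≤ cc F r * A' := Nat.le_mul_of_pos_right _ (Nat.pos_of_ne_zero hne)
    omega
  rw [hA0, mul_zero, add_zero, hkk'] at hA'
  have h5 : LinearMap.ker
      (Cfsg.Agent.H4.Oh.tl (g : Matrix.GeneralLinearGroup (Fin d ⊕ Fin d) F) - 1) = ⊤ :=
    Submodule.eq_top_of_finrank_eq hA'.symm
  have h6 : Cfsg.Agent.H4.Oh.tl (g : Matrix.GeneralLinearGroup (Fin d ⊕ Fin d) F) - 1 = 0 :=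
    LinearMap.ker_eq_top.mp h5
  have hg1 : g = 1 := Subtype.ext (Cfsg.Agent.H4.Oh.tl_eq_one _ (sub_eq_zero.mp h6))
  rw [hg1, orderOf_one] at hg
  exact hr.one_lt.ne hg

/-- **EP-CNTA**. -/
theorem cntA (hS : StStruct.{u,u}) (hBr : StBridge.{u}) (hOrb : StOrbP.{u}) : StCntA.{u} := by
  intro F _ _ p _ _ r hr hr2 hrp d m hd hm hm2 hmc x hx hxr hmK hKc
  have hOrbT : OrbTy F d True := by
    intro R W W' hR hW hW' h1 h2 h3 h4 h5
    exact hOrb F d hd R W W' hR hW hW' h1 h2 h3 (h4.mpr trivial) (h5.mpr trivial)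
  have hcore := cntA_core hS hBr F p r hr hr2 hrp d m True hm hm2 hmc hOrbT x hx hxr hmK hKc
  have hPW := (hBr F d m).2.2.2.1
  have hcard : Nat.card {W : Submodule F (Fin d ⊕ Fin d → F) // IsPW F d m W} =
      Nat.card {W : Submodule F (Fin d ⊕ Fin d → F) // IsTy F d m True W} := by
    apply Nat.card_congr
    apply Equiv.subtypeEquivRight
    intro W
    rw [hPW W]
    unfold IsTy
    rw [iff_true]
  rw [hcard]
  exact hcore

example (hS : Cfsg.Agent.H48.Ep.StStruct.{u,u}) (hBr : Cfsg.Agent.H48.Ep.StBridge.{u})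
    (hOrb : Cfsg.Agent.H48.Ep.StOrbP.{u}) : Cfsg.Agent.H48.Ep.StCntA.{u} := cntA hS hBr hOrb

end Cfsg.Agent.H53.Ep
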