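import Mathlib
import Cfsg.Agent.H48.EpDefs2
import Cfsg.Agent.H95.OhFin
import Cfsg.Agent.H62.Ev2BrP

/-!
# EP-TWOINV (helper53, for helper48)

Odd characteristic: every isometry `x` of the standard plus space with `x * x = 1` fixes a
nondegenerate plus-type `m`-space (`m` even, `2 ≤ m < d`).  From the closed
`Cfsg.Agent.H95.Oh.fin_inv` and helper62's `brP`.
-/

set_option autoImplicit false

namespace Cfsg.Agent.H53.Ep

open Cfsg.Agent.H45 Cfsg.Agent.H42.Spd Cfsg.Agent.H42.Ti Cfsg.Agent.H48.Ep Module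

universe u

/-- **EP-TWOINV**. -/
theorem twoInv : StTwoInv.{u} := by
  intro F _ _ d m h2 hm2 hm hmd x hx hxx
  classical
  obtain ⟨B, hB1, hBsymm, hBnd, hBQ, -, -, hBI⟩ := Cfsg.Agent.H62.Ev2.brP F d h2
  obtain ⟨T, hT⟩ : ∃ T : Module.End F (Fin d ⊕ Fin d → F),
      T = Matrix.toLin' (x : Matrix (Fin d ⊕ Fin d) (Fin d ⊕ Fin d) F) := ⟨_, rfl⟩
  have hTiso : ∀ a b, B (T a) (T b) = B a b := by
    rw [hT]
    exact (hBI x).mp hx
  have hTT : T * T = 1 := by
    rw [hT]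
    have h3 := congrArg (Matrix.toLinAlgEquiv' (R := F)) hxx
    rw [map_mul, map_one] at h3
    exact h3
  have hfr : finrank F (Fin d ⊕ Fin d → F) = 2 * d := by
    rw [Module.finrank_fintype_fun_eq_card, Fintype.card_sum, Fintype.card_fin]
    omega
  obtain ⟨W, hWinv, hWnd, hWm, hWpl⟩ := Cfsg.Agent.H95.Oh.fin_inv F (Fin d ⊕ Fin d → F) B T h2
    hBsymm hBnd hTiso hTT m True hm hm2 (by omega)
  obtain ⟨U, hUW, hUTI, hUfr⟩ := hWpl.mpr trivial
  refine ⟨W, ⟨hWm, ?_, U, hUW, by omega, ?_⟩, ?_⟩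
  · intro u hu hne
    by_contra hcon
    apply hne
    have h3 : u ∈ W ⊓ perp B W := by
      refine ⟨hu, fun v hv => ?_⟩
      by_contra hne'
      exact hcon ⟨v, hv, by rw [← hB1, hBsymm]; exact hne'⟩
    rw [hWnd] at h3
    exact (Submodule.mem_bot F).mp h3
  · intro u hu
    have h3 := hUTI u hu u hu
    rw [hBQ] at h3
    rcases mul_eq_zero.mp h3 with h4 | h4
    · exact absurd h4 h2
    · exact h4
  · rw [← hT]
    rw [Submodule.map_le_iff_le_comap]
    exact (Module.End.mem_invtSubmodule T).mp hWinv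

example : Cfsg.Agent.H48.Ep.StTwoInv.{u} := twoInv

end Cfsg.Agent.H53.Ep
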