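import Mathlib
import Cfsg.Agent.H48.SPCDefs
import Cfsg.Agent.H50.FieldAutSpLang

/-!
# helper53: S2676 piece SPC-ALT (congruence of nondegenerate alternating matrices), for helper48
-/

set_option autoImplicit false

namespace Cfsg.Agent.H53.SPC

open Matrix Cfsg.Agent.H48.SPC

universe u

theorem alt_dot_zero {F : Type u} [Field F] (h2 : (2 : F) ≠ 0) {ι : Type*} [Fintype ι]
    (A : Matrix ι ι F) (hA : Aᵀ = -A) (v : ι → F) : v ⬝ᵥ A *ᵥ v = 0 := by
  have h1 : v ⬝ᵥ A *ᵥ v = -(v ⬝ᵥ A *ᵥ v) := by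
    calc v ⬝ᵥ A *ᵥ v = (A *ᵥ v) ⬝ᵥ v := dotProduct_comm _ _
      _ = v ⬝ᵥ (Aᵀ *ᵥ v) := by rw [Matrix.dotProduct_mulVec, Matrix.vecMul_transpose]
      _ = -(v ⬝ᵥ A *ᵥ v) := by rw [hA, Matrix.neg_mulVec, dotProduct_neg]
  have h3 : (2 : F) * (v ⬝ᵥ A *ᵥ v) = 0 := by linear_combination h1
  exact (mul_eq_zero.mp h3).resolve_left h2

theorem J_det_ne_zero (F : Type u) [Field F] (m : ℕ) : (Matrix.J (Fin m) F).det ≠ 0 := by
  intro h
  have := Matrix.J_det_mul_J_det (Fin m) F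
  rw [h, zero_mul] at this
  exact zero_ne_one this

theorem alt_congr {F : Type u} [Field F] (h2 : (2 : F) ≠ 0) {m : ℕ}
    (A A' : Matrix (Fin m ⊕ Fin m) (Fin m ⊕ Fin m) F) (hA : Aᵀ = -A) (hA' : A'ᵀ = -A')
    (hd : A.det ≠ 0) (hd' : A'.det ≠ 0) :
    ∃ γ : Matrix (Fin m ⊕ Fin m) (Fin m ⊕ Fin m) F, γ.det ≠ 0 ∧ γᵀ * A * γ = A' := by
  obtain ⟨L, hL⟩ := Cfsg.Agent.H50.FieldAutSp.exists_alt_basis A (alt_dot_zero h2 A hA) hd
  obtain ⟨L', hL'⟩ := Cfsg.Agent.H50.FieldAutSp.exists_alt_basis A' (alt_dot_zero h2 A' hA') hd'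
  have hJ := J_det_ne_zero F m
  have hLd : L.det ≠ 0 := by
    intro h; apply hJ; rw [← hL, det_mul, det_mul, h, mul_zero]
  have hLd' : L'.det ≠ 0 := by
    intro h; apply hJ; rw [← hL', det_mul, det_mul, h, mul_zero]
  have hinv : L' * L'⁻¹ = 1 := Matrix.mul_nonsing_inv _ (isUnit_iff_ne_zero.mpr hLd')
  have hinvT : L'⁻¹ᵀ * L'ᵀ = 1 := by rw [← Matrix.transpose_mul, hinv, transpose_one]
  have hdi : L'.det * L'⁻¹.det = 1 := by rw [← det_mul, hinv, det_one]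
  refine ⟨L * L'⁻¹, ?_, ?_⟩
  · rw [det_mul]; exact mul_ne_zero hLd (right_ne_zero_of_mul_eq_one hdi)
  · calc (L * L'⁻¹)ᵀ * A * (L * L'⁻¹) = L'⁻¹ᵀ * (Lᵀ * A * L) * L'⁻¹ := by
          rw [transpose_mul]; simp only [Matrix.mul_assoc]
      _ = L'⁻¹ᵀ * (L'ᵀ * A' * L') * L'⁻¹ := by rw [hL, hL']
      _ = (L'⁻¹ᵀ * L'ᵀ) * A' * (L' * L'⁻¹) := by simp only [Matrix.mul_assoc]
      _ = A' := by rw [hinvT, hinv, Matrix.one_mul, Matrix.mul_one]

theorem alt : AltStmt.{u} := by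
  intro F _ h2 κ _ _
  constructor
  · intro C C' hC hC' hd hd'
    have hev : Even (Fintype.card κ) := by
      by_contra hodd
      rw [Nat.not_even_iff_odd] at hodd
      have h1 : C.det = (-1) ^ Fintype.card κ * C.det := by
        conv_lhs => rw [← det_transpose, hC, det_neg]
      rw [hodd.neg_one_pow] at h1
      have h3 : (2 : F) * C.det = 0 := by linear_combination h1
      rcases mul_eq_zero.mp h3 with h | h
      · exact h2 h
      · exact hd h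
    obtain ⟨m, hm⟩ := hev
    obtain ⟨e⟩ : Nonempty (κ ≃ Fin m ⊕ Fin m) := ⟨Fintype.equivOfCardEq (by simp [hm])⟩
    obtain ⟨γ, hγd, hγ⟩ := alt_congr h2 (C.submatrix e.symm e.symm) (C'.submatrix e.symm e.symm)
      (by rw [transpose_submatrix, hC]; rfl) (by rw [transpose_submatrix, hC']; rfl)
      (by rwa [det_submatrix_equiv_self]) (by rwa [det_submatrix_equiv_self])
    refine ⟨γ.submatrix e e, by rwa [det_submatrix_equiv_self], ?_⟩
    have h3 : (γᵀ * C.submatrix e.symm e.symm * γ).submatrix e e =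
        (C'.submatrix e.symm e.symm).submatrix e e := by rw [hγ]
    rw [← Matrix.submatrix_mul_equiv _ _ e e e, ← Matrix.submatrix_mul_equiv _ _ e e e] at h3
    simpa [transpose_submatrix] using h3
  · rintro ⟨m, hm⟩
    obtain ⟨e⟩ : Nonempty (κ ≃ Fin m ⊕ Fin m) := ⟨Fintype.equivOfCardEq (by simp [hm])⟩
    refine ⟨(Matrix.J (Fin m) F).submatrix e e, ?_, ?_⟩
    · rw [transpose_submatrix, Matrix.J_transpose]; rfl
    · rw [det_submatrix_equiv_self]; exact J_det_ne_zero F m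

example : Cfsg.Agent.H48.SPC.AltStmt.{u} := alt

end Cfsg.Agent.H53.SPC
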