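import Mathlib
import Cfsg.Agent.H48.SPCDefs

/-!
# helper53: S2676 piece SPC-CLS (Sp-classes of Jordan type `d` ↔ orbits on `OmegaSk`),
for helper48
-/

set_option autoImplicit false

namespace Cfsg.Agent.H53.SPC

open Matrix Finset Cfsg.Agent.H61 Cfsg.Agent.H48.SPC

universe u

theorem cls (h1 : ClassOrbStmt.{u}) (h3 : TypeStmt.{u}) (h4 : CayEqStmt.{u}) : ClsStmt.{u} := by
  intro F _ h2 m t d e
  obtain ⟨M, hMsub⟩ : ∃ M : Matrix (Fin m ⊕ Fin m) (Fin m ⊕ Fin m) F,
      M = (cayleyJ F d).submatrix e.symm e.symm := ⟨_, rfl⟩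
  have hMre : M = Matrix.reindex e e (cayleyJ F d) := hMsub
  obtain ⟨Ψ', hΨa, hΨb⟩ := h1 h2 M
  have up_mul : ∀ X Y : Matrix (JI d) (JI d) F, (X * Y).submatrix e.symm e.symm =
      X.submatrix e.symm e.symm * Y.submatrix e.symm e.symm :=
    fun X Y => (Matrix.submatrix_mul_equiv X Y e.symm e.symm e.symm).symm
  have down_mul : ∀ X Y : Matrix (Fin m ⊕ Fin m) (Fin m ⊕ Fin m) F, (X * Y).submatrix e e =
      X.submatrix e e * Y.submatrix e e :=
    fun X Y => (Matrix.submatrix_mul_equiv X Y e e e).symm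
  have down_up : ∀ X : Matrix (JI d) (JI d) F,
      (X.submatrix e.symm e.symm).submatrix e e = X := by
    intro X; ext a b; simp
  have up_down : ∀ Y : Matrix (Fin m ⊕ Fin m) (Fin m ⊕ Fin m) F,
      (Y.submatrix e e).submatrix e.symm e.symm = Y := by
    intro Y; ext a b; simp
  have hdom : ∀ A : OmegaSk F d,
      (A.1.submatrix e.symm e.symm).transpose = -(A.1.submatrix e.symm e.symm) ∧
      (A.1.submatrix e.symm e.symm).det ≠ 0 ∧
      M.transpose * (A.1.submatrix e.symm e.symm) * M = A.1.submatrix e.symm e.symm := by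
    intro A
    obtain ⟨hAt, hAd, hAN⟩ := A.2
    refine ⟨?_, ?_, ?_⟩
    · rw [Matrix.transpose_submatrix, hAt]; rfl
    · rw [Matrix.det_submatrix_equiv_self]; exact hAd
    · have hcay := ((h4 h2 d A.1).1).mpr hAN
      rw [hMsub, Matrix.transpose_submatrix, ← up_mul, ← up_mul, hcay]
  refine ⟨fun A => Ψ' ⟨A.1.submatrix e.symm e.symm, hdom A⟩, ?_, ?_⟩
  · intro A A'
    rw [hΨa]
    constructor
    · rintro ⟨c', hc'd, hc'M, hc'A⟩
      refine ⟨c'.submatrix e e, by rw [Matrix.det_submatrix_equiv_self]; exact hc'd, ?_, ?_⟩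
      · apply ((h4 h2 d _).2).mp
        have h5 : (c' * M).submatrix e e = (M * c').submatrix e e := by rw [hc'M]
        rw [down_mul, down_mul, hMsub, down_up] at h5
        exact h5
      · have h5 : (c'.transpose * (A.1.submatrix e.symm e.symm) * c').submatrix e e =
            (A'.1.submatrix e.symm e.symm).submatrix e e := by rw [hc'A]
        rw [down_mul, down_mul, down_up, down_up, ← Matrix.transpose_submatrix] at h5
        exact h5
    · rintro ⟨g, hgd, hgN, hgA⟩
      refine ⟨g.submatrix e.symm e.symm, by rw [Matrix.det_submatrix_equiv_self]; exact hgd,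
        ?_, ?_⟩
      · have hgc := ((h4 h2 d g).2).mpr hgN
        rw [hMsub, ← up_mul, ← up_mul, hgc]
      · show (g.submatrix e.symm e.symm).transpose * A.1.submatrix e.symm e.symm *
            g.submatrix e.symm e.symm = A'.1.submatrix e.symm e.symm
        rw [Matrix.transpose_submatrix, ← up_mul, ← up_mul, hgA]
  · intro C
    have hrange : C ∈ Set.range (fun A : OmegaSk F d =>
        Ψ' ⟨A.1.submatrix e.symm e.symm, hdom A⟩) ↔ C ∈ Set.range Ψ' := by
      constructor
      · rintro ⟨A, rfl⟩; exact ⟨_, rfl⟩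
      · rintro ⟨⟨A', hA't, hA'd, hA'M⟩, rfl⟩
        have hmem : (A'.submatrix e e).transpose = -(A'.submatrix e e) ∧
            (A'.submatrix e e).det ≠ 0 ∧
            (jordanNil d F).transpose * (A'.submatrix e e) =
              -((A'.submatrix e e) * jordanNil d F) := by
          refine ⟨by rw [Matrix.transpose_submatrix, hA't]; rfl,
            by rw [Matrix.det_submatrix_equiv_self]; exact hA'd, ?_⟩
          apply ((h4 h2 d _).1).mp
          have h5 : (M.transpose * A' * M).submatrix e e = A'.submatrix e e := by rw [hA'M]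
          rw [down_mul, down_mul, hMsub, Matrix.transpose_submatrix, down_up, down_up] at h5
          exact h5
        refine ⟨⟨A'.submatrix e e, hmem⟩, ?_⟩
        show Ψ' ⟨(A'.submatrix e e).submatrix e.symm e.symm, _⟩ = Ψ' ⟨A', _⟩
        congr 1
        exact Subtype.ext (up_down A')
    rw [hrange, hΨb]
    constructor
    · rintro ⟨g, hg, hP⟩
      exact ⟨g, hg, (h3 h2 d e g.1).mp (by rw [← hMre]; exact hP)⟩
    · rintro ⟨g, hg, hk⟩
      have := (h3 h2 d e g.1).mpr hk
      rw [← hMre] at this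
      exact ⟨g, hg, this⟩

example (h1 : Cfsg.Agent.H48.SPC.ClassOrbStmt.{u}) (h3 : Cfsg.Agent.H48.SPC.TypeStmt.{u})
    (h4 : Cfsg.Agent.H48.SPC.CayEqStmt.{u}) : Cfsg.Agent.H48.SPC.ClsStmt.{u} := cls h1 h3 h4

end Cfsg.Agent.H53.SPC
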