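import Mathlib
import Cfsg.Agent.H83.AbIdxDefs

/-!
# helper53: S4463 piece CASEA (the `p`-group quotient reduces), for helper83
-/

set_option autoImplicit false

namespace Cfsg.Agent.H53.AbIdx

open Cfsg Cfsg.Agent.H83.AbIdx

universe u

theorem caseA (h1 : StmtACenter.{u}) (h2 : StmtBetaTrick.{u}) (h3 : StmtArith) :
    StmtCaseA.{u} := by
  intro G _ _ K N _ _ t k b ht hKN hne hcN hcK hmax hidx hb
  obtain ⟨Z, β, hβ2, hβv, hZ⟩ := h1 G K N t k ht hKN hne hcN hcK hmax hidx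
  have hβb : charDegree β.1 ≤ b := hb β
  have hb2 : 2 ≤ b := le_trans hβ2 hβb
  refine ⟨Z, b - 1, by omega, ?_, ?_⟩
  · intro ψ
    by_contra hcon
    have hψ : b ≤ charDegree ψ.1 := by omega
    have h := h2 G Z β ψ hβv (fun χ => le_trans (hb χ) hψ)
    rw [hZ] at h
    nlinarith
  · rw [hZ]
    calc charDegree β.1 ^ 2 * (b - 1).factorial ^ 2 ≤ b ^ 2 * (b - 1).factorial ^ 2 := by
          gcongr
      _ ≤ b.factorial ^ 2 := h3.1 b (by omega)

example (h1 : Cfsg.Agent.H83.AbIdx.StmtACenter.{u}) (h2 : Cfsg.Agent.H83.AbIdx.StmtBetaTrick.{u})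
    (h3 : Cfsg.Agent.H83.AbIdx.StmtArith) : Cfsg.Agent.H83.AbIdx.StmtCaseA.{u} := caseA h1 h2 h3

end Cfsg.Agent.H53.AbIdx
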