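import Mathlib
import Cfsg.Agent.H83.AbIdxDefs

/-!
# helper53: S4463 piece CASEB (the Frobenius-type quotient reduces), for helper83
-/

set_option autoImplicit false

namespace Cfsg.Agent.H53.AbIdx

open Cfsg Cfsg.Agent.H83.AbIdx

universe u

theorem caseB (hres : StmtRes.{u}) (hv : StmtBVanish.{u}) (hi : StmtBIndex.{u})
    (hn : StmtBNorm.{u}) (ht : StmtBTwo.{u}) (hh : StmtHalf.{u}) (ha : StmtArith) :
    StmtCaseB.{u} := by
  intro G _ _ K N _ _ t m b htp hKN hne hcN hcK hmax hab hrel hfix hself hb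
  obtain ⟨hN2, hNb⟩ := hi G K N b hKN hcN hcK hmax hab hself hb
  have hb2 : 2 ≤ b := le_trans hN2 hNb
  by_cases hall : ∀ ψ : IrrCharacter N, charDegree ψ.1 < b
  · refine ⟨N, b - 1, by omega, fun ψ => by have := hall ψ; omega, ?_⟩
    calc N.index * (b - 1).factorial ^ 2 ≤ b ^ 2 * (b - 1).factorial ^ 2 := by
          gcongr; nlinarith
      _ ≤ b.factorial ^ 2 := ha.1 b (by omega)
  · push Not at hall
    obtain ⟨ψ, hψ⟩ := hall
    obtain ⟨χ₀, hχ₀⟩ := hres G N ψ
    have hψb : charDegree ψ.1 = b := le_antisymm (le_trans hχ₀ (hb χ₀)) hψ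
    have hvan := hv G K N hKN hab hfix ψ (fun χ => le_trans (hb χ) hψ)
    have hnn := hn N (K.subgroupOf N) ψ
      (fun n hnK => hvan n (fun hk => hnK (Subgroup.mem_subgroupOf.mpr hk)))
    have hrelidx : (K.subgroupOf N).index = K.relIndex N := rfl
    rw [hrelidx, hψb] at hnn
    obtain ⟨hle, h2case⟩ := hnn
    have hKidx : K.index = K.relIndex N * N.index := (Subgroup.relIndex_mul_index hKN).symm
    have hθ : ∀ θ : IrrCharacter K, charDegree θ.1 ≤ b / 2 := by
      intro θ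
      obtain ⟨χ, hχ⟩ := hh G K hcK θ
      have := hb χ
      omega
    rcases Nat.lt_or_ge b 3 with hb3 | hb3
    · have hbeq : b = 2 := by omega
      exfalso
      have hNidx : N.index = 2 := by omega
      rcases h2case hbeq with h1 | h1 | h1
      · have hNK : N ≤ K := Subgroup.relIndex_eq_one.mp h1
        exact hne (le_antisymm hKN hNK)
      · rw [hrel] at h1
        have hm : m ≠ 0 := by rintro rfl; simp at h1
        have hd : t ∣ 2 := by rw [← h1]; exact dvd_pow_self t hm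
        have ht2 : t = 2 := (Nat.prime_dvd_prime_iff_eq htp Nat.prime_two).mp hd
        exact ht G K N m hKN hne hmax hfix hNidx (by rw [hrel, ht2])
      · rw [hrel] at h1
        have hm : m ≠ 0 := by rintro rfl; simp at h1
        have hd : t ∣ 2 ^ 2 := by
          rw [show (2 : ℕ) ^ 2 = 4 from rfl, ← h1]; exact dvd_pow_self t hm
        have ht2 : t = 2 :=
          (Nat.prime_dvd_prime_iff_eq htp Nat.prime_two).mp (htp.dvd_of_dvd_pow hd)
        exact ht G K N m hKN hne hmax hfix hNidx (by rw [hrel, ht2])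
    · refine ⟨K, b / 2, by omega, hθ, ?_⟩
      have hKb : K.index ≤ b ^ 3 := by
        rw [hKidx]
        calc K.relIndex N * N.index ≤ b ^ 2 * b := Nat.mul_le_mul hle hNb
          _ = b ^ 3 := by ring
      calc K.index * (b / 2).factorial ^ 2 ≤ b ^ 3 * (b / 2).factorial ^ 2 :=
            Nat.mul_le_mul_right _ hKb
        _ ≤ b.factorial ^ 2 := ha.2.1 b hb3

example (hres : Cfsg.Agent.H83.AbIdx.StmtRes.{u}) (hv : Cfsg.Agent.H83.AbIdx.StmtBVanish.{u})
    (hi : Cfsg.Agent.H83.AbIdx.StmtBIndex.{u}) (hn : Cfsg.Agent.H83.AbIdx.StmtBNorm.{u})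
    (ht : Cfsg.Agent.H83.AbIdx.StmtBTwo.{u}) (hh : Cfsg.Agent.H83.AbIdx.StmtHalf.{u})
    (ha : Cfsg.Agent.H83.AbIdx.StmtArith) : Cfsg.Agent.H83.AbIdx.StmtCaseB.{u} :=
  caseB hres hv hi hn ht hh ha

end Cfsg.Agent.H53.AbIdx
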