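import Mathlib
import Cfsg.Agent.H76.BG134Defs

/-!
# S1428-CYCAUT (helper53 for helper76)

A group `R` of order prime to `q` normalizing a cyclic `q`-group `Q` and centralizing a
nontrivial subgroup of `Q` centralizes `Q` (direct proof: the automorphism `g ↦ g^k` induced
by `r ∈ R` has `k ≡ 1 mod q`, so its `q^N`-th power is trivial, and `r` is a power of
`r^(q^N)`).
-/

set_option autoImplicit false

namespace Cfsg.Agent.H53.BG134

open Cfsg Subgroup Cfsg.Agent.H58.BG10 Cfsg.Agent.H76.BG134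

universe u

variable {G : Type u} [Group G] [Finite G]

theorem cycAut : StCycAut G := by
  intro q hq Q R hQ hcyc hRN hqR X hXQ hX hRX r hr
  rw [Subgroup.mem_centralizer_iff]
  obtain ⟨⟨g, hgQ⟩, hgen⟩ := hcyc.exists_generator
  have hgen' : ∀ y ∈ Q, ∃ i : ℤ, g ^ i = y := by
    intro y hy
    obtain ⟨i, hi⟩ := Subgroup.mem_zpowers_iff.mp (hgen ⟨y, hy⟩)
    exact ⟨i, by simpa using congrArg Subtype.val hi⟩
  obtain ⟨N', hN'⟩ := hQ ⟨g, hgQ⟩
  have hgN' : g ^ q ^ N' = 1 := by simpa using congrArg Subtype.val hN'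
  obtain ⟨N, -, hN⟩ := (Nat.dvd_prime_pow hq.out).mp (orderOf_dvd_of_pow_eq_one hgN')
  have hrgQ : r * g * r⁻¹ ∈ Q := (Subgroup.mem_normalizer_iff.mp (hRN hr) g).mp hgQ
  obtain ⟨k, hk⟩ := hgen' _ hrgQ
  obtain ⟨⟨x, hxX⟩, hx1'⟩ := (Subgroup.ne_bot_iff_exists_ne_one).mp hX
  have hx1 : x ≠ 1 := fun h => hx1' (Subtype.ext h)
  obtain ⟨j, hj⟩ := hgen' x (hXQ hxX)
  have hrx : r * x * r⁻¹ = x := by
    have := (Subgroup.mem_centralizer_iff.mp (hRX hr)) x hxX
    rw [← this]; group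
  have h1 : g ^ (k * j) = g ^ j := by
    rw [zpow_mul, hk, conj_zpow, hj, hrx]
  have h2 : k * j ≡ j [ZMOD (orderOf g : ℤ)] := zpow_eq_zpow_iff_modEq.mp h1
  have h3 : ¬ ((orderOf g : ℤ) ∣ j) := by
    rw [orderOf_dvd_iff_zpow_eq_one, hj]; exact hx1
  have hqk : (q : ℤ) ∣ k - 1 := by
    by_contra hnd
    have hprime : Prime (q : ℤ) := Nat.prime_iff_prime_int.mp hq.out
    have hcop : IsCoprime ((q : ℤ) ^ N) (k - 1) :=
      (hprime.irreducible.coprime_iff_not_dvd.mpr hnd).pow_left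
    have h4 : ((q : ℤ) ^ N) ∣ (k - 1) * j := by
      have h5 := h2.dvd
      rw [hN] at h5
      push_cast at h5
      have e : (k - 1) * j = -(j - k * j) := by ring
      rw [e]; exact (dvd_neg).mpr h5
    have h6 := hcop.dvd_of_dvd_mul_left h4
    apply h3
    rw [hN]; push_cast; exact h6
  have hiter : ∀ i : ℕ, r ^ i * g * (r ^ i)⁻¹ = g ^ (k ^ i) := by
    intro i
    induction i with
    | zero => simp
    | succ i ih =>
      have e : r ^ (i + 1) * g * (r ^ (i + 1))⁻¹ = r * (r ^ i * g * (r ^ i)⁻¹) * r⁻¹ := by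
        rw [pow_succ']; group
      rw [e, ih, ← conj_zpow, ← hk, ← zpow_mul, pow_succ']
  have hdiv : ((q : ℤ) ^ N) ∣ k ^ (q ^ N) - 1 := by
    have h5 := dvd_sub_pow_of_dvd_sub hqk N
    rw [one_pow] at h5
    exact (pow_dvd_pow _ (Nat.le_succ N)).trans h5
  have hc : r ^ (q ^ N) * g * (r ^ (q ^ N))⁻¹ = g := by
    rw [hiter]
    have h5 : k ^ (q ^ N) ≡ 1 [ZMOD (orderOf g : ℤ)] := by
      rw [hN]; push_cast
      exact (Int.modEq_iff_dvd.mpr ((dvd_sub_comm).mp hdiv))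
    have h6 := zpow_eq_zpow_iff_modEq.mpr h5
    rw [zpow_one] at h6
    exact h6
  have hcopr : Nat.Coprime (q ^ N) (orderOf r) := by
    apply Nat.Coprime.pow_left
    rw [Nat.Prime.coprime_iff_not_dvd hq.out]
    intro h
    exact hqR (h.trans (Subgroup.orderOf_dvd_natCard R hr))
  obtain ⟨u, hu⟩ := exists_pow_eq_self_of_coprime hcopr
  have hcomm : Commute (r ^ (q ^ N)) g := by
    show r ^ (q ^ N) * g = g * r ^ (q ^ N)
    calc r ^ (q ^ N) * g = (r ^ (q ^ N) * g * (r ^ (q ^ N))⁻¹) * r ^ (q ^ N) := by group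
      _ = g * r ^ (q ^ N) := by rw [hc]
  have hrg : Commute r g := by
    rw [← hu]; exact hcomm.pow_left u
  intro y hy
  obtain ⟨i, rfl⟩ := hgen' y hy
  exact (hrg.zpow_right i).eq.symm

example : ∀ (q : ℕ) [Fact q.Prime] (Q R : Subgroup G), IsPGroup q Q → IsCyclic Q →
    R ≤ normalizer (Q : Set G) → ¬ q ∣ Nat.card R →
    ∀ X : Subgroup G, X ≤ Q → X ≠ ⊥ → R ≤ centralizer (X : Set G) → R ≤ centralizer (Q : Set G) :=
  cycAut

end Cfsg.Agent.H53.BG134
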