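import Mathlib
import Cfsg.Agent.H93.ConwayDefs

/-!
# helper53: S0406 piece C-L4 (vectors of `Λ` with all coordinates divisible by 4), for helper93
-/

set_option autoImplicit false

namespace Cfsg.Agent.H53.Conway

open Matrix Cfsg.Agent.H93.Conway

theorem l4 : StmtL4 := by
  intro Λ hΛ y hy
  choose m hm using hy
  obtain ⟨S, hS⟩ : ∃ S : ℤ, S = ∑ i, m i := ⟨_, rfl⟩
  obtain ⟨v, hv⟩ : ∃ v : Fin 24 → ℤ,
      v = ∑ i, m i • (Pi.single i 4 - Pi.single 0 4 : Fin 24 → ℤ) := ⟨_, rfl⟩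
  have hvΛ : v ∈ Λ := by
    rw [hv]
    refine sum_mem (fun i _ => zsmul_mem ?_ _)
    by_cases hi : i = 0
    · rw [hi, sub_self]; exact zero_mem Λ
    · exact (hΛ.h44 i 0 hi).2
  have hdecomp : y = v + Pi.single 0 (4 * S) := by
    funext j
    rw [hv]
    simp only [Pi.add_apply, Finset.sum_apply, Pi.smul_apply, Pi.sub_apply, Pi.single_apply,
      smul_eq_mul, mul_sub, Finset.sum_sub_distrib]
    rw [hm j]
    have h1 : ∑ i, m i * (if j = i then (4 : ℤ) else 0) = m j * 4 := by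
      rw [Finset.sum_eq_single j]
      · simp
      · intro b _ hb; simp [Ne.symm hb]
      · intro h; exact absurd (Finset.mem_univ j) h
    rw [h1, ← Finset.sum_mul, ← hS]
    by_cases hj : j = 0
    · simp [hj]; ring
    · simp [hj]; ring
  have hsum : ∑ i, y i = 4 * S := by
    rw [hS, Finset.mul_sum]
    exact Finset.sum_congr rfl (fun i _ => hm i)
  rw [hsum]
  constructor
  · intro h8
    have h2 : (2 : ℤ) ∣ S := by omega
    obtain ⟨k, hk⟩ := h2
    rw [hdecomp]
    refine add_mem hvΛ ?_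
    have e1 : (Pi.single 0 (4 * S) : Fin 24 → ℤ) = k • (Pi.single 0 8 : Fin 24 → ℤ) := by
      rw [← Pi.single_smul, smul_eq_mul, hk]
      congr 1; ring
    rw [e1]
    exact zsmul_mem (hΛ.h8 0) k
  · intro hyΛ
    by_contra h8
    have hodd : ∃ k, S = 2 * k + 1 := by
      have : ¬ (2 : ℤ) ∣ S := by omega
      exact ⟨S / 2, by omega⟩
    obtain ⟨k, hk⟩ := hodd
    have h1 : (Pi.single 0 (4 * S) : Fin 24 → ℤ) ∈ Λ := by
      have : (Pi.single 0 (4 * S) : Fin 24 → ℤ) = y - v := by rw [hdecomp]; abel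
      rw [this]
      exact sub_mem hyΛ hvΛ
    have h2 : (Pi.single 0 4 : Fin 24 → ℤ) ∈ Λ := by
      have e1 : (Pi.single 0 4 : Fin 24 → ℤ) =
          Pi.single 0 (4 * S) - k • (Pi.single 0 8 : Fin 24 → ℤ) := by
        rw [← Pi.single_smul, ← Pi.single_sub, smul_eq_mul, hk]
        congr 1; ring
      rw [e1]
      exact sub_mem h1 (zsmul_mem (hΛ.h8 0) k)
    have h3 : (Pi.single 0 4 : Fin 24 → ℤ) ≠ 0 := by
      intro h0
      have := congrFun h0 0
      simp at this
    have h4 := hΛ.h32 _ h2 h3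
    have h5 : ∑ i, (Pi.single 0 4 : Fin 24 → ℤ) i ^ 2 = 16 := by
      rw [Finset.sum_eq_single 0]
      · simp
      · intro b _ hb; simp [hb]
      · intro h; exact absurd (Finset.mem_univ 0) h
    omega

example : Cfsg.Agent.H93.Conway.StmtL4 := l4

end Cfsg.Agent.H53.Conway
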