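import Mathlib
import Cfsg.Agent.H93.ConwayDefs

/-!
# helper53: S0406 piece C-ORTH, for helper93
-/

set_option autoImplicit false

namespace Cfsg.Agent.H53.Conway

open Matrix Cfsg.Agent.H93.Conway

theorem orth : StmtOrth := by
  intro B hB x y u hx hy hxy hne hne'
  obtain ⟨hsymm, hpos, heven, hne2⟩ := hB
  have hsym : ∀ v w : Fin 24 → ℤ, v ⬝ᵥ (B *ᵥ w) = w ⬝ᵥ (B *ᵥ v) := by
    intro v w
    rw [Matrix.dotProduct_mulVec, ← Matrix.mulVec_transpose, hsymm.eq, dotProduct_comm]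
  have hge4 : ∀ v : Fin 24 → ℤ, v ≠ 0 → 4 ≤ v ⬝ᵥ (B *ᵥ v) := by
    intro v hv
    have h1 := hpos v hv
    obtain ⟨k, hk⟩ := heven v
    have h2 := hne2 v
    omega
  have hu : u ≠ 0 := by
    rintro rfl
    apply hne
    have : x - y = 0 := by rw [hxy]; simp
    exact sub_eq_zero.mp this
  have hxy' : x + y = (2 : ℤ) • (u + y) := by
    have : x = (2 : ℤ) • u + y := by rw [← hxy]; abel
    rw [this, smul_add, two_smul, two_smul]; abel
  have hu' : u + y ≠ 0 := by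
    intro h0
    apply hne'
    have : x + y = 0 := by rw [hxy', h0]; simp
    exact eq_neg_of_add_eq_zero_left this
  have h4 : ∀ w : Fin 24 → ℤ, ((2 : ℤ) • w) ⬝ᵥ (B *ᵥ ((2 : ℤ) • w)) = 4 * (w ⬝ᵥ (B *ᵥ w)) := by
    intro w
    rw [Matrix.mulVec_smul, smul_dotProduct, dotProduct_smul, smul_eq_mul, smul_eq_mul]
    ring
  have hsub : (x - y) ⬝ᵥ (B *ᵥ (x - y)) =
      x ⬝ᵥ (B *ᵥ x) + y ⬝ᵥ (B *ᵥ y) - 2 * (x ⬝ᵥ (B *ᵥ y)) := by
    rw [Matrix.mulVec_sub, sub_dotProduct, dotProduct_sub, dotProduct_sub, hsym y x]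
    ring
  have hadd : (x + y) ⬝ᵥ (B *ᵥ (x + y)) =
      x ⬝ᵥ (B *ᵥ x) + y ⬝ᵥ (B *ᵥ y) + 2 * (x ⬝ᵥ (B *ᵥ y)) := by
    rw [Matrix.mulVec_add, add_dotProduct, dotProduct_add, dotProduct_add, hsym y x]
    ring
  have h1 := hge4 u hu
  have h2 := hge4 (u + y) hu'
  rw [hxy, h4] at hsub
  rw [hxy', h4] at hadd
  refine ⟨by omega, by omega, by omega⟩

example : Cfsg.Agent.H93.Conway.StmtOrth := orth

end Cfsg.Agent.H53.Conway
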