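import Mathlib
import Cfsg.Agent.H93.ConwayDefs

/-!
# helper53: S0406 piece C-PARS (Parseval for the frame coordinates), for helper93
-/

set_option autoImplicit false

namespace Cfsg.Agent.H53.Conway

open Matrix Cfsg.Agent.H93.Conway

theorem pars : StmtPars := by
  intro B E hsymm hE x y
  obtain ⟨M, hM⟩ : ∃ M : Matrix (Fin 24) (Fin 24) ℤ, M = E * B := ⟨_, rfl⟩
  rw [← hM] at hE ⊢
  -- `Eᵀ * M = 8 • 1`
  have hdet : (Eᵀ).det ≠ 0 := by
    intro h0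
    have h1 := congrArg Matrix.det hE
    rw [Matrix.det_mul, h0, mul_zero, Matrix.det_smul, Matrix.det_one, mul_one] at h1
    have : (8 : ℤ) ^ Fintype.card (Fin 24) ≠ 0 := pow_ne_zero _ (by norm_num)
    exact this h1.symm
  have hcomm : Eᵀ * M = (8 : ℤ) • (1 : Matrix (Fin 24) (Fin 24) ℤ) := by
    have h1 : (Eᵀ * M - (8 : ℤ) • (1 : Matrix (Fin 24) (Fin 24) ℤ)) * Eᵀ = 0 := by
      rw [sub_mul, Matrix.mul_assoc, hE, Matrix.smul_mul, Matrix.one_mul, Matrix.mul_smul,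
        Matrix.mul_one, sub_self]
    have h2 : (Eᵀ * M - (8 : ℤ) • (1 : Matrix (Fin 24) (Fin 24) ℤ)) * (Eᵀ * (Eᵀ).adjugate) = 0 := by
      rw [← Matrix.mul_assoc, h1, Matrix.zero_mul]
    rw [Matrix.mul_adjugate, Matrix.mul_smul, Matrix.mul_one] at h2
    rcases smul_eq_zero.mp h2 with h | h
    · exact absurd h hdet
    · exact sub_eq_zero.mp h
  have hMM : Mᵀ * M = (8 : ℤ) • B := by
    rw [hM, Matrix.transpose_mul, hsymm.eq, Matrix.mul_assoc, ← hM, hcomm, Matrix.mul_smul,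
      Matrix.mul_one]
  have h3 : ∑ i, (M *ᵥ x) i * (M *ᵥ y) i = (M *ᵥ x) ⬝ᵥ (M *ᵥ y) := rfl
  rw [h3, ← Matrix.vecMul_transpose, ← Matrix.dotProduct_mulVec, Matrix.mulVec_mulVec, hMM,
    Matrix.smul_mulVec, dotProduct_smul, smul_eq_mul]

example : Cfsg.Agent.H93.Conway.StmtPars := pars

end Cfsg.Agent.H53.Conway
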