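import Mathlib
import Cfsg.Agent.H93.ConwayDefs

/-!
# helper53: S0406 piece C-SHAPEODD, for helper93
-/

set_option autoImplicit false

namespace Cfsg.Agent.H53.Conway

open Matrix Cfsg.Agent.H93.Conway

theorem shapeOdd : StmtShapeOdd := by
  intro x hodd hsum
  have hcase : ∀ i, x i ^ 2 = 1 ∨ 9 ≤ x i ^ 2 := by
    intro i
    have h := hodd i
    by_cases h3 : -3 < x i ∧ x i < 3
    · left
      have : x i = 1 ∨ x i = -1 := by omega
      rcases this with h1 | h1 <;> rw [h1] <;> norm_num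
    · right
      have : x i ≤ -3 ∨ 3 ≤ x i := by omega
      rcases this with h1 | h1 <;> nlinarith
  have hnn : ∀ i, 0 ≤ x i ^ 2 - 1 := by
    intro i
    rcases hcase i with h | h <;> omega
  have hsum' : ∑ i, (x i ^ 2 - 1) = 8 := by
    rw [Finset.sum_sub_distrib, hsum]
    simp
  have hex : ∃ i0, x i0 ^ 2 ≠ 1 := by
    by_contra hcon
    push Not at hcon
    have : ∑ i, (x i ^ 2 - 1) = 0 := Finset.sum_eq_zero (fun i _ => by rw [hcon i]; norm_num)
    omega
  obtain ⟨i0, hi0⟩ := hex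
  have hi0' : 9 ≤ x i0 ^ 2 := (hcase i0).resolve_left hi0
  have hsplit := Finset.add_sum_erase Finset.univ (fun i => x i ^ 2 - 1) (Finset.mem_univ i0)
  rw [hsum'] at hsplit
  have hrest_nn : 0 ≤ ∑ i ∈ Finset.univ.erase i0, (x i ^ 2 - 1) :=
    Finset.sum_nonneg (fun i _ => hnn i)
  have hrest0 : ∑ i ∈ Finset.univ.erase i0, (x i ^ 2 - 1) = 0 := by
    omega
  have hx0 : x i0 ^ 2 = 9 := by omega
  have hothers := (Finset.sum_eq_zero_iff_of_nonneg (fun i _ => hnn i)).mp hrest0
  refine ⟨i0, ?_, ?_⟩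
  · have h1 : (x i0 - 3) * (x i0 + 3) = 0 := by ring_nf; omega
    rcases mul_eq_zero.mp h1 with h | h
    · left; omega
    · right; omega
  · intro i hi
    have h0 := hothers i (Finset.mem_erase.mpr ⟨hi, Finset.mem_univ i⟩)
    have h1 : (x i - 1) * (x i + 1) = 0 := by ring_nf; omega
    rcases mul_eq_zero.mp h1 with h | h
    · left; omega
    · right; omega

example : Cfsg.Agent.H93.Conway.StmtShapeOdd := shapeOdd

end Cfsg.Agent.H53.Conway
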