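import Mathlib
import Cfsg.Agent.H83.ESDefs

/-!
# ES-EXTRA (helper83's project S3084): recognition of extraspecial 2-groups (helper53)
-/

set_option autoImplicit false

namespace Cfsg.Agent.H53.ES

open Cfsg.Agent.H83.ES

/-- a commutator is unchanged when its first entry is multiplied by a central element -/
theorem comm_mul_central_left {Q : Type} [Group Q] (a b c : Q) (hc : ∀ g : Q, g * c = c * g) :
    (a * c) * b * (a * c)⁻¹ * b⁻¹ = a * b * a⁻¹ * b⁻¹ := by
  have h : c * b * c⁻¹ = b := by rw [← hc b, mul_inv_cancel_right]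
  calc (a * c) * b * (a * c)⁻¹ * b⁻¹ = a * (c * b * c⁻¹) * a⁻¹ * b⁻¹ := by group
    _ = a * b * a⁻¹ * b⁻¹ := by rw [h]

/-- a commutator is unchanged when its second entry is multiplied by a central element -/
theorem comm_mul_central_right {Q : Type} [Group Q] (a b c : Q) (hc : ∀ g : Q, g * c = c * g) :
    a * (b * c) * a⁻¹ * (b * c)⁻¹ = a * b * a⁻¹ * b⁻¹ := by
  have h : c * a⁻¹ * c⁻¹ = a⁻¹ := by rw [← hc a⁻¹, mul_inv_cancel_right]
  calc a * (b * c) * a⁻¹ * (b * c)⁻¹ = a * b * (c * a⁻¹ * c⁻¹) * b⁻¹ := by group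
    _ = a * b * a⁻¹ * b⁻¹ := by rw [h]

/-- piece ES-EXTRA. -/
theorem extra : StExtra := by
  intro Q _ _ n hn hcard hZ hcomm hsq
  have hp : IsPGroup 2 Q := IsPGroup.of_card hcard
  -- the commutator subgroup lies in the centre
  have hcle : commutator Q ≤ Subgroup.center Q := by
    rw [commutator_eq_closure, Subgroup.closure_le]
    rintro g ⟨a, b, rfl⟩
    rw [commutatorElement_def]
    exact hcomm a b
  -- `Q` is not abelian
  have hne : commutator Q ≠ ⊥ := by
    intro h0
    have hab : ∀ a b : Q, a * b = b * a := by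
      intro a b
      have h1 : a * b * a⁻¹ * b⁻¹ ∈ commutator Q := by
        rw [commutator_eq_closure]
        exact Subgroup.subset_closure ⟨a, b, commutatorElement_def a b⟩
      rw [h0, Subgroup.mem_bot] at h1
      calc a * b = (a * b * a⁻¹ * b⁻¹) * b * a := by group
        _ = b * a := by rw [h1, one_mul]
    have htop : Subgroup.center Q = ⊤ := by
      rw [Subgroup.eq_top_iff']
      intro z
      rw [Subgroup.mem_center_iff]
      intro g
      exact hab g z
    rw [htop, Subgroup.card_top, hcard] at hZ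
    have h8 : 2 ^ 3 ≤ 2 ^ (2 * n + 1) := Nat.pow_le_pow_right (by norm_num) (by omega)
    omega
  -- commutator = centre
  have hceq : commutator Q = Subgroup.center Q := by
    have hdvd : Nat.card ↥(commutator Q) ∣ Nat.card ↥(Subgroup.center Q) :=
      Subgroup.card_dvd_of_le hcle
    rw [hZ] at hdvd
    have h12 : Nat.card ↥(commutator Q) = 1 ∨ Nat.card ↥(commutator Q) = 2 :=
      (Nat.dvd_prime Nat.prime_two).mp hdvd
    rcases h12 with h1 | h2
    · exact absurd (Subgroup.card_eq_one.mp h1) hne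
    · exact Subgroup.eq_of_le_of_card_ge hcle (by rw [h2, hZ])
  -- every subgroup containing the centre is normal
  have hnormal : ∀ M : Subgroup Q, Subgroup.center Q ≤ M → ∀ g : Q, ∀ m ∈ M, g * m * g⁻¹ ∈ M := by
    intro M hM g m hm
    have h1 : g * m * g⁻¹ * m⁻¹ ∈ M := hM (hcomm g m)
    have h2 : g * m * g⁻¹ = (g * m * g⁻¹ * m⁻¹) * m := by group
    rw [h2]
    exact M.mul_mem h1 hm
  refine ⟨⟨hp, ?_, hceq⟩, hZ⟩
  apply le_antisymm
  · -- frattini ≤ centre
    intro a ha
    by_contra hac
    obtain ⟨M, -, hMmax⟩ := Finite.exists_le_maximal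
      (p := fun M : Subgroup Q => Subgroup.center Q ≤ M ∧ a ∉ M) (a := Subgroup.center Q)
      ⟨le_refl _, hac⟩
    obtain ⟨⟨hZM, haM⟩, hmax⟩ := hMmax
    have hcoatom : IsCoatom M := by
      refine ⟨fun h => haM (h ▸ Subgroup.mem_top a), ?_⟩
      intro K hMK
      have haK : a ∈ K := by
        by_contra haK
        exact (not_le_of_gt hMK) (hmax ⟨hZM.trans hMK.le, haK⟩ hMK.le)
      rw [Subgroup.eq_top_iff']
      intro g
      by_cases hgM : g ∈ M
      · exact hMK.le hgM
      · -- `a ∈ M ⊔ zpowers g`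
        have hMn : M.Normal := ⟨fun m hm g => hnormal M hZM g m hm⟩
        have haM' : a ∈ M ⊔ Subgroup.zpowers g := by
          by_contra haM'
          have hle : M ⊔ Subgroup.zpowers g ≤ M :=
            hmax ⟨hZM.trans le_sup_left, haM'⟩ le_sup_left
          exact hgM (hle (Subgroup.mem_sup_right (Subgroup.mem_zpowers g)))
        have hmem : a ∈ ((M ⊔ Subgroup.zpowers g : Subgroup Q) : Set Q) := haM'
        rw [Subgroup.normal_mul] at hmem
        obtain ⟨m, hm, y, hy, rfl⟩ := Set.mem_mul.mp hmem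
        obtain ⟨k, rfl⟩ := Subgroup.mem_zpowers_iff.mp hy
        have hgg : ∀ j : ℤ, (g * g) ^ j ∈ M := fun j => M.zpow_mem (hZM (hsq g)) j
        rcases Int.even_or_odd k with ⟨j, rfl⟩ | ⟨j, rfl⟩
        · exfalso
          apply haM
          have e : g ^ (j + j) = (g * g) ^ j := by
            rw [zpow_add, (Commute.refl g).mul_zpow]
          rw [e]
          exact M.mul_mem hm (hgg j)
        · have e : g ^ (2 * j + 1) = (g * g) ^ j * g := by
            rw [zpow_add_one, zpow_mul, zpow_two]
          rw [e] at haK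
          have e2 : g = ((g * g) ^ j)⁻¹ * m⁻¹ * (m * ((g * g) ^ j * g)) := by group
          rw [e2]
          exact K.mul_mem (K.mul_mem (K.inv_mem (hMK.le (hgg j))) (K.inv_mem (hMK.le hm))) haK
    exact haM (frattini_le_coatom hcoatom ha)
  · -- centre ≤ frattini
    show Subgroup.center Q ≤ ⨅ a ∈ {H : Subgroup Q | IsCoatom H}, a
    refine le_iInf₂ fun M hM => ?_
    by_contra hZM
    have hM' : IsCoatom M := hM
    have hlt : M < M ⊔ Subgroup.center Q := by
      refine lt_of_le_of_ne le_sup_left ?_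
      intro h
      apply hZM
      calc Subgroup.center Q ≤ M ⊔ Subgroup.center Q := le_sup_right
        _ = M := h.symm
    have htop : M ⊔ Subgroup.center Q = ⊤ := hM'.2 _ hlt
    have hall : ∀ x : Q, ∃ m ∈ M, ∃ c ∈ Subgroup.center Q, m * c = x := by
      intro x
      have hx : x ∈ ((M ⊔ Subgroup.center Q : Subgroup Q) : Set Q) := by
        rw [htop]; exact Subgroup.mem_top x
      rw [Subgroup.mul_normal] at hx
      exact Set.mem_mul.mp hx
    apply hZM
    rw [← hceq, commutator_eq_closure, Subgroup.closure_le]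
    rintro g ⟨a, b, rfl⟩
    obtain ⟨m, hm, c, hc, rfl⟩ := hall a
    obtain ⟨m', hm', c', hc', rfl⟩ := hall b
    rw [commutatorElement_def]
    have hc1 : ∀ g : Q, g * c = c * g := fun g => (Subgroup.mem_center_iff.mp hc g)
    have hc2 : ∀ g : Q, g * c' = c' * g := fun g => (Subgroup.mem_center_iff.mp hc' g)
    rw [comm_mul_central_left m (m' * c') c hc1, comm_mul_central_right m m' c' hc2]
    exact M.mul_mem (M.mul_mem (M.mul_mem hm hm') (M.inv_mem hm)) (M.inv_mem hm')

example : Cfsg.Agent.H83.ES.StExtra := extra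

end Cfsg.Agent.H53.ES
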