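import Mathlib
import Cfsg.Agent.H42.EqDefs2
import Cfsg.Agent.H98.EpBridge
import Cfsg.Agent.H98.EpCntB

/-!
# EQ-CNTB (helper53, for helper42; port of helper98's EP-CNTB)

If the fixed space `K` of an isometry `x` with `x ^ r = 1` of the standard plus space is of minus
type of dimension `m < c`, the number of nondegenerate minus-type `m`-spaces is `≡ 1 (mod r)`:
`K` is the only fixed point of `W ↦ x W` (fixed-point congruence).
-/

set_option autoImplicit false

namespace Cfsg.Agent.H53.Eq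

open Cfsg.Agent.H45 Cfsg.Agent.H42.Spd Cfsg.Agent.H42.Ti Cfsg.Agent.H48.Ep Cfsg.Agent.H42.Eq Module

universe u

/-- The frozen elliptic predicate in terms of `QNd` / `QPlus` for the bundled plus form. -/
theorem isEll_iff {F : Type u} [Field F] (d m : ℕ) (W : Submodule F (Fin d ⊕ Fin d → F)) :
    IsEll F d m W ↔ (finrank F W = m ∧ QNd (Cfsg.Agent.H49.QP d F) W ∧
      ¬ QPlus (Cfsg.Agent.H49.QP d F) W) := by
  unfold IsEll
  have h1 : Cfsg.Geo.IsNondegenerateOn (QuadraticMap.polar (Cfsg.quadFormPlus d F)) W ↔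
      QNd (Cfsg.Agent.H49.QP d F) W := by
    rw [← Cfsg.Agent.H98.Ep.nd_iff]
    unfold Cfsg.Geo.IsNondegenerateOn
    constructor
    · intro h u hu hne
      exact (h u hu hne).2
    · intro h w hw hne
      obtain ⟨x, hx, hxw⟩ := h w hw hne
      exact ⟨⟨x, hx, by rwa [QuadraticMap.polar_comm]⟩, ⟨x, hx, hxw⟩⟩
  have h2 : Cfsg.Geo.IsPlusTypeOn (Cfsg.quadFormPlus d F) W ↔
      QPlus (Cfsg.Agent.H49.QP d F) W := Iff.rfl
  rw [h1, h2]

/-- **EQ-CNTB**. -/
theorem cntB (hS : Cfsg.Agent.H48.Ep.StStruct.{u,u}) (hBr : Cfsg.Agent.H48.Ep.StBridge.{u}) :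
    Cfsg.Agent.H42.Eq.StCntB.{u} := by
  intro F _ _ p _ _ r hr hr2 hrp d m hm hm2 hmc x hx hxr hK hKP
  classical
  obtain ⟨hNdTop, hPlusTop, hfr, -, hIso⟩ := hBr F d m
  have hPW : ∀ W : Submodule F (Fin d ⊕ Fin d → F), IsEll F d m W ↔
      (finrank F W = m ∧ QNd (Cfsg.Agent.H49.QP d F) W ∧
        ¬ QPlus (Cfsg.Agent.H49.QP d F) W) := fun W => isEll_iff d m W
  obtain ⟨T, hT⟩ : ∃ T : Module.End F (Fin d ⊕ Fin d → F),
      T = Matrix.toLin' (x : Matrix (Fin d ⊕ Fin d) (Fin d ⊕ Fin d) F) := ⟨_, rfl⟩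
  rw [← hT] at hK hKP
  have hTiso : ∀ v, Cfsg.Agent.H49.QP d F (T v) = Cfsg.Agent.H49.QP d F v := by
    rw [hT]
    exact (hIso x).mp hx
  have hTpow : T ^ r = 1 := by
    have h1 : ((x ^ r : Matrix.GeneralLinearGroup (Fin d ⊕ Fin d) F) :
        Matrix (Fin d ⊕ Fin d) (Fin d ⊕ Fin d) F) = 1 := by
      rw [hxr]
      rfl
    have h2' : (x : Matrix (Fin d ⊕ Fin d) (Fin d ⊕ Fin d) F) ^ r = 1 := by
      rw [← h1]
      exact (Units.val_pow_eq_pow_val x r).symm
    have h3 := congrArg (Matrix.toLinAlgEquiv' (R := F)) h2'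
    rw [map_pow, map_one] at h3
    rw [hT]
    exact h3
  have hrF : (r : F) ≠ 0 := by
    intro h0
    have h1 := (CharP.cast_eq_zero_iff F p r).mp h0
    exact hrp ((Nat.prime_dvd_prime_iff_eq Fact.out hr).mp h1).symm
  have hEven : Even (finrank F (Fin d ⊕ Fin d → F)) := by
    rw [hfr]
    exact even_two_mul d
  obtain ⟨hKnd, A, -, -, -, hUp⟩ := hS F (Fin d ⊕ Fin d → F) (Cfsg.Agent.H49.QP d F) T r True
    hr hr2 hrF hNdTop hTiso hTpow hEven (iff_true_intro hPlusTop)
  -- powers of `T`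
  have hTk_iso : ∀ (k : ℕ) (a : Fin d ⊕ Fin d → F),
      Cfsg.Agent.H49.QP d F ((T ^ k) a) = Cfsg.Agent.H49.QP d F a := by
    intro k
    induction k with
    | zero => intro a; simp
    | succ k ih =>
      intro a
      rw [pow_succ, Module.End.mul_apply, ih, hTiso]
  have hTinj : Function.Injective T := by
    intro a b hab
    have h1 : (T ^ r) a = (T ^ r) b := by
      obtain ⟨k, hk⟩ : ∃ k, r = k + 1 := ⟨r - 1, by have := hr.pos; omega⟩
      rw [hk, pow_succ, Module.End.mul_apply, Module.End.mul_apply, hab]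
    rw [hTpow] at h1
    exact h1
  have hTk_inj : ∀ k : ℕ, Function.Injective (T ^ k) := by
    intro k
    induction k with
    | zero => intro a b hab; simpa using hab
    | succ k ih =>
      intro a b hab
      rw [pow_succ, Module.End.mul_apply, Module.End.mul_apply] at hab
      exact hTinj (ih hab)
  have hmapk : ∀ (k : ℕ) (W : Submodule F (Fin d ⊕ Fin d → F)),
      (W.map T).map (T ^ k) = W.map (T ^ (k + 1)) := by
    intro k W
    rw [pow_succ, Module.End.mul_eq_comp, Submodule.map_comp]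
  have hmapr : ∀ W : Submodule F (Fin d ⊕ Fin d → F), W.map (T ^ r) = W := by
    intro W
    rw [hTpow, Module.End.one_eq_id, Submodule.map_id]
  -- `W ↦ T W` reflects plus type: apply `T ^ (r - 1)`
  have hPlusBack : ∀ W : Submodule F (Fin d ⊕ Fin d → F),
      QPlus (Cfsg.Agent.H49.QP d F) (W.map T) → QPlus (Cfsg.Agent.H49.QP d F) W := by
    intro W hW
    obtain ⟨k, hk⟩ : ∃ k, r = k + 1 := ⟨r - 1, by have := hr.pos; omega⟩
    have h1 := Cfsg.Agent.H98.Ep.cntB_plus_map (Cfsg.Agent.H49.QP d F) (T ^ k) (hTk_iso k)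
      (hTk_inj k) (W.map T) hW
    rw [hmapk, ← hk, hmapr] at h1
    exact h1
  have hPWmap : ∀ W : Submodule F (Fin d ⊕ Fin d → F),
      IsEll F d m W → IsEll F d m (W.map T) := by
    intro W hW
    obtain ⟨h1, h2', h3⟩ := (hPW W).mp hW
    refine (hPW _).mpr ⟨?_, Cfsg.Agent.H98.Ep.cntB_nd_map _ T hTiso W h2',
      fun h => h3 (hPlusBack W h)⟩
    rw [← (Submodule.equivMapOfInjective T hTinj W).finrank_eq]
    exact h1
  have hfinS : Finite (Submodule F (Fin d ⊕ Fin d → F)) :=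
    Finite.of_injective (fun W : Submodule F (Fin d ⊕ Fin d → F) =>
      (W : Set (Fin d ⊕ Fin d → F))) SetLike.coe_injective
  obtain ⟨τ, hτ⟩ : ∃ τ : {W : Submodule F (Fin d ⊕ Fin d → F) // IsEll F d m W} →
      {W : Submodule F (Fin d ⊕ Fin d → F) // IsEll F d m W},
      ∀ W, (τ W).1 = W.1.map T := ⟨fun W => ⟨W.1.map T, hPWmap W.1 W.2⟩, fun _ => rfl⟩
  have hiter : ∀ (k : ℕ) (W : {W : Submodule F (Fin d ⊕ Fin d → F) // IsEll F d m W}),
      (τ^[k] W).1 = W.1.map (T ^ k) := by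
    intro k
    induction k with
    | zero =>
      intro W
      rw [Function.iterate_zero, id, pow_zero, Module.End.one_eq_id, Submodule.map_id]
    | succ k ih =>
      intro W
      rw [Function.iterate_succ_apply, ih, hτ, hmapk]
  have hτr : ∀ W, τ^[r] W = W := by
    intro W
    apply Subtype.ext
    rw [hiter, hmapr]
  have hmod := Cfsg.Agent.H98.Ep.cntB_card_modEq_fix τ r hr hτr
  -- the only fixed point is `ker (T - 1)`
  have hfixeq : ∀ W : Submodule F (Fin d ⊕ Fin d → F), IsEll F d m W →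
      W.map T = W → W = LinearMap.ker (T - 1) := by
    intro W hW hfix
    obtain ⟨h1, h2', h3⟩ := (hPW W).mp hW
    have hWinv : W ∈ T.invtSubmodule := by
      rw [Module.End.mem_invtSubmodule]
      intro v hv
      rw [Submodule.mem_comap, ← hfix]
      exact ⟨v, hv, rfl⟩
    have hWe : Even (finrank F W) := by
      rw [h1]
      exact hm
    obtain ⟨j, -, hj1, -, -, -⟩ := hUp W False hWinv h2' hWe (iff_false_intro h3)
    have hj0 : j = 0 := by
      by_contra hne
      have h4 : cc F r * 1 ≤ cc F r * j := Nat.mul_le_mul_left _ (Nat.pos_of_ne_zero hne)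
      omega
    rw [hj0, mul_zero, zero_add] at hj1
    have h4 : finrank F ↥(W ⊓ LinearMap.ker (T - 1)) = finrank F W := hj1.symm
    have h5 : W ⊓ LinearMap.ker (T - 1) = W := Submodule.eq_of_le_of_finrank_eq inf_le_left h4
    have h6 : W ≤ LinearMap.ker (T - 1) := inf_eq_left.mp h5
    exact Submodule.eq_of_le_of_finrank_eq h6 (by rw [h1, hK])
  have hKfix : (LinearMap.ker (T - 1)).map T = LinearMap.ker (T - 1) := by
    have hfixv : ∀ w ∈ LinearMap.ker (T - 1), T w = w := by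
      intro w hw
      have h1 := LinearMap.mem_ker.mp hw
      rw [LinearMap.sub_apply, Module.End.one_apply, sub_eq_zero] at h1
      exact h1
    apply le_antisymm
    · rintro _ ⟨w, hw, rfl⟩
      rw [hfixv w hw]
      exact hw
    · intro w hw
      exact ⟨w, hw, hfixv w hw⟩
  have hKPW : IsEll F d m (LinearMap.ker (T - 1)) := (hPW _).mpr ⟨hK, hKnd, hKP⟩
  have hcard : Nat.card {W : {W : Submodule F (Fin d ⊕ Fin d → F) // IsEll F d m W} //
      τ W = W} = 1 := by
    rw [Nat.card_eq_one_iff_unique]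
    refine ⟨⟨fun W₁ W₂ => ?_⟩, ⟨⟨⟨LinearMap.ker (T - 1), hKPW⟩, Subtype.ext ?_⟩⟩⟩
    · apply Subtype.ext
      apply Subtype.ext
      have e1 : W₁.1.1.map T = W₁.1.1 := by
        rw [← hτ]
        exact congrArg Subtype.val W₁.2
      have e2 : W₂.1.1.map T = W₂.1.1 := by
        rw [← hτ]
        exact congrArg Subtype.val W₂.2
      rw [hfixeq W₁.1.1 W₁.1.2 e1, hfixeq W₂.1.1 W₂.1.2 e2]
    · rw [hτ]
      exact hKfix
  intro hdvd
  have h1 : r ∣ 1 := by
    rw [← hcard]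
    exact (hmod.dvd_iff (dvd_refl r)).mp hdvd
  exact hr.one_lt.ne' (Nat.dvd_one.mp h1)

example (hS : Cfsg.Agent.H48.Ep.StStruct.{u,u}) (hBr : Cfsg.Agent.H48.Ep.StBridge.{u}) :
    Cfsg.Agent.H42.Eq.StCntB.{u} := cntB hS hBr

end Cfsg.Agent.H53.Eq
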