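import Mathlib
import Cfsg.Agent.H66.GrossDefs

/-!
# S3795 (Gross), piece UGROUP (helper53 for helper66): the group-theoretic upper bound,
obtained from the abelian statement `UAbStatement` on `C / Z`.
-/

set_option autoImplicit false

namespace Cfsg.Agent.H53.Gross

open Cfsg Cfsg.Agent.H66.Gross
open scoped commutatorElement

universe u

/-- a fixed-point-free automorphism of `2`-power order lives on a group of odd order -/
theorem ug_odd {H : Type*} [Group H] [Finite H] (σ : MulAut H) (n : ℕ) (hσ : σ ^ (2 ^ n) = 1)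
    (hfix : ∀ h : H, σ h = h → h = 1) : Odd (Nat.card H) := by
  have hP : IsPGroup 2 (Subgroup.zpowers σ) := by
    rintro ⟨g, hg⟩
    refine ⟨n, Subtype.ext ?_⟩
    obtain ⟨k, rfl⟩ := Subgroup.mem_zpowers_iff.mp hg
    show (σ ^ k) ^ (2 ^ n) = 1
    rw [← zpow_natCast, ← zpow_mul, mul_comm, zpow_mul, zpow_natCast, hσ, one_zpow]
  have h1 := hP.card_modEq_card_fixedPoints H
  have h2 : MulAction.fixedPoints (Subgroup.zpowers σ) H = {1} := by
    ext h
    rw [MulAction.mem_fixedPoints, Set.mem_singleton_iff]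
    constructor
    · intro hh
      exact hfix h (hh ⟨σ, Subgroup.mem_zpowers σ⟩)
    · rintro rfl g
      exact map_one (g : MulAut H)
  rw [h2] at h1
  have h3 : Nat.card ({1} : Set H) = 1 := by simp
  rw [h3] at h1
  rw [Nat.odd_iff]
  exact h1

/-- a fixed-point-free automorphism stays fixed-point-free modulo an invariant finite subgroup -/
theorem ug_fpf_quot {G : Type*} [Group G] (σ : MulAut G) (N : Subgroup G) [Finite N]
    (hN : ∀ x ∈ N, σ x ∈ N) (hfix : ∀ g, σ g = g → g = 1) (g : G) (hg : g⁻¹ * σ g ∈ N) :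
    g ∈ N := by
  obtain ⟨f, hf⟩ : ∃ f : ↥N → ↥N, ∀ h, (f h : G) = (h : G)⁻¹ * σ h :=
    ⟨fun h => ⟨(h : G)⁻¹ * σ h, N.mul_mem (N.inv_mem h.2) (hN _ h.2)⟩, fun h => rfl⟩
  have hfinj : Function.Injective f := by
    intro h k hhk
    have h1 := congrArg Subtype.val hhk
    rw [hf, hf] at h1
    have h2 : σ ((k : G) * (h : G)⁻¹) = (k : G) * (h : G)⁻¹ := by
      rw [map_mul, map_inv]
      have h3 : σ (k : G) = (k : G) * ((h : G)⁻¹ * σ (h : G)) := by rw [h1]; group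
      rw [h3]; group
    have h3 := hfix _ h2
    apply Subtype.ext
    exact (mul_inv_eq_one.mp h3).symm
  have hfsurj := (Finite.injective_iff_bijective.mp hfinj).2
  obtain ⟨n, hn⟩ := hfsurj ⟨g⁻¹ * σ g, hg⟩
  have h1 := congrArg Subtype.val hn
  rw [hf] at h1
  have h2 : σ (g * (n : G)⁻¹) = g * (n : G)⁻¹ := by
    rw [map_mul, map_inv]
    have h3 : σ g = g * ((n : G)⁻¹ * σ (n : G)) := by rw [h1]; group
    rw [h3]; group
  have h3 := hfix _ h2
  rw [mul_inv_eq_one] at h3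
  rw [h3]
  exact n.2

/-- restriction of an automorphism to an invariant finite subgroup -/
theorem ug_restrict {H : Type*} [Group H] (C : Subgroup H) [Finite C] (σ : MulAut H)
    (hσ : ∀ x ∈ C, σ x ∈ C) :
    ∃ e : MulAut C, ∀ (k : ℕ) (x : C), (((e ^ k) x : C) : H) = (σ ^ k) (x : H) := by
  obtain ⟨f, hf⟩ : ∃ f : C →* C, ∀ x : C, ((f x : C) : H) = σ (x : H) :=
    ⟨MonoidHom.mk' (fun x => ⟨σ x, hσ x x.2⟩)
      (by intro a b; exact Subtype.ext (map_mul σ _ _)), fun x => rfl⟩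
  have hinj : Function.Injective f := by
    intro a b hab
    have h1 := congrArg Subtype.val hab
    rw [hf, hf] at h1
    exact Subtype.ext (σ.injective h1)
  have hbij : Function.Bijective f := Finite.injective_iff_bijective.mp hinj
  refine ⟨MulEquiv.ofBijective f hbij, ?_⟩
  intro k
  induction k with
  | zero => intro x; rfl
  | succ k ih =>
    intro x
    rw [pow_succ, pow_succ, MulAut.mul_apply, MulAut.mul_apply, ih]
    congr 1
    exact hf x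

/-- the automorphism induced on a quotient by an invariant finite normal subgroup -/
theorem ug_quot_aut {Γ : Type*} [Group Γ] (N : Subgroup Γ) [N.Normal] [Finite N] (e : MulAut Γ)
    (he : ∀ x ∈ N, e x ∈ N) :
    ∃ φ : MulAut (Γ ⧸ N), ∀ (k : ℕ) (x : Γ),
      (φ ^ k) (QuotientGroup.mk x) = QuotientGroup.mk ((e ^ k) x) := by
  have hmap : N.map ((e : Γ ≃* Γ) : Γ →* Γ) = N := by
    have hle : N.map ((e : Γ ≃* Γ) : Γ →* Γ) ≤ N := by
      rintro _ ⟨x, hx, rfl⟩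
      exact he x hx
    apply Subgroup.eq_of_le_of_card_ge hle
    rw [Subgroup.card_map_of_injective (f := ((e : Γ ≃* Γ) : Γ →* Γ)) e.injective]
  refine ⟨QuotientGroup.congr N N e hmap, ?_⟩
  intro k
  induction k with
  | zero => intro x; rfl
  | succ k ih =>
    intro x
    rw [pow_succ, pow_succ, MulAut.mul_apply, MulAut.mul_apply, QuotientGroup.congr_mk, ih]

/-- the action induced on a quotient by an invariant normal subgroup -/
theorem ug_quot_act {P Γ : Type*} [Group P] [Group Γ] (N : Subgroup Γ) [N.Normal]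
    (a : P →* MulAut Γ) (ha : ∀ p, ∀ x ∈ N, a p x ∈ N) :
    ∃ c : P →* MulAut (Γ ⧸ N), ∀ p x,
      c p (QuotientGroup.mk x) = QuotientGroup.mk (a p x) := by
  have hmap : ∀ p, N.map ((a p : Γ ≃* Γ) : Γ →* Γ) = N := by
    intro p
    apply le_antisymm
    · rintro _ ⟨x, hx, rfl⟩
      exact ha p x hx
    · intro x hx
      refine ⟨a p⁻¹ x, ha p⁻¹ x hx, ?_⟩
      show a p (a p⁻¹ x) = x
      rw [← MulAut.mul_apply, ← map_mul, mul_inv_cancel, map_one]
      rfl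
  refine ⟨MonoidHom.mk' (fun p => QuotientGroup.congr N N (a p) (hmap p)) ?_, ?_⟩
  · intro p₁ p₂
    apply MulEquiv.ext
    intro m
    obtain ⟨x, rfl⟩ := QuotientGroup.mk_surjective m
    rw [MulAut.mul_apply, QuotientGroup.congr_mk, QuotientGroup.congr_mk,
      QuotientGroup.congr_mk, map_mul, MulAut.mul_apply]
  · intro p x
    rfl

/-- `UAbStatement` for a group `M` with a commutativity hypothesis -/
theorem ug_uab (hUAb : UAbStatement.{u}) (P : Type u) [Group P] [Finite P] (M : Type u) [Group M]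
    [Finite M] (hMc : ∀ a b : M, a * b = b * a) (q s : ℕ) [Fact q.Prime] [Fact s.Prime]
    (hqs : q ≠ s) (hq2 : q ≠ 2) (hs2 : s ≠ 2) (hP : IsPGroup s P) (hexp : ∀ m : M, m ^ q = 1)
    (c : P →* MulAut M) (σ : MulAut P) (φ : MulAut M) (n : ℕ) (hn : 0 < n)
    (hσ : σ ^ (2 ^ n) = 1) (hφ : φ ^ (2 ^ n) = 1) (hcomp : ∀ g m, φ (c g m) = c (σ g) (φ m))
    (hfix : ∀ m, φ m = m → m = 1) (hex : ∃ g : P, c ((σ ^ (2 ^ (n - 1))) g) ≠ c g) :
    ∃ z : P, c z ≠ 1 ∧ ∀ β : M → M → ZMod q,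
      (∀ x y z, β (x * y) z = β x z + β y z) → (∀ x y z, β x (y * z) = β x y + β x z) →
      (∀ x, β x x = 0) → (∀ g x y, β (c g x) (c g y) = β x y) →
      (∀ x y, β ((φ ^ (2 ^ (n - 1))) x) ((φ ^ (2 ^ (n - 1))) y) = β x y) →
      (∃ x₁ x₂ : M, ∀ x, (φ ^ (2 ^ (n - 1))) x = x⁻¹ → ∃ i j : ℕ,
        ∀ y, (φ ^ (2 ^ (n - 1))) y = y⁻¹ → β (x * x₁ ^ i * x₂ ^ j) y = 0) →
      ∀ x y, β (c z x * x⁻¹) y = 0 := by
  let _ : CommGroup M := { ‹Group M› with mul_comm := hMc }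
  exact hUAb P M q s hqs hq2 hs2 hP hexp c σ φ n hn hσ hφ hcomp hfix hex

theorem ugroup_holds (hUAb : UAbStatement.{u}) (hStab : StabStatement.{u}) :
    UGroupStatement.{u} := by
  intro H _ _ σ n hn hσ hfix q s _ _ hqs C Z hcrit T hT hσT hTC hTZ hex
  obtain ⟨hCq, hZC, hσC, hσZ, hCZ, hcomm, hpow, hτZ⟩ := hcrit
  obtain ⟨t, htT, hτt, x₀, hx₀C, htx₀⟩ := hex
  have hq : q.Prime := Fact.out
  have hs : s.Prime := Fact.out
  -- odd order, hence `q ≠ 2` and `s ≠ 2`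
  have hodd : Odd (Nat.card H) := ug_odd σ n hσ hfix
  have hne2 : ∀ (r : ℕ) (K : Subgroup H), r.Prime → IsPGroup r K → K ≠ ⊥ → r ≠ 2 := by
    intro r K hr hK hKne h2
    have : Fact r.Prime := ⟨hr⟩
    obtain ⟨k, hk⟩ := IsPGroup.iff_card.mp hK
    have hk0 : k ≠ 0 := by
      rintro rfl
      rw [pow_zero] at hk
      exact hKne (Subgroup.card_eq_one.mp hk)
    have h3 : 2 ∣ Nat.card K := by
      rw [hk, h2]
      exact dvd_pow_self 2 hk0
    have h4 : 2 ∣ Nat.card H := h3.trans (Subgroup.card_subgroup_dvd_card K)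
    exact (Nat.not_even_iff_odd.mpr hodd) (even_iff_two_dvd.mpr h4)
  have hx₀1 : x₀ ≠ 1 := by
    rintro rfl
    exact htx₀ (by rw [mul_one, one_mul])
  have ht1 : t ≠ 1 := by
    rintro rfl
    exact htx₀ (by rw [mul_one, one_mul])
  have hq2 : q ≠ 2 := hne2 q C hq hCq (fun h => hx₀1 ((Subgroup.mem_bot).mp (h ▸ hx₀C)))
  have hs2 : s ≠ 2 := hne2 s T hs hT (fun h => ht1 ((Subgroup.mem_bot).mp (h ▸ htT)))
  -- elementary facts on `C` and `Z`
  have hZab : ∀ a ∈ Z, ∀ b ∈ Z, a * b = b * a := fun a ha b hb => hCZ a (hZC ha) b hb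
  have hL1 : ∀ x ∈ C, ∀ y ∈ C, ∀ w ∈ C, ⁅x * y, w⁆ = ⁅x, w⁆ * ⁅y, w⁆ := by
    intro x hx y hy w hw
    have h1 : ⁅x * y, w⁆ = x * ⁅y, w⁆ * x⁻¹ * ⁅x, w⁆ := by
      simp only [commutatorElement_def]; group
    have h2 : x * ⁅y, w⁆ = ⁅y, w⁆ * x := hCZ x hx _ (hcomm y hy w hw)
    rw [h1, h2, mul_inv_cancel_right]
    exact hZab _ (hcomm y hy w hw) _ (hcomm x hx w hw)
  have hL2 : ∀ x ∈ C, ∀ y ∈ C, ∀ w ∈ C, ⁅x, y * w⁆ = ⁅x, y⁆ * ⁅x, w⁆ := by
    intro x hx y hy w hw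
    have h1 := hL1 y hy w hw x hx
    have h2 : ⁅x, y * w⁆ = (⁅y * w, x⁆)⁻¹ := (commutatorElement_inv _ _).symm
    rw [h2, h1, mul_inv_rev, commutatorElement_inv, commutatorElement_inv]
    exact hZab _ (hcomm x hx w hw) _ (hcomm x hx y hy)
  have hcent : ∀ x ∈ C, ∀ z ∈ Z, ⁅x, z⁆ = 1 ∧ ⁅z, x⁆ = 1 := by
    intro x hx z hz
    have h1 := hCZ x hx z hz
    constructor
    · rw [commutatorElement_def, h1, mul_inv_cancel_right, mul_inv_cancel]
    · rw [commutatorElement_def, ← h1, mul_inv_cancel_right, mul_inv_cancel]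
  have hCCZ : ⁅C, C⁆ ≤ Z := Subgroup.commutator_le.mpr (fun a ha b hb => hcomm a ha b hb)
  have hcommpow : ∀ a ∈ C, ∀ b ∈ C, ∀ k : ℕ, ⁅a, b⁆ ^ k = ⁅a ^ k, b⁆ := by
    intro a ha b hb k
    induction k with
    | zero =>
      rw [pow_zero, pow_zero, commutatorElement_def]
      group
    | succ k ih =>
      rw [pow_succ, pow_succ, hL1 _ (C.pow_mem ha k) _ ha _ hb, ih]
  have hCCexp : ∀ c ∈ ⁅C, C⁆, c ^ q = 1 := by
    obtain ⟨K, hK⟩ : ∃ K : Subgroup H, ∀ c, c ∈ K ↔ c ∈ Z ∧ c ^ q = 1 :=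
      ⟨{ carrier := {c | c ∈ Z ∧ c ^ q = 1}
         mul_mem' := by
           rintro a b ⟨ha, ha'⟩ ⟨hb, hb'⟩
           refine ⟨Z.mul_mem ha hb, ?_⟩
           have h1 : Commute a b := hZab a ha b hb
           rw [h1.mul_pow, ha', hb', one_mul]
         one_mem' := ⟨Z.one_mem, one_pow q⟩
         inv_mem' := by
           rintro a ⟨ha, ha'⟩
           exact ⟨Z.inv_mem ha, by rw [inv_pow, ha', inv_one]⟩ }, fun c => Iff.rfl⟩
    have hle : ⁅C, C⁆ ≤ K := by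
      rw [Subgroup.commutator_le]
      intro a ha b hb
      rw [hK]
      refine ⟨hcomm a ha b hb, ?_⟩
      rw [hcommpow a ha b hb q]
      exact (hcent b hb _ (hpow a ha)).2
    intro c hc
    exact ((hK c).mp (hle hc)).2
  -- the quotient `M = C / Z`
  obtain ⟨N, hN⟩ : ∃ N : Subgroup C, N = Z.subgroupOf C := ⟨_, rfl⟩
  have hmemN : ∀ x : C, x ∈ N ↔ (x : H) ∈ Z := by
    intro x
    rw [hN]
    exact Subgroup.mem_subgroupOf
  have hNn : N.Normal := ⟨by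
    intro z hz g
    rw [hmemN] at hz ⊢
    have h1 : ((g * z * g⁻¹ : C) : H) = (z : H) := by
      rw [Subgroup.coe_mul, Subgroup.coe_mul, Subgroup.coe_inv, hCZ g g.2 z hz,
        mul_inv_cancel_right]
    rw [h1]
    exact hz⟩
  have hMc : ∀ a b : C ⧸ N, a * b = b * a := by
    intro a b
    obtain ⟨x, rfl⟩ := QuotientGroup.mk_surjective a
    obtain ⟨y, rfl⟩ := QuotientGroup.mk_surjective b
    rw [← QuotientGroup.mk_mul, ← QuotientGroup.mk_mul, QuotientGroup.eq, hmemN]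
    have h1 := hcomm _ (C.inv_mem y.2) _ (C.inv_mem x.2)
    have h2 : (((x * y)⁻¹ * (y * x) : C) : H) = ⁅(y : H)⁻¹, (x : H)⁻¹⁆ := by
      simp only [Subgroup.coe_mul, Subgroup.coe_inv, commutatorElement_def]
      group
    rw [h2]
    exact h1
  have hMexp : ∀ m : C ⧸ N, m ^ q = 1 := by
    intro m
    obtain ⟨x, rfl⟩ := QuotientGroup.mk_surjective m
    rw [← QuotientGroup.mk_pow, QuotientGroup.eq_one_iff, hmemN, Subgroup.coe_pow]
    exact hpow x x.2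
  -- the actions
  have hTN : T ≤ Subgroup.normalizer (C : Set H) := by
    intro g hg
    rw [Subgroup.mem_normalizer_iff]
    intro x
    constructor
    · exact hTC g hg x
    · intro hx
      have h1 := hTC g⁻¹ (T.inv_mem hg) _ hx
      have h2 : g⁻¹ * (g * x * g⁻¹) * g⁻¹⁻¹ = x := by group
      rwa [h2] at h1
  obtain ⟨cΓ, hcΓ⟩ : ∃ cΓ : T →* MulAut C, ∀ (g : T) (x : C),
      ((cΓ g x : C) : H) = (g : H) * x * (g : H)⁻¹ :=
    ⟨(C.normalizerMonoidHom).comp (Subgroup.inclusion hTN), fun g x => rfl⟩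
  obtain ⟨σΓ, hσΓ⟩ := ug_restrict C σ hσC
  obtain ⟨σP, hσP⟩ := ug_restrict T σ hσT
  have hσΓ1 : ∀ x : C, ((σΓ x : C) : H) = σ (x : H) := by
    intro x
    have h1 := hσΓ 1 x
    rwa [pow_one, pow_one] at h1
  have hσP1 : ∀ x : T, ((σP x : T) : H) = σ (x : H) := by
    intro x
    have h1 := hσP 1 x
    rwa [pow_one, pow_one] at h1
  have hcΓN : ∀ (g : T), ∀ x ∈ N, cΓ g x ∈ N := by
    intro g x hx
    rw [hmemN] at hx ⊢
    rw [hcΓ, hTZ g g.2 x hx, mul_inv_cancel_right]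
    exact hx
  have hσΓN : ∀ x ∈ N, σΓ x ∈ N := by
    intro x hx
    rw [hmemN] at hx ⊢
    rw [hσΓ1]
    exact hσZ _ hx
  obtain ⟨c, hc⟩ := ug_quot_act N cΓ hcΓN
  obtain ⟨φ, hφ⟩ := ug_quot_aut N σΓ hσΓN
  have hφ1 : ∀ x : C, φ (QuotientGroup.mk x) = (QuotientGroup.mk (σΓ x) : C ⧸ N) := by
    intro x
    have h1 := hφ 1 x
    rwa [pow_one, pow_one] at h1
  have hσPn : σP ^ (2 ^ n) = 1 := by
    apply MulEquiv.ext
    intro x
    apply Subtype.ext
    rw [hσP, hσ]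
    rfl
  have hφn : φ ^ (2 ^ n) = 1 := by
    apply MulEquiv.ext
    intro m
    obtain ⟨x, rfl⟩ := QuotientGroup.mk_surjective m
    rw [hφ]
    have h1 : (σΓ ^ (2 ^ n)) x = x := by
      apply Subtype.ext
      rw [hσΓ, hσ]
      rfl
    rw [h1]
    rfl
  have hcomp : ∀ (g : T) (m : C ⧸ N), φ (c g m) = c (σP g) (φ m) := by
    intro g m
    obtain ⟨x, rfl⟩ := QuotientGroup.mk_surjective m
    rw [hc, hφ1, hφ1, hc]
    congr 1
    apply Subtype.ext
    rw [hσΓ1, hcΓ, hcΓ, hσΓ1, hσP1, map_mul, map_mul, map_inv]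
  have hφfix : ∀ m : C ⧸ N, φ m = m → m = 1 := by
    intro m
    obtain ⟨x, rfl⟩ := QuotientGroup.mk_surjective m
    intro h
    rw [hφ1, QuotientGroup.eq, hmemN] at h
    rw [QuotientGroup.eq_one_iff, hmemN]
    apply ug_fpf_quot σ Z hσZ hfix
    have h2 : (x : H)⁻¹ * σ (x : H) = ((((σΓ x)⁻¹ * x : C) : H))⁻¹ := by
      rw [Subgroup.coe_mul, Subgroup.coe_inv, hσΓ1, mul_inv_rev, inv_inv]
    rw [h2]
    exact Z.inv_mem h
  have hexg : ∃ g : T, c ((σP ^ (2 ^ (n - 1))) g) ≠ c g := by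
    refine ⟨⟨t, htT⟩, ?_⟩
    intro h
    have h1 : (σP ^ (2 ^ (n - 1))) ⟨t, htT⟩ = (⟨t, htT⟩ : T)⁻¹ := by
      apply Subtype.ext
      rw [hσP, Subgroup.coe_inv]
      exact hτt
    rw [h1, map_inv] at h
    have h2 : c ⟨t, htT⟩ ^ 2 = 1 := by
      rw [pow_two]
      nth_rewrite 1 [← h]
      exact inv_mul_cancel _
    obtain ⟨k, hk⟩ := hT ⟨t, htT⟩
    have h3 : c ⟨t, htT⟩ = 1 := by
      have h4 : c ⟨t, htT⟩ ^ (s ^ k) = 1 := by rw [← map_pow, hk, map_one]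
      have h5 : orderOf (c ⟨t, htT⟩) ∣ Nat.gcd 2 (s ^ k) :=
        Nat.dvd_gcd (orderOf_dvd_of_pow_eq_one h2) (orderOf_dvd_of_pow_eq_one h4)
      have h6 : Nat.gcd 2 (s ^ k) = 1 :=
        Nat.Coprime.pow_right k ((Nat.coprime_primes Nat.prime_two hs).mpr (Ne.symm hs2))
      rw [h6, Nat.dvd_one] at h5
      exact orderOf_eq_one_iff.mp h5
    apply htx₀
    apply hStab H q C Z hCq hZC t ?_ (fun k hk => hTZ t htT k hk) ?_ x₀ hx₀C
    · have h4 : t ^ (s ^ k) = 1 := by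
        have h5 := congrArg Subtype.val hk
        rwa [Subgroup.coe_pow] at h5
      have h5 : orderOf t ∣ s ^ k := orderOf_dvd_of_pow_eq_one h4
      exact Nat.Coprime.coprime_dvd_left h5
        (Nat.Coprime.pow_left k ((Nat.coprime_primes hs hq).mpr (Ne.symm hqs)))
    · intro x hx
      have h4 : c ⟨t, htT⟩ (QuotientGroup.mk ⟨x, hx⟩) = (QuotientGroup.mk ⟨x, hx⟩ : C ⧸ N) := by
        rw [h3]
        rfl
      rw [hc, QuotientGroup.eq_iff_div_mem, hmemN] at h4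
      have h5 : ((cΓ ⟨t, htT⟩ ⟨x, hx⟩ / ⟨x, hx⟩ : C) : H) = ⁅t, x⁆ := by
        rw [Subgroup.coe_div, hcΓ, commutatorElement_def, div_eq_mul_inv]
      rw [h5] at h4
      exact h4
  obtain ⟨z, hz1, hzβ⟩ := ug_uab hUAb T (C ⧸ N) hMc q s hqs hq2 hs2 hT hMexp c σP φ n hn hσPn hφn
    hcomp hφfix hexg
  refine ⟨(z : H), z.2, ?_, ?_⟩
  · by_contra hcon
    push Not at hcon
    apply hz1
    apply MulEquiv.ext
    intro m
    obtain ⟨x, rfl⟩ := QuotientGroup.mk_surjective m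
    rw [hc]
    have h1 : cΓ z x = x := by
      apply Subtype.ext
      rw [hcΓ, hcon x x.2, mul_inv_cancel_right]
    rw [h1]
    rfl
  · intro D hcyc hrank x hx y hy
    obtain ⟨c₀, hc₀, hcyc⟩ := hcyc
    have hc₀Z : c₀ ∈ Z := hCCZ hc₀
    have hc₀q : c₀ ^ q = 1 := hCCexp c₀ hc₀
    have hzx : ⁅(z : H), x⁆ ∈ C := by
      rw [commutatorElement_def]
      exact C.mul_mem (hTC z z.2 x hx) (C.inv_mem hx)
    by_cases hc₀D : c₀ ∈ D
    · obtain ⟨i, hi⟩ := hcyc _ (Subgroup.commutator_mem_commutator hzx hy)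
      have h1 := D.mul_mem hi (D.inv_mem (D.pow_mem hc₀D i))
      rwa [mul_inv_cancel_right] at h1
    · -- powers of `c₀` in `D`
      have hpowD : ∀ k : ℤ, c₀ ^ k ∈ D → (q : ℤ) ∣ k := by
        intro k hk
        by_contra hnd
        have hcop : IsCoprime (q : ℤ) k := by
          rw [Int.isCoprime_iff_gcd_eq_one]
          show Nat.gcd (Int.natAbs (q : ℤ)) k.natAbs = 1
          rw [Int.natAbs_natCast]
          exact (Nat.Prime.coprime_iff_not_dvd hq).mpr (fun h => hnd (Int.natCast_dvd.mpr h))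
        obtain ⟨a, b, hab⟩ := hcop
        apply hc₀D
        have h1 : c₀ = (c₀ ^ k) ^ b := by
          have h2 : c₀ ^ (a * (q : ℤ) + b * k) = c₀ := by rw [hab, zpow_one]
          rw [zpow_add, zpow_mul', zpow_natCast, hc₀q, one_zpow, one_mul, zpow_mul'] at h2
          exact h2.symm
        rw [h1]
        exact D.zpow_mem hk b
      have hexi : ∀ a b : C, ∃ i : ℕ, ⁅(a : H), (b : H)⁆ * c₀ ^ i ∈ D :=
        fun a b => hcyc _ (Subgroup.commutator_mem_commutator a.2 b.2)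
      -- the form
      obtain ⟨β, hβ⟩ : ∃ β : C ⧸ N → C ⧸ N → ZMod q, ∀ (a b : C) (i : ℕ),
          ⁅(a : H), (b : H)⁆ * c₀ ^ i ∈ D →
            β (QuotientGroup.mk a) (QuotientGroup.mk b) = (i : ZMod q) := by
        refine ⟨fun m₁ m₂ => ((Classical.choose (hexi m₁.out m₂.out) : ℕ) : ZMod q), ?_⟩
        intro a b i hi
        have hspec := Classical.choose_spec
          (hexi (QuotientGroup.mk a : C ⧸ N).out (QuotientGroup.mk b : C ⧸ N).out)
        obtain ⟨n₁, hn₁⟩ := QuotientGroup.mk_out_eq_mul N a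
        obtain ⟨n₂, hn₂⟩ := QuotientGroup.mk_out_eq_mul N b
        have hn₁Z : ((n₁ : C) : H) ∈ Z := (hmemN _).mp n₁.2
        have hn₂Z : ((n₂ : C) : H) ∈ Z := (hmemN _).mp n₂.2
        have hceq : ⁅(((QuotientGroup.mk a : C ⧸ N).out : C) : H),
            (((QuotientGroup.mk b : C ⧸ N).out : C) : H)⁆ = ⁅(a : H), (b : H)⁆ := by
          rw [hn₁, hn₂, Subgroup.coe_mul, Subgroup.coe_mul,
            hL1 _ a.2 _ (hZC hn₁Z) _ (C.mul_mem b.2 (hZC hn₂Z)),
            (hcent _ (C.mul_mem b.2 (hZC hn₂Z)) _ hn₁Z).2, mul_one,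
            hL2 _ a.2 _ b.2 _ (hZC hn₂Z), (hcent _ a.2 _ hn₂Z).1, mul_one]
        show ((Classical.choose (hexi (QuotientGroup.mk a : C ⧸ N).out
          (QuotientGroup.mk b : C ⧸ N).out) : ℕ) : ZMod q) = (i : ZMod q)
        generalize Classical.choose (hexi (QuotientGroup.mk a : C ⧸ N).out
          (QuotientGroup.mk b : C ⧸ N).out) = i' at hspec ⊢
        rw [hceq] at hspec
        have h1 : c₀ ^ ((i : ℤ) - (i' : ℤ)) ∈ D := by
          have h2 : c₀ ^ ((i : ℤ) - (i' : ℤ)) =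
              (⁅(a : H), (b : H)⁆ * c₀ ^ i')⁻¹ * (⁅(a : H), (b : H)⁆ * c₀ ^ i) := by
            rw [sub_eq_neg_add, zpow_add, zpow_neg, zpow_natCast, zpow_natCast, mul_inv_rev,
              mul_assoc, inv_mul_cancel_left]
          rw [h2]
          exact D.mul_mem (D.inv_mem hspec) hi
        have h2 := hpowD _ h1
        have h3 := (ZMod.intCast_eq_intCast_iff_dvd_sub (i' : ℤ) (i : ℤ) q).mpr h2
        rwa [Int.cast_natCast, Int.cast_natCast] at h3
      have hβ1 : ∀ m₁ m₂ m₃ : C ⧸ N, β (m₁ * m₂) m₃ = β m₁ m₃ + β m₂ m₃ := by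
        intro m₁ m₂ m₃
        obtain ⟨a, rfl⟩ := QuotientGroup.mk_surjective m₁
        obtain ⟨b, rfl⟩ := QuotientGroup.mk_surjective m₂
        obtain ⟨w, rfl⟩ := QuotientGroup.mk_surjective m₃
        obtain ⟨i, hi⟩ := hexi a w
        obtain ⟨j, hj⟩ := hexi b w
        have h1 : ⁅((a * b : C) : H), (w : H)⁆ * c₀ ^ (i + j) ∈ D := by
          have hcc : ⁅(b : H), (w : H)⁆ * c₀ ^ i = c₀ ^ i * ⁅(b : H), (w : H)⁆ :=
            hZab _ (hcomm _ b.2 _ w.2) _ (Z.pow_mem hc₀Z i)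
          have h2 : ⁅((a * b : C) : H), (w : H)⁆ * c₀ ^ (i + j) =
              (⁅(a : H), (w : H)⁆ * c₀ ^ i) * (⁅(b : H), (w : H)⁆ * c₀ ^ j) := by
            rw [Subgroup.coe_mul, hL1 _ a.2 _ b.2 _ w.2, pow_add]
            calc ⁅(a : H), (w : H)⁆ * ⁅(b : H), (w : H)⁆ * (c₀ ^ i * c₀ ^ j)
                = ⁅(a : H), (w : H)⁆ * (⁅(b : H), (w : H)⁆ * c₀ ^ i) * c₀ ^ j := by
                  simp only [mul_assoc]
              _ = ⁅(a : H), (w : H)⁆ * (c₀ ^ i * ⁅(b : H), (w : H)⁆) * c₀ ^ j := by rw [hcc]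
              _ = _ := by simp only [mul_assoc]
          rw [h2]
          exact D.mul_mem hi hj
        rw [← QuotientGroup.mk_mul, hβ a w i hi, hβ b w j hj, hβ (a * b) w (i + j) h1,
          Nat.cast_add]
      have hβ2 : ∀ m₁ m₂ m₃ : C ⧸ N, β m₁ (m₂ * m₃) = β m₁ m₂ + β m₁ m₃ := by
        intro m₁ m₂ m₃
        obtain ⟨a, rfl⟩ := QuotientGroup.mk_surjective m₁
        obtain ⟨b, rfl⟩ := QuotientGroup.mk_surjective m₂
        obtain ⟨w, rfl⟩ := QuotientGroup.mk_surjective m₃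
        obtain ⟨i, hi⟩ := hexi a b
        obtain ⟨j, hj⟩ := hexi a w
        have h1 : ⁅(a : H), ((b * w : C) : H)⁆ * c₀ ^ (i + j) ∈ D := by
          have hcc : ⁅(a : H), (w : H)⁆ * c₀ ^ i = c₀ ^ i * ⁅(a : H), (w : H)⁆ :=
            hZab _ (hcomm _ a.2 _ w.2) _ (Z.pow_mem hc₀Z i)
          have h2 : ⁅(a : H), ((b * w : C) : H)⁆ * c₀ ^ (i + j) =
              (⁅(a : H), (b : H)⁆ * c₀ ^ i) * (⁅(a : H), (w : H)⁆ * c₀ ^ j) := by
            rw [Subgroup.coe_mul, hL2 _ a.2 _ b.2 _ w.2, pow_add]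
            calc ⁅(a : H), (b : H)⁆ * ⁅(a : H), (w : H)⁆ * (c₀ ^ i * c₀ ^ j)
                = ⁅(a : H), (b : H)⁆ * (⁅(a : H), (w : H)⁆ * c₀ ^ i) * c₀ ^ j := by
                  simp only [mul_assoc]
              _ = ⁅(a : H), (b : H)⁆ * (c₀ ^ i * ⁅(a : H), (w : H)⁆) * c₀ ^ j := by rw [hcc]
              _ = _ := by simp only [mul_assoc]
          rw [h2]
          exact D.mul_mem hi hj
        rw [← QuotientGroup.mk_mul, hβ a b i hi, hβ a w j hj, hβ a (b * w) (i + j) h1,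
          Nat.cast_add]
      have hβ3 : ∀ m : C ⧸ N, β m m = 0 := by
        intro m
        obtain ⟨a, rfl⟩ := QuotientGroup.mk_surjective m
        have h1 : ⁅(a : H), (a : H)⁆ * c₀ ^ 0 ∈ D := by
          rw [commutatorElement_self, pow_zero, mul_one]
          exact D.one_mem
        rw [hβ a a 0 h1, Nat.cast_zero]
      have hβ4 : ∀ (g : T) (m₁ m₂ : C ⧸ N), β (c g m₁) (c g m₂) = β m₁ m₂ := by
        intro g m₁ m₂
        obtain ⟨a, rfl⟩ := QuotientGroup.mk_surjective m₁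
        obtain ⟨b, rfl⟩ := QuotientGroup.mk_surjective m₂
        obtain ⟨i, hi⟩ := hexi a b
        have h1 : ⁅((cΓ g a : C) : H), ((cΓ g b : C) : H)⁆ * c₀ ^ i ∈ D := by
          have h2 : ⁅((cΓ g a : C) : H), ((cΓ g b : C) : H)⁆ = ⁅(a : H), (b : H)⁆ := by
            rw [hcΓ, hcΓ]
            have h3 : ⁅(g : H) * a * (g : H)⁻¹, (g : H) * b * (g : H)⁻¹⁆ =
                (g : H) * ⁅(a : H), (b : H)⁆ * (g : H)⁻¹ := by
              simp only [commutatorElement_def]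
              group
            rw [h3, hTZ g g.2 _ (hcomm _ a.2 _ b.2), mul_inv_cancel_right]
          rw [h2]
          exact hi
        rw [hc, hc, hβ a b i hi, hβ _ _ i h1]
      have hβ5 : ∀ m₁ m₂ : C ⧸ N,
          β ((φ ^ (2 ^ (n - 1))) m₁) ((φ ^ (2 ^ (n - 1))) m₂) = β m₁ m₂ := by
        intro m₁ m₂
        obtain ⟨a, rfl⟩ := QuotientGroup.mk_surjective m₁
        obtain ⟨b, rfl⟩ := QuotientGroup.mk_surjective m₂
        obtain ⟨i, hi⟩ := hexi a b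
        have h1 : ⁅(((σΓ ^ (2 ^ (n - 1))) a : C) : H), (((σΓ ^ (2 ^ (n - 1))) b : C) : H)⁆ *
            c₀ ^ i ∈ D := by
          have h2 : ⁅(((σΓ ^ (2 ^ (n - 1))) a : C) : H), (((σΓ ^ (2 ^ (n - 1))) b : C) : H)⁆ =
              ⁅(a : H), (b : H)⁆ := by
            rw [hσΓ, hσΓ, ← map_commutatorElement]
            exact hτZ _ (hcomm _ a.2 _ b.2)
          rw [h2]
          exact hi
        rw [hφ, hφ, hβ a b i hi, hβ _ _ i h1]
      have hinv : ∀ a : C, (φ ^ (2 ^ (n - 1))) (QuotientGroup.mk a) =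
          (QuotientGroup.mk a : C ⧸ N)⁻¹ → (a : H) ∈ invSet σ n C Z := by
        intro a h
        rw [hφ, ← QuotientGroup.mk_inv, QuotientGroup.eq, hmemN] at h
        refine ⟨a.2, ?_⟩
        have h2 : (a : H) * (σ ^ (2 ^ (n - 1))) (a : H) =
            (((((σΓ ^ (2 ^ (n - 1))) a)⁻¹ * a⁻¹ : C) : H))⁻¹ := by
          rw [Subgroup.coe_mul, Subgroup.coe_inv, Subgroup.coe_inv, hσΓ, mul_inv_rev, inv_inv,
            inv_inv]
        rw [h2]
        exact Z.inv_mem h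
      have hβ6 : ∃ x₁ x₂ : C ⧸ N, ∀ m, (φ ^ (2 ^ (n - 1))) m = m⁻¹ → ∃ i j : ℕ,
          ∀ m', (φ ^ (2 ^ (n - 1))) m' = m'⁻¹ → β (m * x₁ ^ i * x₂ ^ j) m' = 0 := by
        obtain ⟨x₁, hx₁, x₂, hx₂, hr⟩ := hrank
        refine ⟨QuotientGroup.mk ⟨x₁, hx₁.1⟩, QuotientGroup.mk ⟨x₂, hx₂.1⟩, ?_⟩
        intro m hm
        obtain ⟨a, rfl⟩ := QuotientGroup.mk_surjective m
        obtain ⟨i, j, hij⟩ := hr a (hinv a hm)
        refine ⟨i, j, ?_⟩
        intro m' hm'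
        obtain ⟨b, rfl⟩ := QuotientGroup.mk_surjective m'
        have h1 := hij b (hinv b hm')
        have h2 : ⁅((a * (⟨x₁, hx₁.1⟩ : C) ^ i * (⟨x₂, hx₂.1⟩ : C) ^ j : C) : H), (b : H)⁆ *
            c₀ ^ 0 ∈ D := by
          rw [pow_zero, mul_one]
          simp only [Subgroup.coe_mul, Subgroup.coe_pow]
          exact h1
        rw [← QuotientGroup.mk_pow, ← QuotientGroup.mk_pow, ← QuotientGroup.mk_mul,
          ← QuotientGroup.mk_mul, hβ _ b 0 h2, Nat.cast_zero]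
      have hfin := hzβ β hβ1 hβ2 hβ3 hβ4 hβ5 hβ6 (QuotientGroup.mk ⟨x, hx⟩)
        (QuotientGroup.mk ⟨y, hy⟩)
      rw [hc, ← QuotientGroup.mk_inv, ← QuotientGroup.mk_mul] at hfin
      obtain ⟨i, hi⟩ := hexi (cΓ z ⟨x, hx⟩ * (⟨x, hx⟩ : C)⁻¹) ⟨y, hy⟩
      rw [hβ _ _ i hi, ZMod.natCast_eq_zero_iff] at hfin
      obtain ⟨k, rfl⟩ := hfin
      rw [pow_mul, hc₀q, one_pow, mul_one] at hi
      have h1 : ((cΓ z ⟨x, hx⟩ * (⟨x, hx⟩ : C)⁻¹ : C) : H) = ⁅(z : H), x⁆ := by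
        rw [Subgroup.coe_mul, Subgroup.coe_inv, hcΓ, commutatorElement_def]
      rw [h1] at hi
      exact hi

end Cfsg.Agent.H53.Gross
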