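import Mathlib
import Cfsg.Agent.H66.HHFDefs

/-!
# S3786-F5 (helper53 for helper66)

Commuting `b`, `z` of order dividing `p` acting on the abelian `p'`-group `X/Z`, `z`
fixed-point-free and `X ≠ Z`: some `b z^j` has a nontrivial fixed point on `X/Z`
(norm argument in the endomorphism ring of `X/Z`).
-/

set_option autoImplicit false

namespace Cfsg.Agent.H53.HHF

open Cfsg Cfsg.Agent.H66.HHF Finset

universe u

theorem sum_pow_mul_perm {R : Type*} [Ring R] (p : ℕ) [hp : Fact p.Prime] (ζ : R) (hζ : ζ ^ p = 1)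
    (i : ℕ) (hi0 : i ≠ 0) (hip : i < p) :
    ∑ j ∈ range p, ζ ^ (j * i) = ∑ j ∈ range p, ζ ^ j := by
  have h1 : ∀ j, ζ ^ (j * i) = ζ ^ ((j * i) % p) := fun j => pow_eq_pow_mod _ hζ
  have hinj : Set.InjOn (fun j => (j * i) % p) (range p : Finset ℕ) := by
    intro j hj j' hj' hjj
    simp only [coe_range, Set.mem_Iio] at hj hj'
    have h2 : (j * i) % p = (j' * i) % p := hjj
    have h3 : (j : ZMod p) * (i : ZMod p) = (j' : ZMod p) * (i : ZMod p) := by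
      have := (ZMod.natCast_eq_natCast_iff' (j * i) (j' * i) p).mpr h2
      push_cast at this
      exact this
    have hi : (i : ZMod p) ≠ 0 := by
      intro h
      rw [ZMod.natCast_eq_zero_iff] at h
      exact absurd (Nat.le_of_dvd (Nat.pos_of_ne_zero hi0) h) (not_le.mpr hip)
    have h4 : (j : ZMod p) = (j' : ZMod p) := mul_right_cancel₀ hi h3
    have h5 := (ZMod.natCast_eq_natCast_iff' j j' p).mp h4
    rw [Nat.mod_eq_of_lt hj, Nat.mod_eq_of_lt hj'] at h5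
    exact h5
  have himg : (range p).image (fun j => (j * i) % p) = range p := by
    apply Finset.eq_of_subset_of_card_le
    · intro x hx
      obtain ⟨j, _, rfl⟩ := Finset.mem_image.mp hx
      exact Finset.mem_range.mpr (Nat.mod_lt _ hp.out.pos)
    · rw [Finset.card_image_of_injOn hinj]
  calc ∑ j ∈ range p, ζ ^ (j * i) = ∑ j ∈ range p, ζ ^ ((j * i) % p) :=
        Finset.sum_congr rfl (fun j _ => h1 j)
    _ = ∑ x ∈ (range p).image (fun j => (j * i) % p), ζ ^ x :=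
        (Finset.sum_image (f := fun x => ζ ^ x) hinj).symm
    _ = ∑ j ∈ range p, ζ ^ j := by rw [himg]

theorem ring_id {R : Type*} [Ring R] (p : ℕ) [hp : Fact p.Prime] (β ζ : R) (hc : Commute β ζ)
    (hζ : ζ ^ p = 1) :
    ∑ j ∈ range p, ∑ i ∈ range p, (β * ζ ^ j) ^ i =
      (p : R) + (∑ i ∈ (range p).erase 0, β ^ i) * ∑ j ∈ range p, ζ ^ j := by
  have h1 : ∀ j i, (β * ζ ^ j) ^ i = β ^ i * ζ ^ (j * i) := by
    intro j i
    rw [(hc.pow_right j).mul_pow, ← pow_mul]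
  rw [Finset.sum_comm]
  have h0 : (0 : ℕ) ∈ range p := Finset.mem_range.mpr hp.out.pos
  rw [← Finset.add_sum_erase _ _ h0]
  congr 1
  · simp
  · rw [Finset.sum_mul]
    apply Finset.sum_congr rfl
    intro i hi
    have hi0 : i ≠ 0 := (Finset.mem_erase.mp hi).1
    have hip : i < p := Finset.mem_range.mp (Finset.mem_erase.mp hi).2
    rw [← sum_pow_mul_perm p ζ hζ i hi0 hip, Finset.mul_sum]
    exact Finset.sum_congr rfl (fun j _ => h1 j i)

theorem f5abs (A : Type*) [AddCommGroup A] [Finite A] (p : ℕ) [hp : Fact p.Prime]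
    (hcop : (Nat.card A).Coprime p) (β ζ : AddMonoid.End A) (hc : Commute β ζ)
    (hβ : β ^ p = 1) (hζ : ζ ^ p = 1)
    (hfpf : ∀ j : ℕ, ∀ a, (β * ζ ^ j) a = a → a = 0) (hζf : ∀ a, ζ a = a → a = 0) :
    ∀ a : A, a = 0 := by
  intro a
  have hN : ∀ α : AddMonoid.End A, α ^ p = 1 → (∀ a, α a = a → a = 0) →
      ∀ a, (∑ i ∈ range p, α ^ i) a = 0 := by
    intro α hα hf a
    apply hf
    have h1 : α * ∑ i ∈ range p, α ^ i = ∑ i ∈ range p, α ^ i := by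
      have h2 := mul_geom_sum α p
      rw [hα, sub_self, sub_mul, one_mul, sub_eq_zero] at h2
      exact h2
    calc α ((∑ i ∈ range p, α ^ i) a) = (α * ∑ i ∈ range p, α ^ i) a := rfl
      _ = (∑ i ∈ range p, α ^ i) a := by rw [h1]
  let ev : AddMonoid.End A →+ A :=
    { toFun := fun f => f a, map_zero' := rfl, map_add' := fun _ _ => rfl }
  have hev : ∀ f : AddMonoid.End A, ev f = f a := fun _ => rfl
  have hid := ring_id p β ζ hc hζ
  have h3 := congrArg ev hid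
  have hL : ev (∑ j ∈ range p, ∑ i ∈ range p, (β * ζ ^ j) ^ i) = 0 := by
    rw [map_sum]
    apply Finset.sum_eq_zero
    intro j _
    rw [hev]
    apply hN (β * ζ ^ j) _ (hfpf j)
    rw [(hc.pow_right j).mul_pow, hβ, ← pow_mul, mul_comm, pow_mul, hζ, one_pow, one_mul]
  have hR : ev ((p : AddMonoid.End A) + (∑ i ∈ (range p).erase 0, β ^ i) * ∑ j ∈ range p, ζ ^ j)
      = p • a := by
    have h4 : ev ((∑ i ∈ (range p).erase 0, β ^ i) * ∑ j ∈ range p, ζ ^ j) = 0 := by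
      show (∑ i ∈ (range p).erase 0, β ^ i) ((∑ j ∈ range p, ζ ^ j) a) = 0
      rw [hN ζ hζ hζf a, map_zero]
    rw [map_add, h4, add_zero, hev]
    simp
  rw [hL, hR] at h3
  have h5 : addOrderOf a ∣ p := addOrderOf_dvd_of_nsmul_eq_zero h3.symm
  have h6 : addOrderOf a ∣ Nat.card A := addOrderOf_dvd_natCard a
  have h7 : addOrderOf a = 1 := Nat.eq_one_of_dvd_coprimes hcop h6 h5
  exact AddMonoid.addOrderOf_eq_one_iff.mp h7

/-- conjugation by `g` restricted to an invariant subgroup -/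
def cj {H : Type u} [Group H] (X : Subgroup H) (g : H) (hg : ∀ x ∈ X, g * x * g⁻¹ ∈ X) :
    ↥X →* ↥X where
  toFun x := ⟨g * x * g⁻¹, hg x x.2⟩
  map_one' := by apply Subtype.ext; simp
  map_mul' := by intro a c; apply Subtype.ext; simp

theorem f5_holds : F5Statement.{u} := by
  intro H _ _ p _ X Z hZX hcop hcent hcomm b z hbz hb hz hbX hbZ hzX hzZ hne hzf
  by_contra hcon
  push Not at hcon
  let N : Subgroup ↥X := Z.subgroupOf X
  have hmemN : ∀ x : ↥X, x ∈ N ↔ (x : H) ∈ Z := fun x => Subgroup.mem_subgroupOf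
  haveI hNn : N.Normal := by
    refine ⟨fun n hn g => ?_⟩
    rw [hmemN] at hn ⊢
    have h1 : (g : H) * (n : H) = (n : H) * (g : H) := hcent g g.2 n hn
    have h2 : ((g * n * g⁻¹ : ↥X) : H) = (n : H) := by
      show (g : H) * (n : H) * (g : H)⁻¹ = n
      rw [h1]; group
    rw [h2]; exact hn
  have hmc : ∀ u v : ↥X ⧸ N, u * v = v * u := by
    intro u v
    induction u using QuotientGroup.induction_on with
    | _ x =>
    induction v using QuotientGroup.induction_on with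
    | _ y =>
    rw [← QuotientGroup.mk_mul, ← QuotientGroup.mk_mul, QuotientGroup.eq, hmemN]
    have h1 := hcomm (y : H)⁻¹ (X.inv_mem y.2) (x : H)⁻¹ (X.inv_mem x.2)
    have h2 : (((x * y)⁻¹ * (y * x) : ↥X) : H) = (y : H)⁻¹ * (x : H)⁻¹ * ((y : H)⁻¹)⁻¹ * ((x : H)⁻¹)⁻¹ := by
      show ((x : H) * (y : H))⁻¹ * ((y : H) * (x : H)) = _
      group
    rw [h2]; exact h1
  letI instC : CommGroup (↥X ⧸ N) := { (inferInstance : Group (↥X ⧸ N)) with mul_comm := hmc }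
  have hrep : ∀ a : Additive (↥X ⧸ N), ∃ x : ↥X, a = Additive.ofMul (QuotientGroup.mk x : ↥X ⧸ N) := by
    intro a
    obtain ⟨x, hx⟩ := QuotientGroup.mk_surjective (Additive.toMul a)
    exact ⟨x, by rw [hx]; rfl⟩
  have hzero : ∀ x : ↥X, (x : H) ∈ Z → Additive.ofMul (QuotientGroup.mk x : ↥X ⧸ N) = 0 := by
    intro x hx
    have h1 : (QuotientGroup.mk x : ↥X ⧸ N) = 1 := (QuotientGroup.eq_one_iff x).mpr ((hmemN x).mpr hx)
    rw [h1]; rfl
  have hleg : ∀ (g : H) (hgX : ∀ x ∈ X, g * x * g⁻¹ ∈ X), (∀ x ∈ Z, g * x * g⁻¹ ∈ Z) →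
      N ≤ N.comap (cj X g hgX) := by
    intro g hgX hgZ n hn
    rw [Subgroup.mem_comap, hmemN]
    exact hgZ n ((hmemN n).mp hn)
  -- the induced endomorphisms
  let ind : ∀ (g : H) (hgX : ∀ x ∈ X, g * x * g⁻¹ ∈ X), (∀ x ∈ Z, g * x * g⁻¹ ∈ Z) →
      AddMonoid.End (Additive (↥X ⧸ N)) := fun g hgX hgZ =>
    MonoidHom.toAdditive (QuotientGroup.map N N (cj X g hgX) (hleg g hgX hgZ))
  have hind : ∀ (g : H) (hgX : ∀ x ∈ X, g * x * g⁻¹ ∈ X) (hgZ : ∀ x ∈ Z, g * x * g⁻¹ ∈ Z)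
      (x : ↥X), ind g hgX hgZ (Additive.ofMul (QuotientGroup.mk x : ↥X ⧸ N)) =
        Additive.ofMul (QuotientGroup.mk (cj X g hgX x) : ↥X ⧸ N) := fun _ _ _ _ => rfl
  have hpow : ∀ (g : H) (hgX : ∀ x ∈ X, g * x * g⁻¹ ∈ X) (hgZ : ∀ x ∈ Z, g * x * g⁻¹ ∈ Z)
      (n : ℕ) (x : ↥X), ∃ hm : g ^ n * (x : H) * (g ^ n)⁻¹ ∈ X,
        (ind g hgX hgZ ^ n) (Additive.ofMul (QuotientGroup.mk x : ↥X ⧸ N)) =
          Additive.ofMul (QuotientGroup.mk (⟨g ^ n * (x : H) * (g ^ n)⁻¹, hm⟩ : ↥X) : ↥X ⧸ N) := by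
    intro g hgX hgZ n
    induction n with
    | zero =>
      intro x
      have hm : g ^ 0 * (x : H) * (g ^ 0)⁻¹ ∈ X := by simpa using x.2
      refine ⟨hm, ?_⟩
      rw [pow_zero]
      have h1 : (⟨g ^ 0 * (x : H) * (g ^ 0)⁻¹, hm⟩ : ↥X) = x := by apply Subtype.ext; simp
      rw [h1]; rfl
    | succ n ih =>
      intro x
      obtain ⟨hm, h⟩ := ih x
      have hm' : g ^ (n + 1) * (x : H) * (g ^ (n + 1))⁻¹ ∈ X := by
        have h1 := hgX _ hm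
        have h2 : g * (g ^ n * (x : H) * (g ^ n)⁻¹) * g⁻¹ = g ^ (n + 1) * (x : H) * (g ^ (n + 1))⁻¹ := by
          rw [pow_succ']; group
        rw [← h2]; exact h1
      refine ⟨hm', ?_⟩
      rw [pow_succ']
      show ind g hgX hgZ ((ind g hgX hgZ ^ n) (Additive.ofMul (QuotientGroup.mk x : ↥X ⧸ N))) = _
      rw [h, hind g hgX hgZ]
      congr 2
      apply Subtype.ext
      show g * (g ^ n * (x : H) * (g ^ n)⁻¹) * g⁻¹ = g ^ (n + 1) * (x : H) * (g ^ (n + 1))⁻¹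
      rw [pow_succ']; group
  let βA := ind b hbX hbZ
  let ζA := ind z hzX hzZ
  have hone : ∀ (g : H) (hgX : ∀ x ∈ X, g * x * g⁻¹ ∈ X) (hgZ : ∀ x ∈ Z, g * x * g⁻¹ ∈ Z),
      g ^ p = 1 → ind g hgX hgZ ^ p = 1 := by
    intro g hgX hgZ hg
    apply AddMonoidHom.ext
    intro a
    obtain ⟨x, rfl⟩ := hrep a
    obtain ⟨hm, h⟩ := hpow g hgX hgZ p x
    refine h.trans ?_
    have h1 : (⟨g ^ p * (x : H) * (g ^ p)⁻¹, hm⟩ : ↥X) = x := by apply Subtype.ext; simp [hg]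
    rw [h1]; rfl
  have hc : Commute βA ζA := by
    apply AddMonoidHom.ext
    intro a
    obtain ⟨x, rfl⟩ := hrep a
    show βA (ζA (Additive.ofMul (QuotientGroup.mk x : ↥X ⧸ N))) =
      ζA (βA (Additive.ofMul (QuotientGroup.mk x : ↥X ⧸ N)))
    rw [hind z hzX hzZ x, hind b hbX hbZ (cj X z hzX x), hind b hbX hbZ x,
      hind z hzX hzZ (cj X b hbX x)]
    congr 2
    apply Subtype.ext
    show b * (z * (x : H) * z⁻¹) * b⁻¹ = z * (b * (x : H) * b⁻¹) * z⁻¹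
    calc b * (z * (x : H) * z⁻¹) * b⁻¹ = (b * z) * (x : H) * (b * z)⁻¹ := by group
      _ = (z * b) * (x : H) * (z * b)⁻¹ := by rw [hbz]
      _ = z * (b * (x : H) * b⁻¹) * z⁻¹ := by group
  have hcopA : (Nat.card (Additive (↥X ⧸ N))).Coprime p := by
    have h1 : Nat.card (Additive (↥X ⧸ N)) ∣ Nat.card ↥X := Subgroup.card_quotient_dvd_card N
    exact Nat.Coprime.coprime_dvd_left h1 hcop
  have hfpf : ∀ j : ℕ, ∀ a, (βA * ζA ^ j) a = a → a = 0 := by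
    intro j a ha
    obtain ⟨x, rfl⟩ := hrep a
    obtain ⟨hm, h⟩ := hpow z hzX hzZ j x
    have h1 : (βA * ζA ^ j) (Additive.ofMul (QuotientGroup.mk x : ↥X ⧸ N)) =
        βA ((ζA ^ j) (Additive.ofMul (QuotientGroup.mk x : ↥X ⧸ N))) := rfl
    rw [h1, h, hind b hbX hbZ] at ha
    have h2 : (QuotientGroup.mk (cj X b hbX ⟨z ^ j * (x : H) * (z ^ j)⁻¹, hm⟩) : ↥X ⧸ N) =
        QuotientGroup.mk x := ha
    rw [QuotientGroup.eq_iff_div_mem, hmemN] at h2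
    have h3 : ((cj X b hbX ⟨z ^ j * (x : H) * (z ^ j)⁻¹, hm⟩ / x : ↥X) : H) =
        (b * z ^ j) * (x : H) * (b * z ^ j)⁻¹ * (x : H)⁻¹ := by
      show b * (z ^ j * (x : H) * (z ^ j)⁻¹) * b⁻¹ / (x : H) = _
      rw [div_eq_mul_inv]; group
    rw [h3] at h2
    apply hzero
    by_contra hxZ
    exact hcon j x x.2 hxZ h2
  have hζf : ∀ a, ζA a = a → a = 0 := by
    intro a ha
    obtain ⟨x, rfl⟩ := hrep a
    rw [hind z hzX hzZ] at ha
    have h2 : (QuotientGroup.mk (cj X z hzX x) : ↥X ⧸ N) = QuotientGroup.mk x := ha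
    rw [QuotientGroup.eq_iff_div_mem, hmemN] at h2
    have h3 : ((cj X z hzX x / x : ↥X) : H) = z * (x : H) * z⁻¹ * (x : H)⁻¹ := by
      show z * (x : H) * z⁻¹ / (x : H) = _
      rw [div_eq_mul_inv]
    rw [h3] at h2
    exact hzero x (hzf x x.2 h2)
  have hall := f5abs (Additive (↥X ⧸ N)) p hcopA βA ζA hc (hone b hbX hbZ hb) (hone z hzX hzZ hz)
    hfpf hζf
  obtain ⟨x, hx, hxZ⟩ := hne
  have h1 := hall (Additive.ofMul (QuotientGroup.mk (⟨x, hx⟩ : ↥X) : ↥X ⧸ N))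
  have h2 : (QuotientGroup.mk (⟨x, hx⟩ : ↥X) : ↥X ⧸ N) = 1 := h1
  rw [QuotientGroup.eq_one_iff, hmemN] at h2
  exact hxZ h2

example : ∀ (H : Type u) [Group H] [Finite H] (p : ℕ) [Fact p.Prime] (X Z : Subgroup H), Z ≤ X →
    (Nat.card X).Coprime p → (∀ x ∈ X, ∀ ζ ∈ Z, x * ζ = ζ * x) →
    (∀ x ∈ X, ∀ y ∈ X, x * y * x⁻¹ * y⁻¹ ∈ Z) →
    ∀ b z : H, b * z = z * b → b ^ p = 1 → z ^ p = 1 →
    (∀ x ∈ X, b * x * b⁻¹ ∈ X) → (∀ x ∈ Z, b * x * b⁻¹ ∈ Z) →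
    (∀ x ∈ X, z * x * z⁻¹ ∈ X) → (∀ x ∈ Z, z * x * z⁻¹ ∈ Z) →
    (∃ x ∈ X, x ∉ Z) → (∀ x ∈ X, z * x * z⁻¹ * x⁻¹ ∈ Z → x ∈ Z) →
    ∃ j : ℕ, ∃ x ∈ X, x ∉ Z ∧ (b * z ^ j) * x * (b * z ^ j)⁻¹ * x⁻¹ ∈ Z := f5_holds

end Cfsg.Agent.H53.HHF
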