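import Mathlib
import Cfsg.Agent.H66.HHFDefs

/-!
# S3786-P1 (helper53 for helper66)

If every `y` with `y^(p^(m+1)) = 1` has `(y - 1)^(p^(m+1) - 1) = 0` on a faithful
`𝔽_p`-module, then `y^(p^m)` centralizes every `y`-invariant abelian `p'`-subgroup
(from Theorem B in the form `ZBStatement`, applied to a primary component).
-/

set_option autoImplicit false

namespace Cfsg.Agent.H53.HHF

open Cfsg Cfsg.Agent.H66.HHF

universe u

/-- an element not commuting with `b` fails to commute with a power of `b` of prime power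
order -/
theorem exists_primary_noncomm {G : Type*} [Group G] [Finite G] (y0 : G) :
    ∀ b : G, y0 * b ≠ b * y0 →
      ∃ q : ℕ, q.Prime ∧ ∃ k j : ℕ, (b ^ j) ^ (q ^ k) = 1 ∧ y0 * b ^ j ≠ b ^ j * y0 := by
  intro b
  induction' hn : orderOf b using Nat.strong_induction_on with n ih generalizing b
  intro hb
  have hnpos : 0 < n := hn ▸ orderOf_pos b
  have hn1 : n ≠ 1 := by
    intro h
    rw [h] at hn
    have := orderOf_eq_one_iff.mp hn
    rw [this] at hb
    exact hb (by simp)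
  have hq : (n.minFac).Prime := Nat.minFac_prime hn1
  obtain ⟨k, n', hqn', hnn'⟩ := Nat.exists_eq_pow_mul_and_not_dvd hnpos.ne' n.minFac hq.ne_one
  have hcop : Nat.Coprime (n.minFac ^ k) n' :=
    Nat.Coprime.pow_left k ((Nat.Prime.coprime_iff_not_dvd hq).mpr hqn')
  have hn'pos : 0 < n' := by
    rcases Nat.eq_zero_or_pos n' with h | h
    · rw [h, mul_zero] at hnn'; omega
    · exact h
  have hk : k ≠ 0 := by
    intro h
    rw [h, pow_zero, one_mul] at hnn'
    exact hqn' (hnn' ▸ Nat.minFac_dvd n)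
  have hqk : 2 ≤ n.minFac ^ k := by
    calc 2 ≤ n.minFac := hq.two_le
      _ = n.minFac ^ 1 := (pow_one _).symm
      _ ≤ n.minFac ^ k := Nat.pow_le_pow_right hq.pos (Nat.one_le_iff_ne_zero.mpr hk)
  have hb1 : (b ^ n') ^ (n.minFac ^ k) = 1 := by
    rw [← pow_mul, mul_comm, ← hnn', ← hn, pow_orderOf_eq_one]
  by_cases h1 : y0 * b ^ n' = b ^ n' * y0
  · by_cases h2 : y0 * b ^ (n.minFac ^ k) = b ^ (n.minFac ^ k) * y0
    · exfalso
      apply hb
      have hg := Nat.gcd_eq_gcd_ab n' (n.minFac ^ k)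
      rw [hcop.symm.gcd_eq_one] at hg
      have hbz : b = (b ^ n') ^ (Nat.gcdA n' (n.minFac ^ k)) *
          (b ^ (n.minFac ^ k)) ^ (Nat.gcdB n' (n.minFac ^ k)) := by
        calc b = b ^ (1 : ℤ) := (zpow_one b).symm
          _ = b ^ ((n' : ℤ) * Nat.gcdA n' (n.minFac ^ k) +
                ((n.minFac ^ k : ℕ) : ℤ) * Nat.gcdB n' (n.minFac ^ k)) := by
              rw [← hg]; norm_num
          _ = (b ^ n') ^ (Nat.gcdA n' (n.minFac ^ k)) *
                (b ^ (n.minFac ^ k)) ^ (Nat.gcdB n' (n.minFac ^ k)) := by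
              rw [zpow_add, zpow_mul, zpow_mul, zpow_natCast, zpow_natCast]
      have c1 : Commute y0 (b ^ n') := h1
      have c2 : Commute y0 (b ^ (n.minFac ^ k)) := h2
      have c3 := (c1.zpow_right (Nat.gcdA n' (n.minFac ^ k))).mul_right
        (c2.zpow_right (Nat.gcdB n' (n.minFac ^ k)))
      rw [← hbz] at c3
      exact c3.eq
    · have hdvd : orderOf (b ^ (n.minFac ^ k)) ∣ n' := by
        apply orderOf_dvd_of_pow_eq_one
        rw [← pow_mul, ← hnn', ← hn, pow_orderOf_eq_one]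
      have hord : orderOf (b ^ (n.minFac ^ k)) < n := by
        have h3 := Nat.le_of_dvd hn'pos hdvd
        have h4 : n' < n := by
          rw [hnn']
          nlinarith
        omega
      obtain ⟨q', hq', k', j', h3, h4⟩ := ih _ hord (b ^ (n.minFac ^ k)) rfl h2
      refine ⟨q', hq', k', n.minFac ^ k * j', ?_, ?_⟩
      · rw [pow_mul]; exact h3
      · rw [pow_mul]; exact h4
  · exact ⟨n.minFac, hq, k, n', hb1, h1⟩

theorem p1_holds (hZB : ZBStatement.{u}) : P1Statement.{u} := by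
  intro H _ _ p hp V _ _ _ θ hinj m hθ y hy B hBab hcop hyB b hb
  by_contra hne
  obtain ⟨q, hq, k, j, hjk, hnc⟩ := exists_primary_noncomm (y ^ p ^ m) b hne
  have haB : b ^ j ∈ B := B.pow_mem hb j
  haveI : Fact q.Prime := ⟨hq⟩
  -- `q ≠ p`
  have hqp : p ≠ q := by
    intro hpq
    have ha1 : b ^ j ≠ 1 := by
      intro h
      rw [h] at hnc
      exact hnc (by simp)
    have h1 : orderOf (b ^ j) ∣ q ^ k := orderOf_dvd_of_pow_eq_one hjk
    obtain ⟨i, -, hi⟩ := (Nat.dvd_prime_pow hq).mp h1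
    have hi0 : i ≠ 0 := by
      intro h
      rw [h, pow_zero] at hi
      exact ha1 (orderOf_eq_one_iff.mp hi)
    have h2 : q ∣ orderOf (b ^ j) := by
      rw [hi]
      exact dvd_pow_self q hi0
    have h3 : orderOf (b ^ j) ∣ Nat.card B := Subgroup.orderOf_dvd_natCard B haB
    have h4 : p ∣ Nat.card B := hpq ▸ (h2.trans h3)
    have h5 := Nat.Coprime.eq_one_of_dvd hcop.symm h4
    exact hp.out.one_lt.ne' h5
  -- the primary component
  let Q : Subgroup H :=
    { carrier := {c | c ∈ B ∧ ∃ k : ℕ, c ^ q ^ k = 1}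
      one_mem' := ⟨B.one_mem, 0, by simp⟩
      mul_mem' := by
        rintro c c' ⟨hc, k1, hk1⟩ ⟨hc', k2, hk2⟩
        refine ⟨B.mul_mem hc hc', k1 + k2, ?_⟩
        have hcc : Commute c c' := hBab c hc c' hc'
        rw [hcc.mul_pow, pow_add, pow_mul, hk1, one_pow, mul_comm (q ^ k1), pow_mul, hk2, one_pow,
          mul_one]
      inv_mem' := by
        rintro c ⟨hc, k1, hk1⟩
        exact ⟨B.inv_mem hc, k1, by rw [inv_pow, hk1, inv_one]⟩ }
  have hmemQ : ∀ c : H, c ∈ Q ↔ c ∈ B ∧ ∃ k : ℕ, c ^ q ^ k = 1 := fun c => Iff.rfl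
  have hQ : IsPGroup q Q := by
    rintro ⟨c, hc, k1, hk1⟩
    exact ⟨k1, Subtype.ext (by simpa using hk1)⟩
  -- invariance under `y⁻¹`
  have hpowB : ∀ n : ℕ, ∀ c ∈ B, y ^ n * c * (y ^ n)⁻¹ ∈ B := by
    intro n
    induction n with
    | zero => intro c hc; simpa using hc
    | succ n ih =>
      intro c hc
      have h1 := hyB _ (ih c hc)
      have h2 : y * (y ^ n * c * (y ^ n)⁻¹) * y⁻¹ = y ^ (n + 1) * c * (y ^ (n + 1))⁻¹ := by
        rw [pow_succ']; group
      rw [← h2]; exact h1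
  have hinvB : ∀ c ∈ B, y⁻¹ * c * y ∈ B := by
    intro c hc
    have h1 : y⁻¹ = y ^ (orderOf y - 1) := by
      apply inv_eq_of_mul_eq_one_right
      rw [← pow_succ', Nat.sub_add_cancel (orderOf_pos y), pow_orderOf_eq_one]
    have h2 := hpowB (orderOf y - 1) c hc
    rw [← h1, inv_inv] at h2
    exact h2
  have hyN : y ∈ Subgroup.normalizer (Q : Set H) := by
    rw [Subgroup.mem_normalizer_iff]
    intro h
    constructor
    · rintro ⟨hhB, k1, hk1⟩
      refine ⟨hyB h hhB, k1, ?_⟩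
      rw [conj_pow, hk1, mul_one, mul_inv_cancel]
    · rintro ⟨hhB, k1, hk1⟩
      refine ⟨?_, k1, ?_⟩
      · have h1 := hinvB _ hhB
        have h2 : y⁻¹ * (y * h * y⁻¹) * y = h := by group
        rw [h2] at h1
        exact h1
      · rw [conj_pow] at hk1
        have h3 : h ^ q ^ k1 = y⁻¹ * (y * h ^ q ^ k1 * y⁻¹) * y := by group
        rw [h3, hk1]; group
  have haQ : b ^ j ∈ Q := ⟨haB, k, hjk⟩
  obtain ⟨N, hN, hcase⟩ := hZB H p q hqp V θ hinj Q hQ y m hy hyN ⟨b ^ j, haQ, hnc⟩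
  rcases hcase with hN1 | ⟨n₀, k', -, -, -, -, hnab, -⟩
  · rw [hN1] at hN
    exact hN (hθ y hy)
  · exact hnab (fun a ha c hc => hBab a ha.1 c hc.1)

example (hZB : ZBStatement.{u}) : ∀ (H : Type u) [Group H] [Finite H] (p : ℕ) [Fact p.Prime]
    (V : Type u) [AddCommGroup V] [Module (ZMod p) V] [Finite V]
    (θ : H →* Module.End (ZMod p) V), Function.Injective θ → ∀ m : ℕ,
    (∀ y : H, y ^ p ^ (m + 1) = 1 → (θ y - 1) ^ (p ^ (m + 1) - 1) = 0) → AbCent p m H :=
  p1_holds hZB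

end Cfsg.Agent.H53.HHF
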