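import Mathlib
import Cfsg.Agent.H64.Hall4Defs

/-!
# helper53: S4221 piece H4-B1 (`O4 G → Trick G ∧ TwoPart G ∧ FixLe G`), for helper64
-/

set_option autoImplicit false

namespace Cfsg.Agent.H53.Hall4

open Equiv Cfsg.Agent.H64.Hall4

universe u

theorem trick_of_o4 {α : Type u} [Fintype α] [DecidableEq α] (G : Subgroup (Perm α))
    (h4 : O4 G) : Trick G := by
  intro t ht t' ht' ht2 ht'2 a b c d hnd ha hb hc hd
  obtain ⟨r, hr⟩ : ∃ r : Perm α, r = t * t' := ⟨_, rfl⟩
  have hrG : r ∈ G := by rw [hr]; exact mul_mem ht ht'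
  have hodd : Odd (orderOf r) := h4 r hrG a b c d hnd (by rw [hr]; exact ha)
    (by rw [hr]; exact hb) (by rw [hr]; exact hc) (by rw [hr]; exact hd)
  obtain ⟨j, hj⟩ := hodd
  have h1 : r⁻¹ * t = t * r := by
    rw [hr]
    have e1 : (t * t')⁻¹ = t' * t := by
      rw [inv_eq_iff_mul_eq_one]
      calc t * t' * (t' * t) = t * (t' * t') * t := by group
        _ = 1 := by rw [ht'2, mul_one, ht2]
    rw [e1]
    calc t' * t * t = t' * (t * t) := by group
      _ = (t * t) * t' := by rw [ht2, mul_one, one_mul]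
      _ = t * (t * t') := by group
  have h2 : ∀ m : ℕ, (r⁻¹) ^ m * t = t * r ^ m := by
    intro m
    induction m with
    | zero => simp
    | succ m ih =>
      calc (r⁻¹) ^ (m + 1) * t = (r⁻¹) ^ m * (r⁻¹ * t) := by rw [pow_succ]; group
        _ = (r⁻¹) ^ m * t * r := by rw [h1]; group
        _ = t * r ^ (m + 1) := by rw [ih, pow_succ]; group
  refine ⟨(r⁻¹) ^ (j + 1), ?_, ?_, ?_⟩
  · rw [← hr]
    exact pow_mem (inv_mem (Subgroup.mem_zpowers r)) _
  · have e2 : ((r⁻¹) ^ (j + 1))⁻¹ = r ^ (j + 1) := by rw [inv_pow, inv_inv]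
    rw [h2, e2, mul_assoc, ← pow_add]
    have e3 : j + 1 + (j + 1) = orderOf r + 1 := by omega
    rw [e3, pow_succ, pow_orderOf_eq_one, one_mul, hr]
    calc t * (t * t') = (t * t) * t' := by group
      _ = t' := by rw [ht2, one_mul]
  · intro x hx
    have hrx : r x = x := by rw [hr]; exact hx
    have hrix : r⁻¹ x = x := by rw [Perm.inv_eq_iff_eq]; exact hrx.symm
    exact Perm.pow_apply_eq_self_of_apply_eq_self hrix _

theorem twoPart_of_o4 {α : Type u} [Fintype α] [DecidableEq α] (G : Subgroup (Perm α))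
    (h4 : O4 G) : TwoPart G := by
  intro g hg a b c d hnd ha hb hc hd
  have hodd : Odd (orderOf (g * g)) := h4 (g * g) (mul_mem hg hg) a b c d hnd ha hb hc hd
  obtain ⟨j, hj⟩ := hodd
  refine ⟨g ^ orderOf (g * g), pow_mem (Subgroup.mem_zpowers g) _, ?_, ?_⟩
  · rw [← pow_add, ← two_mul, pow_mul, pow_two, pow_orderOf_eq_one]
  · intro x hx
    have hggx : (g * g) x = x := hx
    have e1 : g ^ orderOf (g * g) = g * (g * g) ^ j := by
      rw [hj, pow_succ, pow_mul, pow_two]
      exact (((Commute.refl g).mul_left (Commute.refl g)).pow_left j).eq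
    rw [e1, Perm.mul_apply, Perm.pow_apply_eq_self_of_apply_eq_self hggx]

theorem fixLe_of_o4 {α : Type u} [Fintype α] [DecidableEq α] (G : Subgroup (Perm α))
    (h4 : O4 G) : FixLe G := by
  intro t ht
  obtain ⟨htG, ht2, htne⟩ := ht
  by_contra hcon
  have hge : 4 ≤ (Finset.univ.filter (fun a => t a = a)).card := by
    unfold fixN at hcon; omega
  obtain ⟨s', hs's, hcard⟩ := Finset.exists_subset_card_eq hge
  have hnd := s'.nodup_toList
  have hlen := s'.length_toList
  have hmem : ∀ x ∈ s'.toList, t x = x := by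
    intro x hx
    have := hs's (Finset.mem_toList.mp hx)
    exact (Finset.mem_filter.mp this).2
  generalize s'.toList = L at hnd hlen hmem
  rw [hcard] at hlen
  rcases L with _ | ⟨a, _ | ⟨b, _ | ⟨c, _ | ⟨d, _ | ⟨e, L⟩⟩⟩⟩⟩
  · simp at hlen
  · simp at hlen
  · simp at hlen
  · simp at hlen
  · have hodd := h4 t htG a b c d hnd (hmem a (by simp)) (hmem b (by simp)) (hmem c (by simp))
      (hmem d (by simp))
    have hdvd : orderOf t ∣ 2 := orderOf_dvd_of_pow_eq_one (by rw [pow_two]; exact ht2)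
    rcases (Nat.dvd_prime Nat.prime_two).mp hdvd with h | h
    · exact htne (orderOf_eq_one_iff.mp h)
    · rw [h] at hodd; exact absurd hodd (by decide)
  · simp at hlen

theorem basicA : BasicAStmt.{u} := by
  intro α _ _ G h4
  exact ⟨trick_of_o4 G h4, twoPart_of_o4 G h4, fixLe_of_o4 G h4⟩

example : Cfsg.Agent.H64.Hall4.BasicAStmt.{u} := basicA

end Cfsg.Agent.H53.Hall4
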