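import Mathlib
import Cfsg.Agent.H64.Hall4Defs

/-!
# helper53: S4221 piece H4-B2 (`Trick G → CentLift G`), for helper64
-/

set_option autoImplicit false

namespace Cfsg.Agent.H53.Hall4

open Equiv Cfsg.Agent.H64.Hall4

universe u

theorem basicB : BasicBStmt.{u} := by
  intro α _ _ G hT y hy g hg hy2 a b c d hnd ha hb hc hd
  obtain ⟨y₁, hy₁⟩ : ∃ y₁ : Perm α, y₁ = g * y * g⁻¹ := ⟨_, rfl⟩
  have hy₁G : y₁ ∈ G := by rw [hy₁]; exact mul_mem (mul_mem hg hy) (inv_mem hg)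
  have hy₁2 : y₁ * y₁ = 1 := by
    rw [hy₁]
    calc g * y * g⁻¹ * (g * y * g⁻¹) = g * (y * y) * g⁻¹ := by group
      _ = 1 := by rw [hy2]; group
  have hnd' : [g a, g b, g c, g d].Nodup := List.Nodup.map g.injective hnd
  have key : ∀ x : α, y (g x) = g (y x) → y (y₁ (g x)) = g x := by
    intro x hx
    have e1 : y₁ (g x) = g (y x) := by
      rw [hy₁]; simp
    rw [e1, ← hx]
    have : (y * y) (g x) = g x := by rw [hy2]; rfl
    exact this
  obtain ⟨e, he, hey, hefix⟩ := hT y hy y₁ hy₁G hy2 hy₁2 (g a) (g b) (g c) (g d) hnd'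
    (key a ha) (key b hb) (key c hc) (key d hd)
  have hinvfix : ∀ x : α, y (g x) = g (y x) → e⁻¹ (g x) = g x := by
    intro x hx
    rw [Perm.inv_eq_iff_eq]
    exact (hefix (g x) (key x hx)).symm
  refine ⟨e⁻¹ * g, ?_, ?_, ?_, ?_, ?_, ?_, ?_⟩
  · refine mul_mem (inv_mem ?_) hg
    exact (Subgroup.zpowers_le.mpr (mul_mem hy hy₁G)) he
  · -- e⁻¹ g y = y e⁻¹ g
    have h1 : g * y = y₁ * g := by rw [hy₁]; group
    have h2 : e⁻¹ * y₁ = y * e⁻¹ := by rw [← hey]; group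
    calc e⁻¹ * g * y = e⁻¹ * (g * y) := by group
      _ = e⁻¹ * y₁ * g := by rw [h1]; group
      _ = y * (e⁻¹ * g) := by rw [h2]; group
  · exact hinvfix a ha
  · exact hinvfix b hb
  · exact hinvfix c hc
  · exact hinvfix d hd
  · intro L hyL hgL
    have hy₁L : y₁ ∈ L := by rw [hy₁]; exact mul_mem (mul_mem hgL hyL) (inv_mem hgL)
    exact mul_mem (inv_mem ((Subgroup.zpowers_le.mpr (mul_mem hyL hy₁L)) he)) hgL

example : Cfsg.Agent.H64.Hall4.BasicBStmt.{u} := basicB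

end Cfsg.Agent.H53.Hall4
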