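import Mathlib
import Cfsg.Agent.H64.Hall4Defs

/-!
# helper53: S4221 piece H4-BWA (`|H| = |C_H(a)| * |{h ∈ H : a h a⁻¹ = h⁻¹}|`), for helper64
-/

set_option autoImplicit false

namespace Cfsg.Agent.H53.Hall4

open Equiv Cfsg.Agent.H64.Hall4

universe v

theorem bwA : BWAStmt.{v} := by
  intro Γ _ H _ a hodd ha2 hHa
  obtain ⟨j, hj⟩ := hodd
  have hainv : a⁻¹ = a := inv_eq_of_mul_eq_one_left ha2
  have hpow : ∀ u ∈ H, u ^ (2 * j + 1) = 1 := by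
    intro u hu
    have h1 : (⟨u, hu⟩ : H) ^ Nat.card H = 1 := pow_card_eq_one'
    have h2 := congrArg Subtype.val h1
    rw [hj] at h2
    simpa using h2
  have hsq : ∀ u ∈ H, (u ^ (j + 1)) ^ 2 = u := by
    intro u hu
    rw [← pow_mul]
    have e : (j + 1) * 2 = 2 * j + 1 + 1 := by ring
    rw [e, pow_succ, hpow u hu, one_mul]
  have hsq' : ∀ u ∈ H, (u ^ 2) ^ (j + 1) = u := by
    intro u hu
    rw [← pow_mul]
    have e : 2 * (j + 1) = 2 * j + 1 + 1 := by ring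
    rw [e, pow_succ, hpow u hu, one_mul]
  let I : Set Γ := {h : Γ | h ∈ H ∧ a * h * a⁻¹ = h⁻¹}
  let f : ↥(H ⊓ Subgroup.centralizer {a}) × ↥I → ↥H :=
    fun p => ⟨p.1.1 * p.2.1, mul_mem (Subgroup.mem_inf.mp p.1.2).1 p.2.2.1⟩
  have hconjC : ∀ c ∈ H ⊓ Subgroup.centralizer {a}, a * c * a⁻¹ = c := by
    intro c hc
    have h1 : c * a = a * c := Subgroup.mem_centralizer_singleton_iff.mp (Subgroup.mem_inf.mp hc).2
    calc a * c * a⁻¹ = (c * a) * a⁻¹ := by rw [h1]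
      _ = c := by group
  have hinj : Function.Injective f := by
    rintro ⟨c, i⟩ ⟨c₁, i₁⟩ hEq
    have hE : (c : Γ) * i = c₁ * i₁ := congrArg Subtype.val hEq
    have hc := hconjC c c.2
    have hc₁ := hconjC c₁ c₁.2
    have hi : a * (i : Γ) * a⁻¹ = (i : Γ)⁻¹ := i.2.2
    have hi₁ : a * (i₁ : Γ) * a⁻¹ = (i₁ : Γ)⁻¹ := i₁.2.2
    have hE' : (c : Γ) * (i : Γ)⁻¹ = c₁ * (i₁ : Γ)⁻¹ := by
      calc (c : Γ) * (i : Γ)⁻¹ = (a * c * a⁻¹) * (a * i * a⁻¹) := by rw [hc, hi]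
        _ = a * (c * i) * a⁻¹ := by group
        _ = a * (c₁ * i₁) * a⁻¹ := by rw [hE]
        _ = (a * c₁ * a⁻¹) * (a * i₁ * a⁻¹) := by group
        _ = c₁ * (i₁ : Γ)⁻¹ := by rw [hc₁, hi₁]
    have hii : (i : Γ) ^ 2 = (i₁ : Γ) ^ 2 := by
      calc (i : Γ) ^ 2 = (i : Γ) * i := pow_two _
        _ = ((c : Γ) * (i : Γ)⁻¹)⁻¹ * (c * i) := by group
        _ = ((c₁ : Γ) * (i₁ : Γ)⁻¹)⁻¹ * (c₁ * i₁) := by rw [hE', hE]
        _ = (i₁ : Γ) * i₁ := by group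
        _ = (i₁ : Γ) ^ 2 := (pow_two _).symm
    have hi_eq : (i : Γ) = i₁ := by
      rw [← hsq' (i : Γ) i.2.1, ← hsq' (i₁ : Γ) i₁.2.1, hii]
    have hc_eq : (c : Γ) = c₁ := by
      rw [hi_eq] at hE
      exact mul_right_cancel hE
    exact Prod.ext (Subtype.ext hc_eq) (Subtype.ext hi_eq)
  have hsurj : Function.Surjective f := by
    rintro ⟨h, hh⟩
    obtain ⟨w, hw⟩ : ∃ w : Γ, w = a * h⁻¹ * a⁻¹ * h := ⟨_, rfl⟩
    have hwH : w ∈ H := by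
      rw [hw]
      exact mul_mem (hHa _ (inv_mem hh)) hh
    have hwinv : w⁻¹ = h⁻¹ * a * h * a⁻¹ := by rw [hw]; group
    have hwconj : a * w * a⁻¹ = w⁻¹ := by
      rw [hwinv, hw]
      calc a * (a * h⁻¹ * a⁻¹ * h) * a⁻¹ = (a * a) * h⁻¹ * a⁻¹ * h * a⁻¹ := by group
        _ = h⁻¹ * a⁻¹ * h * a⁻¹ := by rw [ha2, one_mul]
        _ = h⁻¹ * a * h * a⁻¹ := by rw [hainv]
    obtain ⟨i, hi⟩ : ∃ i : Γ, i = w ^ (j + 1) := ⟨_, rfl⟩
    have hiH : i ∈ H := by rw [hi]; exact pow_mem hwH _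
    have hiconj : a * i * a⁻¹ = i⁻¹ := by
      rw [hi, ← conj_pow, hwconj, inv_pow]
    have hi2 : i ^ 2 = w := by rw [hi]; exact hsq w hwH
    have hcH : h * i⁻¹ ∈ H := mul_mem hh (inv_mem hiH)
    have hcconj : a * (h * i⁻¹) * a⁻¹ = h * i⁻¹ := by
      have e1 : a * h * a⁻¹ = h * w⁻¹ := by rw [hwinv]; group
      calc a * (h * i⁻¹) * a⁻¹ = (a * h * a⁻¹) * (a * i * a⁻¹)⁻¹ := by group
        _ = h * w⁻¹ * i := by rw [e1, hiconj, inv_inv]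
        _ = h * (i ^ 2)⁻¹ * i := by rw [hi2]
        _ = h * i⁻¹ := by group
    have hcC : h * i⁻¹ ∈ H ⊓ Subgroup.centralizer {a} := by
      refine Subgroup.mem_inf.mpr ⟨hcH, ?_⟩
      rw [Subgroup.mem_centralizer_singleton_iff]
      calc h * i⁻¹ * a = (a * (h * i⁻¹) * a⁻¹) * a := by rw [hcconj]
        _ = a * (h * i⁻¹) := by group
    refine ⟨(⟨h * i⁻¹, hcC⟩, ⟨i, hiH, hiconj⟩), ?_⟩
    apply Subtype.ext
    show h * i⁻¹ * i = h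
    group
  have hcard := Nat.card_congr (Equiv.ofBijective f ⟨hinj, hsurj⟩)
  rw [Nat.card_prod, Nat.card_coe_set_eq] at hcard
  exact hcard.symm

example : Cfsg.Agent.H64.Hall4.BWAStmt.{v} := bwA

end Cfsg.Agent.H53.Hall4
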