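import Mathlib
import Cfsg.Agent.H64.Hall4Defs

/-!
# helper53: S4221 piece H4-BWC (Brauer–Wielandt formula from BWA and BWB), for helper64
-/

set_option autoImplicit false

namespace Cfsg.Agent.H53.Hall4

open Equiv Cfsg.Agent.H64.Hall4

universe v

theorem bwC : BWCStmt.{v} := by
  intro hA hB Γ _ H _ a b hodd ha2 hb2 hab hHa hHb
  have hainv : a⁻¹ = a := inv_eq_of_mul_eq_one_left ha2
  have e1 := hA H a hodd ha2 hHa
  have e2 := hB H a b hodd ha2 hb2 hab hHa hHb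
  -- `K = H ⊓ C(b)`
  have hKfin : Finite ↥(H ⊓ Subgroup.centralizer {b}) :=
    Finite.of_injective (Subgroup.inclusion (inf_le_left : H ⊓ Subgroup.centralizer {b} ≤ H))
      (Subgroup.inclusion_injective _)
  have hKodd : Odd (Nat.card ↥(H ⊓ Subgroup.centralizer {b})) :=
    Odd.of_dvd_nat hodd (Subgroup.card_dvd_of_le inf_le_left)
  have hKa : ∀ h ∈ H ⊓ Subgroup.centralizer {b}, a * h * a⁻¹ ∈ H ⊓ Subgroup.centralizer {b} := by
    intro h hh'
    obtain ⟨hh, hhb⟩ := Subgroup.mem_inf.mp hh'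
    refine Subgroup.mem_inf.mpr ⟨hHa h hh, ?_⟩
    rw [Subgroup.mem_centralizer_singleton_iff] at hhb ⊢
    have hc : Commute a b := hab
    have hcb : Commute h b := hhb
    exact ((hc.mul_left hcb).mul_left hc.inv_left).eq
  have e3 := hA (H ⊓ Subgroup.centralizer {b}) a hKodd ha2 hKa
  have s3 : {h : Γ | h ∈ H ⊓ Subgroup.centralizer {b} ∧ a * h * a⁻¹ = h⁻¹} =
      {h : Γ | h ∈ H ∧ a * h * a⁻¹ = h⁻¹ ∧ b * h * b⁻¹ = h} := by
    ext h
    simp only [Set.mem_ofPred_eq, Subgroup.mem_inf, Subgroup.mem_centralizer_singleton_iff]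
    constructor
    · rintro ⟨⟨hh, hhb⟩, hinv⟩
      refine ⟨hh, hinv, ?_⟩
      calc b * h * b⁻¹ = (h * b) * b⁻¹ := by rw [hhb]
        _ = h := by group
    · rintro ⟨hh, hinv, hb'⟩
      refine ⟨⟨hh, ?_⟩, hinv⟩
      calc h * b = (b * h * b⁻¹) * b := by rw [hb']
        _ = b * h := by group
  have g3 : H ⊓ Subgroup.centralizer {b} ⊓ Subgroup.centralizer {a} =
      H ⊓ Subgroup.centralizer {a} ⊓ Subgroup.centralizer {b} := inf_right_comm _ _ _
  rw [s3, g3] at e3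
  -- `K' = H ⊓ C(ab)`
  have hK'fin : Finite ↥(H ⊓ Subgroup.centralizer {a * b}) :=
    Finite.of_injective
      (Subgroup.inclusion (inf_le_left : H ⊓ Subgroup.centralizer {a * b} ≤ H))
      (Subgroup.inclusion_injective _)
  have hK'odd : Odd (Nat.card ↥(H ⊓ Subgroup.centralizer {a * b})) :=
    Odd.of_dvd_nat hodd (Subgroup.card_dvd_of_le inf_le_left)
  have hK'a : ∀ h ∈ H ⊓ Subgroup.centralizer {a * b},
      a * h * a⁻¹ ∈ H ⊓ Subgroup.centralizer {a * b} := by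
    intro h hh'
    obtain ⟨hh, hhb⟩ := Subgroup.mem_inf.mp hh'
    refine Subgroup.mem_inf.mpr ⟨hHa h hh, ?_⟩
    rw [Subgroup.mem_centralizer_singleton_iff] at hhb ⊢
    have hc : Commute a b := hab
    have hca : Commute a (a * b) := (Commute.refl a).mul_right hc
    have hcb : Commute h (a * b) := hhb
    exact ((hca.mul_left hcb).mul_left hca.inv_left).eq
  have e4 := hA (H ⊓ Subgroup.centralizer {a * b}) a hK'odd ha2 hK'a
  have s4 : {h : Γ | h ∈ H ⊓ Subgroup.centralizer {a * b} ∧ a * h * a⁻¹ = h⁻¹} =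
      {h : Γ | h ∈ H ∧ a * h * a⁻¹ = h⁻¹ ∧ b * h * b⁻¹ = h⁻¹} := by
    ext h
    simp only [Set.mem_ofPred_eq, Subgroup.mem_inf, Subgroup.mem_centralizer_singleton_iff]
    constructor
    · rintro ⟨⟨hh, hc⟩, hinv⟩
      refine ⟨hh, hinv, ?_⟩
      calc b * h * b⁻¹ = a⁻¹ * (a * b * h) * b⁻¹ := by group
        _ = a⁻¹ * (h * (a * b)) * b⁻¹ := by rw [hc]
        _ = a⁻¹ * h * a := by group
        _ = a * h * a⁻¹ := by rw [hainv]
        _ = h⁻¹ := hinv
    · rintro ⟨hh, hinv, hb'⟩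
      refine ⟨⟨hh, ?_⟩, hinv⟩
      symm
      calc a * b * h = a * (b * h * b⁻¹) * b := by group
        _ = a * h⁻¹ * b := by rw [hb']
        _ = (a * h * a⁻¹)⁻¹ * (a * b) := by group
        _ = h * (a * b) := by rw [hinv, inv_inv]
  have g4 : H ⊓ Subgroup.centralizer {a * b} ⊓ Subgroup.centralizer {a} =
      H ⊓ Subgroup.centralizer {a} ⊓ Subgroup.centralizer {b} := by
    ext h
    simp only [Subgroup.mem_inf, Subgroup.mem_centralizer_singleton_iff]
    constructor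
    · rintro ⟨⟨hh, hc⟩, hca⟩
      refine ⟨⟨hh, hca⟩, ?_⟩
      calc h * b = a⁻¹ * (h * a) * b := by rw [hca]; group
        _ = a⁻¹ * (h * (a * b)) := by group
        _ = a⁻¹ * (a * b * h) := by rw [hc]
        _ = b * h := by group
    · rintro ⟨⟨hh, hca⟩, hcb⟩
      refine ⟨⟨hh, ?_⟩, hca⟩
      calc h * (a * b) = (h * a) * b := by group
        _ = a * (h * b) := by rw [hca]; group
        _ = a * b * h := by rw [hcb]; group
  rw [s4, g4] at e4
  rw [e1, e2, e3, e4]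
  ring

example : Cfsg.Agent.H64.Hall4.BWCStmt.{v} := bwC

end Cfsg.Agent.H53.Hall4
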