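import Mathlib
import Cfsg.Agent.H86.NdDefs
import Cfsg.Agent.H86.Ev2Fin

/-!
# ND-UNIP4B (helper53, for helper86)

The discriminant class of `⟨v⟩ ⊥ (hyperbolic space of dimension 2 dim U)`, `dim U` even, is the
class of `B v v`.
-/

set_option autoImplicit false

namespace Cfsg.Agent.H53.Nd

open Cfsg.Agent.H45 Cfsg.Agent.H42.Spd Cfsg.Agent.H42.Ti Cfsg.Agent.H14.Ot Cfsg.Agent.H95.Oh
  Cfsg.Agent.H86.Ev2 Cfsg.Agent.H86.Nd Module

universe u v

/-- **ND-UNIP4B**. -/
theorem unip4B : StUnip4B.{u,v} := by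
  intro F _ _ V _ _ _ B h2 hsymm W v U hWnd hvW hvv hUW hUTI hUv hdim hUev n w hw hwspan
  classical
  obtain ⟨W', hW'⟩ : ∃ W' : Submodule F V, W' = W ⊓ perp B (Submodule.span F {v}) := ⟨_, rfl⟩
  have hmemW' : ∀ x, x ∈ W' ↔ x ∈ W ∧ B v x = 0 := by
    intro x
    rw [hW']
    constructor
    · rintro ⟨h1, h3⟩
      exact ⟨h1, h3 v (Submodule.mem_span_singleton_self v)⟩
    · rintro ⟨h1, h3⟩
      refine ⟨h1, fun s hs => ?_⟩
      obtain ⟨c, rfl⟩ := Submodule.mem_span_singleton.mp hs
      rw [map_smul, LinearMap.smul_apply, h3, smul_zero]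
  have hdec : ∀ x ∈ W, ∃ c : F, x - c • v ∈ W' := by
    intro x hx
    refine ⟨B v x / B v v, ?_⟩
    rw [hmemW']
    refine ⟨W.sub_mem hx (W.smul_mem _ hvW), ?_⟩
    rw [map_sub, map_smul, smul_eq_mul, div_mul_cancel₀ _ hvv, sub_self]
  have hsup : Submodule.span F {v} ⊔ W' = W := by
    apply le_antisymm
    · apply sup_le
      · rw [Submodule.span_singleton_le_iff_mem]
        exact hvW
      · rw [hW']
        exact inf_le_left
    · intro x hx
      obtain ⟨c, hc⟩ := hdec x hx
      have h5 : x = c • v + (x - c • v) := by abel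
      rw [h5]
      exact Submodule.add_mem _
        (Submodule.mem_sup_left (Submodule.smul_mem _ _ (Submodule.mem_span_singleton_self v)))
        (Submodule.mem_sup_right hc)
  have hinf : Submodule.span F {v} ⊓ W' = ⊥ := by
    rw [eq_bot_iff]
    rintro x ⟨hx1, hx2⟩
    obtain ⟨c, rfl⟩ := Submodule.mem_span_singleton.mp hx1
    have h3 := ((hmemW' _).mp hx2).2
    rw [map_smul, smul_eq_mul] at h3
    rcases mul_eq_zero.mp h3 with h4 | h4
    · rw [h4, zero_smul]
      exact Submodule.zero_mem _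
    · exact absurd h4 hvv
  have hv0 : v ≠ 0 := by
    rintro rfl
    apply hvv
    rw [map_zero]
  have hfr1 : finrank F (Submodule.span F {v}) = 1 := finrank_span_singleton hv0
  have hfrW' : finrank F W' + 1 = finrank F W := by
    have h := Submodule.finrank_sup_add_finrank_inf_eq (Submodule.span F {v}) W'
    rw [hsup, hinf, finrank_bot, hfr1] at h
    omega
  have hW'nd : W' ⊓ perp B W' = ⊥ := by
    rw [eq_bot_iff]
    rintro x ⟨hx1, hx2⟩
    have hxW := ((hmemW' x).mp hx1).1
    have hvx := ((hmemW' x).mp hx1).2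
    have h6 : x ∈ W ⊓ perp B W := by
      refine ⟨hxW, fun y hy => ?_⟩
      obtain ⟨c, hc⟩ := hdec y hy
      have h5 : y = c • v + (y - c • v) := by abel
      rw [h5, map_add, LinearMap.add_apply, map_smul, LinearMap.smul_apply, hvx, smul_zero,
        zero_add]
      exact hx2 _ hc
    rw [hWnd] at h6
    exact h6
  have hUW' : U ≤ W' := by
    intro u hu
    rw [hmemW']
    exact ⟨hUW hu, by rw [hsymm]; exact hUv u hu⟩
  have hPlus : Plus B W' := ⟨U, hUW', hUTI, by omega⟩
  obtain ⟨w2, hw2mem, hw2orth, hw2ns, hw2span⟩ := fin_ortho F V B h2 hsymm W' hW'nd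
  have hcast : 2 * finrank F U = finrank F W' := by omega
  obtain ⟨w3, hw3⟩ : ∃ w3 : Fin (2 * finrank F U) → V,
      w3 = fun a => w2 (Fin.cast hcast a) := ⟨_, rfl⟩
  have hw3range : Set.range w3 = Set.range w2 := by
    rw [hw3]
    ext x
    constructor
    · rintro ⟨a, rfl⟩
      exact ⟨_, rfl⟩
    · rintro ⟨a, rfl⟩
      exact ⟨Fin.cast hcast.symm a, by simp⟩
  have hw3orth : ∀ a b, a ≠ b → B (w3 a) (w3 b) = 0 := by
    intro a b hab
    rw [hw3]
    exact hw2orth _ _ (fun h => hab (Fin.cast_injective _ h))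
  have hw3ns : ∀ a, B (w3 a) (w3 a) ≠ 0 := by
    intro a
    rw [hw3]
    exact hw2ns _
  have hw3mem : ∀ a, w3 a ∈ W' := by
    intro a
    rw [hw3]
    exact hw2mem _
  have hdisc := (fin_disc F V B h2 hsymm (finrank F U) w3 hw3orth hw3ns).mp
    (by rw [hw3range, hw2span]; exact hPlus)
  rw [hUev.neg_one_pow, one_mul] at hdisc
  -- the combined family
  obtain ⟨w4, hw4⟩ : ∃ w4 : Fin (2 * finrank F U + 1) → V, w4 = Fin.cons v w3 := ⟨_, rfl⟩
  have hw4O : OrthoFam B w4 := by
    rw [hw4]
    constructor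
    · intro a b hab
      induction a using Fin.cases with
      | zero =>
        induction b using Fin.cases with
        | zero => exact absurd rfl hab
        | succ j =>
          rw [Fin.cons_zero, Fin.cons_succ]
          exact ((hmemW' _).mp (hw3mem j)).2
      | succ i =>
        induction b using Fin.cases with
        | zero =>
          rw [Fin.cons_zero, Fin.cons_succ, hsymm]
          exact ((hmemW' _).mp (hw3mem i)).2
        | succ j =>
          rw [Fin.cons_succ, Fin.cons_succ]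
          exact hw3orth i j (fun h => hab (by rw [h]))
    · intro a
      induction a using Fin.cases with
      | zero =>
        rw [Fin.cons_zero]
        exact hvv
      | succ i =>
        rw [Fin.cons_succ]
        exact hw3ns i
  have hw4span : Submodule.span F (Set.range w4) = W := by
    rw [hw4, Fin.range_cons, Set.insert_eq, Submodule.span_union, hw3range, hw2span, hsup]
  -- `n = 2 t + 1`
  obtain ⟨-, hn, -⟩ := fin_spanNd F V B hsymm n w hw
  rw [hwspan] at hn
  have hn' : n = 2 * finrank F U + 1 := by omega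
  subst hn'
  have hInv := fin_discInv F V B hsymm _ w w4 hw hw4O
    ⟨LinearEquiv.ofEq _ _ (hwspan.trans hw4span.symm), fun x y => rfl⟩
  have hprod : ∏ a, B (w4 a) (w4 a) = B v v * ∏ a, B (w3 a) (w3 a) := by
    rw [hw4, Fin.prod_univ_succ]
    simp only [Fin.cons_zero, Fin.cons_succ]
  rw [hprod] at hInv
  obtain ⟨s, hs⟩ := hdisc
  obtain ⟨y, hy⟩ := hInv
  have hs0 : s ≠ 0 := by
    rintro rfl
    rw [mul_zero] at hs
    exact (Finset.prod_ne_zero_iff.mpr (fun a _ => hw3ns a)) hs
  rw [hs] at hy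
  refine ⟨y / s, ?_⟩
  field_simp
  linear_combination hy

example : Cfsg.Agent.H86.Nd.StUnip4B.{u,v} := unip4B

end Cfsg.Agent.H53.Nd
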