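import Cfsg.Agent.H53.Large4

set_option autoImplicit false
open Cfsg
open scoped commutatorElement

namespace Cfsg.Agent.H53

/-- In a finite `p`-group `Q`, a `Q`-invariant subgroup `V` generated by a `Q`-invariant subgroup
`W` together with `[V, Q]` equals `W`. -/
theorem le_of_le_sup_commutator {p : ℕ} [Fact p.Prime] {X : Type*} [Group X] {V W Q : Subgroup X}
    [Finite ↥Q] (hQ : IsPGroup p ↥Q) (hWV : W ≤ V) (hVQ : V ≤ Q)
    (hQW : Q ≤ Subgroup.normalizer (W : Set X))
    (h : V ≤ W ⊔ ⁅V, Q⁆) : V ≤ W := by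
  have hnil : Group.IsNilpotent ↥Q := hQ.isNilpotent
  obtain ⟨n, hn⟩ := (Subgroup.isNilpotent_iff_lowerCentralSeries Q).mp hnil
  have hWQ : W ≤ Q := hWV.trans hVQ
  have key : ∀ k : ℕ, V ≤ W ⊔ Q.lowerCentralSeries k := by
    intro k
    induction k with
    | zero => rw [Subgroup.lowerCentralSeries_zero]; exact hVQ.trans le_sup_right
    | succ k ih =>
      refine h.trans (sup_le le_sup_left ?_)
      rw [Subgroup.commutator_le]
      intro v hv q hq
      have hWn : W ≤ Subgroup.normalizer ((Q.lowerCentralSeries k : Subgroup X) : Set X) :=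
        hWQ.trans (Q.self_le_normalizer_lowerCentralSeries k)
      obtain ⟨w, hw, l, hl, rfl⟩ := mem_sup_of_le_normalizer hWn (ih hv)
      have e : ⁅w * l, q⁆ = (w * ⁅l, q⁆ * w⁻¹) * ⁅w, q⁆ := by
        simp only [commutatorElement_def]; group
      rw [e]
      refine Subgroup.mul_mem _ (Subgroup.mem_sup_right ?_) (Subgroup.mem_sup_left ?_)
      · have h1 : ⁅l, q⁆ ∈ Q.lowerCentralSeries (k + 1) := by
          rw [Subgroup.lowerCentralSeries_succ]
          exact Subgroup.commutator_mem_commutator hl hq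
        have h2 := Q.self_le_normalizer_lowerCentralSeries (k + 1) (hWQ hw)
        exact (Subgroup.mem_normalizer_iff.mp h2 _).mp h1
      · have h3 : q * w⁻¹ * q⁻¹ ∈ W :=
          (Subgroup.mem_normalizer_iff.mp (hQW hq) _).mp (W.inv_mem hw)
        have e2 : ⁅w, q⁆ = w * (q * w⁻¹ * q⁻¹) := by
          simp only [commutatorElement_def]; group
        rw [e2]
        exact W.mul_mem hw h3
  have h2 := key n
  rw [hn, sup_bot_eq] at h2
  exact h2

/-- A nontrivial finite `p`-subgroup has a central element of order `p`. -/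
theorem exists_central_prime_order {p : ℕ} [Fact p.Prime] {X : Type*} [Group X] {T : Subgroup X}
    [Finite ↥T] (hTp : IsPGroup p ↥T) (hT1 : T ≠ ⊥) :
    ∃ z ∈ T, z ≠ 1 ∧ z ^ p = 1 ∧ ∀ t ∈ T, t * z = z * t := by
  haveI : Nontrivial ↥T := (Subgroup.nontrivial_iff_ne_bot _).mpr hT1
  haveI hcn := hTp.center_nontrivial
  have hcard : p ∣ Nat.card ↥(Subgroup.center ↥T) := by
    rcases (hTp.to_subgroup (Subgroup.center ↥T)).card_eq_or_dvd with h | h
    · exact absurd (Subgroup.card_eq_one.mp h) ((Subgroup.nontrivial_iff_ne_bot _).mp hcn)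
    · exact h
  obtain ⟨z, hz⟩ := exists_prime_orderOf_dvd_card' (G := ↥(Subgroup.center ↥T)) p hcard
  refine ⟨((z : ↥T) : X), (z : ↥T).2, ?_, ?_, ?_⟩
  · intro h
    have hz1 : z = 1 := Subtype.ext (Subtype.ext h)
    rw [hz1, orderOf_one] at hz
    exact (Fact.out : p.Prime).one_lt.ne hz
  · have h1 := pow_orderOf_eq_one z
    rw [hz] at h1
    have h2 := congrArg (fun w : ↥(Subgroup.center ↥T) => ((w : ↥T) : X)) h1
    simpa using h2
  · intro t ht
    have := (Subgroup.mem_center_iff.mp z.2) ⟨t, ht⟩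
    exact congrArg Subtype.val this

theorem omegaOne_center_ne_bot {p : ℕ} [Fact p.Prime] {X : Type*} [Group X] {T : Subgroup X}
    [Finite ↥T] (hTp : IsPGroup p ↥T) (hT1 : T ≠ ⊥) :
    Cfsg.omegaOne p (T ⊓ Subgroup.centralizer (T : Set X)) ≠ ⊥ := by
  obtain ⟨z, hzT, hz1, hzp, hzc⟩ := exists_central_prime_order hTp hT1
  intro h
  have hmem : z ∈ Cfsg.omegaOne p (T ⊓ Subgroup.centralizer (T : Set X)) := by
    apply Subgroup.subset_closure
    exact ⟨Subgroup.mem_inf.mpr ⟨hzT, Subgroup.mem_centralizer_iff.mpr hzc⟩, hzp⟩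
  rw [h, Subgroup.mem_bot] at hmem
  exact hz1 hmem

end Cfsg.Agent.H53
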