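import Mathlib
import Cfsg.Prelude
import Cfsg.Agent.H85.RTDefs

/-!
# helper53: S5046 piece 4GL (the product of two commuting twins is a twin), for helper85
-/

set_option autoImplicit false

namespace Cfsg.Agent.H53.RT

open Cfsg.Agent.H85.RT

universe u

theorem four_gl (hcard : StCard.{u}) : St4GL.{u} := by
  intro G _ _ D hD hc a b ha hb htw hne hab habD
  have htw' : Cfsg.oddPartners D a = Cfsg.oddPartners D b := htw
  apply hcard hD hc habD ha
  intro y hy
  obtain ⟨hyD, hyne, hodd⟩ := hy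
  rcases Cfsg.Agent.H85.RI.nsa hD
      (fun u v x hu hv huv hne huvD hx hxu hodd =>
        Cfsg.Agent.H85.RI.b1 hD hu hv huv hne huvD hx hxu hodd)
      ha hb hab hne habD hyD hyne hodd with ⟨h1, h2⟩ | ⟨h1, h2⟩
  · exact ⟨hyD, h1, h2⟩
  · have h3 : y ∈ Cfsg.oddPartners D b := ⟨hyD, h1, h2⟩
    rw [← htw'] at h3
    exact h3

example (hcard : Cfsg.Agent.H85.RT.StCard.{u}) : Cfsg.Agent.H85.RT.St4GL.{u} := four_gl hcard

end Cfsg.Agent.H53.RT
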