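import Mathlib
import Cfsg.Prelude
import Cfsg.Agent.H85.RTDefs

/-!
# helper53: S5046 piece CARD (inclusion of odd-partner sets is equality), for helper85
-/

set_option autoImplicit false

namespace Cfsg.Agent.H53.RT

open Cfsg.Agent.H85.RT

universe u

theorem card : StCard.{u} := by
  intro G _ _ D hD hc a b ha hb hsub
  obtain ⟨g, rfl⟩ := Cfsg.Agent.H85.RI.conj_of_connected hD hc ha hb
  have himg : Cfsg.oddPartners D (g * a * g⁻¹) =
      (fun x => g * x * g⁻¹) '' Cfsg.oddPartners D a := by
    ext y
    constructor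
    · intro hy
      refine ⟨g⁻¹ * y * g, ?_, by group⟩
      have e : y = g * (g⁻¹ * y * g) * g⁻¹ := by group
      rw [e] at hy
      exact (mem_odd_conj_iff hD g).mp hy
    · rintro ⟨x, hx, rfl⟩
      exact mem_odd_conj hD g hx
  have hinj : Function.Injective (fun x : G => g * x * g⁻¹) := by
    intro x y h
    simpa using h
  have hcard : (Cfsg.oddPartners D (g * a * g⁻¹)).ncard = (Cfsg.oddPartners D a).ncard := by
    rw [himg, Set.ncard_image_of_injective _ hinj]
  exact Set.eq_of_subset_of_ncard_le hsub hcard.le (Set.toFinite _)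

example : Cfsg.Agent.H85.RT.StCard.{u} := card

end Cfsg.Agent.H53.RT
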