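import Mathlib
import Cfsg.Prelude
import Cfsg.Agent.H85.RTDefs

/-!
# helper53: S5046 piece TRI (trichotomy: equal unions `C_D ∪ V` give equal odd partners),
for helper85
-/

set_option autoImplicit false

namespace Cfsg.Agent.H53.RT

open Cfsg.Agent.H85.RT

universe u

theorem odd_iff_not_comm_four {G : Type*} [Group G] {D : Set G}
    (hD : Cfsg.IsRootInvolutionSet D) {d y : G} (hd : d ∈ D) :
    y ∈ Cfsg.oddPartners D d ↔
      y ∈ D ∧ y ∉ Cfsg.commutingMembers D d ∪ Cfsg.fourPartners D d := by
  constructor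
  · rintro ⟨hyD, hyne, hodd⟩
    refine ⟨hyD, ?_⟩
    rintro (⟨_, hcomm⟩ | ⟨_, h4⟩)
    · have hd2 := Cfsg.Agent.H40.RootInv.sq_of_mem hD hd
      have hy2 := Cfsg.Agent.H40.RootInv.sq_of_mem hD hyD
      have h2 : (d * y) ^ 2 = 1 := by
        rw [pow_two]
        calc d * y * (d * y) = d * (y * d) * y := by group
          _ = d * (d * y) * y := by rw [hcomm]
          _ = (d * d) * (y * y) := by group
          _ = 1 := by rw [hd2, hy2, one_mul]
      have hdvd : orderOf (d * y) ∣ 2 := orderOf_dvd_of_pow_eq_one h2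
      have h1 : orderOf (d * y) = 1 := by
        rcases (Nat.dvd_prime Nat.prime_two).mp hdvd with h | h
        · exact h
        · rw [h] at hodd; exact absurd hodd (by decide)
      have h3 : d * y = 1 := orderOf_eq_one_iff.mp h1
      apply hyne
      calc y = d * (d * y) := by rw [← mul_assoc, hd2, one_mul]
        _ = d := by rw [h3, mul_one]
    · rw [h4] at hodd; exact absurd hodd (by decide)
  · rintro ⟨hyD, hnot⟩
    have hnc : ¬ y * d = d * y := fun h => hnot (Or.inl ⟨hyD, h⟩)
    have hn4 : ¬ orderOf (d * y) = 4 := fun h => hnot (Or.inr ⟨hyD, h⟩)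
    refine ⟨hyD, ?_, ?_⟩
    · rintro rfl; exact hnc rfl
    · rcases hD.pair d hd y hyD with h | h | h
      · exact absurd h.symm hnc
      · exact h
      · exact absurd h.1 hn4

theorem tri : StTri.{u} := by
  intro G _ D hD d e hd he h
  show Cfsg.oddPartners D d = Cfsg.oddPartners D e
  ext y
  rw [odd_iff_not_comm_four hD hd, odd_iff_not_comm_four hD he, h]

example : Cfsg.Agent.H85.RT.StTri.{u} := tri

end Cfsg.Agent.H53.RT
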