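import Mathlib
import Cfsg.Agent.H91.SMDefs

/-!
# helper53: torus argument for lifts of commuting elementary matrices (S2086 pieces C5, C4T, C3T)
-/

set_option autoImplicit false

namespace Cfsg.Agent.H53.SM

open Matrix Subgroup Cfsg.Agent.H91.SM
open scoped commutatorElement

universe u v

/-- Abstract torus argument: if `d` conjugates `x₁` to `x₂` and centralizes `y`, and `x₁`
commutes with `y`, then lifts of `x₁⁻¹ * x₂` and `y` along a central surjection commute. -/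
theorem torus_comm {E G : Type*} [Group E] [Group G] (ρ : E →* G)
    (hsurj : Function.Surjective ρ) (hker : ρ.ker ≤ center E)
    (x₁ x₂ y d : G) (hx : d * x₁ = x₂ * d) (hy : d * y = y * d) (hxy : x₁ * y = y * x₁)
    (u v : E) (hu : ρ u = x₁⁻¹ * x₂) (hv : ρ v = y) : u * v = v * u := by
  obtain ⟨u₁, hu₁⟩ := hsurj x₁
  obtain ⟨D, hD⟩ := hsurj d
  have hcent : ∀ h : E, ρ h * y = y * ρ h → ⁅h, v⁆ ∈ center E := fun h hh => hker (by
    rw [MonoidHom.mem_ker, commutatorElement_def]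
    simp only [map_mul, map_inv, hv]
    rw [hh]; group)
  have key : ∀ g h : E, ⁅h, v⁆ ∈ center E → ⁅g * h, v⁆ = ⁅h, v⁆ * ⁅g, v⁆ := by
    intro g h hh
    have e : ⁅g * h, v⁆ = g * ⁅h, v⁆ * g⁻¹ * ⁅g, v⁆ := by
      simp only [commutatorElement_def]; group
    rw [e, (mem_center_iff.mp hh) g]; group
  have hc1 : ⁅u₁, v⁆ ∈ center E := hcent u₁ (by rw [hu₁, hxy])
  have hcD : ⁅D, v⁆ ∈ center E := hcent D (by rw [hD, hy])
  have hinv : ∀ g : E, ⁅g, v⁆ ∈ center E → ⁅g⁻¹, v⁆ = ⁅g, v⁆⁻¹ := by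
    intro g hg
    have h1 := key g⁻¹ g hg
    rw [inv_mul_cancel, commutatorElement_one_left] at h1
    exact eq_inv_of_mul_eq_one_right h1.symm
  have hcD' : ⁅D⁻¹, v⁆ ∈ center E := by rw [hinv D hcD]; exact inv_mem hcD
  have hc1' : ⁅u₁⁻¹, v⁆ ∈ center E := by rw [hinv u₁ hc1]; exact inv_mem hc1
  have h2 : ⁅u₁ * D⁻¹, v⁆ = ⁅D⁻¹, v⁆ * ⁅u₁, v⁆ := key u₁ D⁻¹ hcD'
  have h2c : ⁅u₁ * D⁻¹, v⁆ ∈ center E := by rw [h2]; exact mul_mem hcD' hc1
  have h3 : ⁅D * (u₁ * D⁻¹), v⁆ = ⁅u₁ * D⁻¹, v⁆ * ⁅D, v⁆ := key D _ h2c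
  have h3c : ⁅D * (u₁ * D⁻¹), v⁆ ∈ center E := by rw [h3]; exact mul_mem h2c hcD
  have h4 : ⁅u₁⁻¹ * (D * (u₁ * D⁻¹)), v⁆ = ⁅D * (u₁ * D⁻¹), v⁆ * ⁅u₁⁻¹, v⁆ := key u₁⁻¹ _ h3c
  have h5 : ⁅u₁⁻¹ * (D * (u₁ * D⁻¹)), v⁆ = 1 := by
    rw [h4, h3, h2, hinv D hcD, hinv u₁ hc1, (mem_center_iff.mp hc1) (⁅D, v⁆⁻¹)]
    group
  have h6 := commutatorElement_eq_one_iff_mul_comm.mp h5
  set w := u₁⁻¹ * (D * (u₁ * D⁻¹)) with hw
  have hwu : w⁻¹ * u ∈ center E := hker (by
    rw [MonoidHom.mem_ker, hw]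
    simp only [map_mul, map_inv, hu, hu₁, hD]
    have : d * (x₁ * d⁻¹) = x₂ := by rw [← mul_assoc, hx]; group
    rw [this]; group)
  calc u * v = w * ((w⁻¹ * u) * v) := by group
    _ = w * (v * (w⁻¹ * u)) := by rw [(mem_center_iff.mp hwu) v]
    _ = (w * v) * (w⁻¹ * u) := (mul_assoc w v (w⁻¹ * u)).symm
    _ = (v * w) * (w⁻¹ * u) := by rw [h6]
    _ = v * u := by group

/-- Torus argument for elementary matrices: a diagonal matrix `diag(w)` of determinant one
with `w k = w l` and `w i ≠ w j` forces lifts of `x_ij(a)` and `x_kl(b)` to commute. -/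
theorem torus_comm_tv {n : ℕ} {K : Type u} [Field K] {E : Type v} [Group E] (ρ : E →* SLn n K)
    (hsurj : Function.Surjective ρ) (hker : ρ.ker ≤ center E)
    (w : Fin n → K) (hw : ∏ m, w m = 1) (i j k l : Fin n) (hij : i ≠ j) (hkl : k ≠ l)
    (hil : i ≠ l) (hjk : j ≠ k) (hwkl : w k = w l) (hwij : w i ≠ w j) (a b : K) (u v : E)
    (hu : ρ u = tv hij a) (hv : ρ v = tv hkl b) : u * v = v * u := by
  have hwj : w j ≠ 0 := by
    intro h0
    have : ∏ m, w m = 0 := Finset.prod_eq_zero (Finset.mem_univ j) h0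
    rw [hw] at this; exact one_ne_zero this
  set s : K := w i / w j with hs
  have hs1 : s - 1 ≠ 0 := by
    intro h
    apply hwij
    have : s = 1 := sub_eq_zero.mp h
    rw [hs, div_eq_one_iff_eq hwj] at this
    exact this
  set a' : K := a / (s - 1) with ha'
  let d : SLn n K := ⟨Matrix.diagonal w, by rw [Matrix.det_diagonal, hw]⟩
  have hdx : ∀ (p q : Fin n) (hpq : p ≠ q) (c c' : K), w p * c = c' * w q →
      d * tv hpq c = tv hpq c' * d := by
    intro p q hpq c c' hcc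
    apply Subtype.ext
    show Matrix.diagonal w * ((1 : Matrix (Fin n) (Fin n) K) + Matrix.single p q c) =
      ((1 : Matrix (Fin n) (Fin n) K) + Matrix.single p q c') * Matrix.diagonal w
    rw [mul_add, add_mul, mul_one, one_mul]
    congr 1
    ext x y
    rw [Matrix.diagonal_mul, Matrix.mul_diagonal]
    simp only [Matrix.single_apply]
    by_cases hxy : p = x ∧ q = y
    · obtain ⟨rfl, rfl⟩ := hxy
      simp [hcc]
    · simp [hxy]
  refine torus_comm ρ hsurj hker (tv hij a') (tv hij (s * a')) (tv hkl b) d ?_ ?_ ?_ u v ?_ hv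
  · apply hdx
    rw [hs]; field_simp
  · apply hdx
    rw [hwkl, mul_comm]
  · have t1 : Matrix.single i j a' * Matrix.single k l b = (0 : Matrix (Fin n) (Fin n) K) :=
      Matrix.single_mul_single_of_ne _ _ _ _ hjk _
    have t2 : Matrix.single k l b * Matrix.single i j a' = (0 : Matrix (Fin n) (Fin n) K) :=
      Matrix.single_mul_single_of_ne _ _ _ _ (Ne.symm hil) _
    apply Subtype.ext
    show ((1 : Matrix (Fin n) (Fin n) K) + Matrix.single i j a') *
        ((1 : Matrix (Fin n) (Fin n) K) + Matrix.single k l b) =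
      ((1 : Matrix (Fin n) (Fin n) K) + Matrix.single k l b) *
        ((1 : Matrix (Fin n) (Fin n) K) + Matrix.single i j a')
    simp only [mul_add, add_mul, mul_one, one_mul, t1, t2, add_zero]
    abel
  · rw [hu]
    show Matrix.SpecialLinearGroup.transvection hij a =
      (Matrix.SpecialLinearGroup.transvection hij a')⁻¹ *
        Matrix.SpecialLinearGroup.transvection hij (s * a')
    rw [Matrix.SpecialLinearGroup.transvection_inv, ← Matrix.SpecialLinearGroup.transvection_add]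
    congr 1
    rw [ha']; field_simp; ring

/-- In `Fin n` with `n ≥ 5` there is an index avoiding four given ones. -/
theorem exists_free_index {n : ℕ} (hn : 5 ≤ n) (i j k l : Fin n) :
    ∃ h : Fin n, h ≠ i ∧ h ≠ j ∧ h ≠ k ∧ h ≠ l := by
  by_contra hcon
  push Not at hcon
  have hsub : (Finset.univ : Finset (Fin n)) ⊆ {i, j, k, l} := by
    intro h _
    simp only [Finset.mem_insert, Finset.mem_singleton]
    by_cases h1 : h = i
    · exact Or.inl h1
    by_cases h2 : h = j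
    · exact Or.inr (Or.inl h2)
    by_cases h3 : h = k
    · exact Or.inr (Or.inr (Or.inl h3))
    exact Or.inr (Or.inr (Or.inr (hcon h h1 h2 h3)))
  have hc := Finset.card_le_card hsub
  have h4 : ({i, j, k, l} : Finset (Fin n)).card ≤ 4 := Finset.card_le_four
  rw [Finset.card_univ, Fintype.card_fin] at hc
  omega

end Cfsg.Agent.H53.SM
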