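import Mathlib
import Cfsg.Agent.H91.SMDefs
import Cfsg.Agent.H53.SMTorus

/-!
# helper53: S2086 piece C3T (`Comm` for `n = 3` with `r ≠ 0`, `r³ ≠ 1`)
-/

set_option autoImplicit false

namespace Cfsg.Agent.H53.SM

open Matrix Subgroup Cfsg.Agent.H91.SM
open scoped commutatorElement

universe u v

theorem fin3_cases : ∀ i j k l : Fin 3, i ≠ j → k ≠ l → i ≠ l → j ≠ k →
    (∃ h : Fin 3, h ≠ i ∧ h ≠ j ∧ h ≠ k ∧ h ≠ l) ∨ (k = i ∧ l ≠ j) ∨ (l = j ∧ k ≠ i) := by
  decide

theorem c3t (hF : FreeStmt.{u, v}) : C3TStmt.{u, v} := by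
  intro K _ E _ ρ hsurj hker r hr0 hr3 i j k l hij hkl hil hjk a b u v hu hv
  rcases fin3_cases i j k l hij hkl hil hjk with ⟨h, h1, h2, h3, h4⟩ | ⟨hki, hlj⟩ | ⟨hlj, hki⟩
  · exact hF ρ hsurj hker i j k l h hij hkl hil hjk h1 h2 h3 h4 a b u v hu hv
  · -- same row: weights `r` everywhere except `r⁻²` at `j`
    refine torus_comm_tv ρ hsurj hker (fun m => if m = j then (r⁻¹) ^ 2 else r)
      ?_ i j k l hij hkl hil hjk ?_ ?_ a b u v hu hv
    · rw [Fin.prod_univ_three]
      fin_cases j <;> (simp; field_simp)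
    · simp [hjk.symm, hlj]
    · simp only [if_neg hij, if_true]
      intro h
      apply hr3
      have h' : r * r ^ 2 = r⁻¹ ^ 2 * r ^ 2 := congrArg (· * r ^ 2) h
      have : r * r ^ 2 = 1 := by rw [h']; field_simp
      rw [← this]; ring
  · -- same column: weights `r⁻¹` everywhere except `r²` at `i`
    refine torus_comm_tv ρ hsurj hker (fun m => if m = i then r ^ 2 else r⁻¹)
      ?_ i j k l hij hkl hil hjk ?_ ?_ a b u v hu hv
    · rw [Fin.prod_univ_three]
      fin_cases i <;> (simp; field_simp)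
    · simp [hki, Ne.symm hil]
    · simp only [if_neg (Ne.symm hij), if_true]
      intro h
      apply hr3
      have h' : r ^ 2 * r = r⁻¹ * r := congrArg (· * r) h
      have : r ^ 2 * r = 1 := by rw [h', inv_mul_cancel₀ hr0]
      rw [← this]; ring

example (hF : Cfsg.Agent.H91.SM.FreeStmt.{u, v}) : Cfsg.Agent.H91.SM.C3TStmt.{u, v} := c3t hF

end Cfsg.Agent.H53.SM
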