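import Mathlib
import Cfsg.Agent.H91.SMDefs
import Cfsg.Agent.H53.SMTorus

/-!
# helper53: S2086 piece C4T (`Comm` for `n = 4` with `r ≠ 0`, `r² ≠ 1`)
-/

set_option autoImplicit false

namespace Cfsg.Agent.H53.SM

open Matrix Subgroup Cfsg.Agent.H91.SM
open scoped commutatorElement

universe u v

theorem fin4_cases : ∀ i j k l : Fin 4, i ≠ j → k ≠ l → i ≠ l → j ≠ k →
    (∃ h : Fin 4, h ≠ i ∧ h ≠ j ∧ h ≠ k ∧ h ≠ l) ∨ (i ≠ k ∧ j ≠ l) := by
  decide

theorem c4t (hF : FreeStmt.{u, v}) : C4TStmt.{u, v} := by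
  intro K _ E _ ρ hsurj hker r hr0 hr2 i j k l hij hkl hil hjk a b u v hu hv
  rcases fin4_cases i j k l hij hkl hil hjk with ⟨h, h1, h2, h3, h4⟩ | ⟨hik, hjl⟩
  · exact hF ρ hsurj hker i j k l h hij hkl hil hjk h1 h2 h3 h4 a b u v hu hv
  · refine torus_comm_tv ρ hsurj hker (fun m => if m = i then r ^ 2 else if m = j then 1 else r⁻¹)
      ?_ i j k l hij hkl hil hjk ?_ ?_ a b u v hu hv
    · rw [Fin.prod_univ_four]
      fin_cases i <;> fin_cases j <;> first | exact absurd rfl hij | (simp; field_simp)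
    · simp [Ne.symm hik, hjk.symm, Ne.symm hil, Ne.symm hjl]
    · simpa [Ne.symm hij] using hr2

example (hF : Cfsg.Agent.H91.SM.FreeStmt.{u, v}) : Cfsg.Agent.H91.SM.C4TStmt.{u, v} := c4t hF

end Cfsg.Agent.H53.SM
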