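import Mathlib
import Cfsg.Agent.H91.SMDefs
import Cfsg.Agent.H53.SMTorus

/-!
# helper53: S2086 piece C5 (`Comm` for `n ≥ 5`)
-/

set_option autoImplicit false

namespace Cfsg.Agent.H53.SM

open Matrix Subgroup Cfsg.Agent.H91.SM
open scoped commutatorElement

universe u v

theorem c5 (hF : FreeStmt.{u, v}) : C5Stmt.{u, v} := by
  intro n K _ E _ ρ hsurj hker hn i j k l hij hkl hil hjk a b u v hu hv
  obtain ⟨h, h1, h2, h3, h4⟩ := exists_free_index hn i j k l
  exact hF ρ hsurj hker i j k l h hij hkl hil hjk h1 h2 h3 h4 a b u v hu hv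

example (hF : Cfsg.Agent.H91.SM.FreeStmt.{u, v}) : Cfsg.Agent.H91.SM.C5Stmt.{u, v} := c5 hF

end Cfsg.Agent.H53.SM
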