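import Mathlib
import Cfsg.Agent.H90.TRDefs

/-!
# S5156, piece G3 (helper53 for helper90): in a nontrivial finite `p`-solvable group,
`O^p(O^{p'}(G))` is a proper subgroup
-/

set_option autoImplicit false

namespace Cfsg.Agent.H53.TR

open Cfsg Cfsg.Agent.H90.TR

universe u

/-- an element whose order is prime to the index of a normal subgroup lies in it -/
theorem g3_mem_of_coprime {G : Type*} [Group G] (K : Subgroup G) [K.Normal] (g : G)
    (h : (K.index).Coprime (orderOf g)) : g ∈ K := by
  obtain ⟨m, hm⟩ := exists_pow_eq_self_of_coprime h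
  rw [← hm]
  exact K.pow_mem (Subgroup.pow_index_mem K g) m

theorem g3 : G3Stmt.{u} := by
  intro G _ _ p _ hnt hsol
  obtain ⟨n, H, h0, hlast, hmono, hnorm, hstep⟩ := hsol
  have hbot : (⊥ : Subgroup G) ≠ ⊤ := bot_ne_top
  -- the last proper term of the chain
  have hex : ∃ i : Fin n, H i.castSucc ≠ ⊤ ∧ H i.succ = ⊤ := by
    by_contra hcon
    push Not at hcon
    have hall : ∀ j : Fin (n + 1), H j ≠ ⊤ := by
      intro j
      induction j using Fin.induction with
      | zero => rw [h0]; exact hbot
      | succ i ih => exact hcon i ih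
    exact hall (Fin.last n) hlast
  obtain ⟨i, hi1, hi2⟩ := hex
  have hn := hnorm i.castSucc
  have hlt : Nat.card (H i.castSucc) < Nat.card G :=
    lt_of_le_of_ne (Subgroup.card_le_card_group _)
      (fun h => hi1 (Subgroup.eq_top_of_card_eq _ h))
  have hidx := hstep i
  rw [hi2, Subgroup.relIndex_top_right] at hidx
  rcases hidx with ⟨m, hm⟩ | hcop
  · -- the top factor is a `p`-group
    have hle : (pResidual p (opPrimeGrp p G)).map (opPrimeGrp p G).subtype ≤ H i.castSucc := by
      rw [Subgroup.map_le_iff_le_comap]
      unfold pResidual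
      rw [Subgroup.closure_le]
      intro g hg
      have hg' : Nat.Coprime (orderOf g) p := hg
      show (g : G) ∈ H i.castSucc
      apply g3_mem_of_coprime
      rw [hm, Subgroup.orderOf_coe]
      exact Nat.Coprime.pow_left m hg'.symm
    calc Nat.card (pResidual p (opPrimeGrp p G))
        = Nat.card ((pResidual p (opPrimeGrp p G)).map (opPrimeGrp p G).subtype) :=
          (Subgroup.card_map_of_injective (Subgroup.subtype_injective _)).symm
      _ ≤ Nat.card (H i.castSucc) := Subgroup.card_le_of_le hle
      _ < Nat.card G := hlt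
  · -- the top factor is a `p'`-group
    have hle : opPrimeGrp p G ≤ H i.castSucc := by
      unfold opPrimeGrp
      rw [Subgroup.closure_le]
      rintro g ⟨k, hk⟩
      apply g3_mem_of_coprime
      rw [hk]
      exact Nat.Coprime.pow_right k hcop
    calc Nat.card (pResidual p (opPrimeGrp p G)) ≤ Nat.card (opPrimeGrp p G) :=
          Subgroup.card_le_card_group _
      _ ≤ Nat.card (H i.castSucc) := Subgroup.card_le_of_le hle
      _ < Nat.card G := hlt

end Cfsg.Agent.H53.TR
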