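import Mathlib
import Cfsg.Agent.Lib.Helper96.TWDefs

/-!
# S5707-G1NOT (helper53 for helper96)

The commutator of the Clifford element `γ = loc i X + loc j N` and the local unipotent
`b = loc i U` is not in the standard tensor-wreath subgroup: as a matrix it is
`1 + (loc i X + loc j N) * loc i U`, and one of its columns is not a pure tensor.
-/

set_option autoImplicit false

namespace Cfsg.Agent.H53.TW

open Cfsg Cfsg.Geo Matrix
open Cfsg.Agent.Lib.Helper96.TW

universe u

theorem sh2 : ∀ p : Fin 2, sh p = ![1, 0] p := by decide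
theorem sh4 : ∀ p : Fin 4, sh p = ![2, 3, 0, 1] p := by decide

theorem xn_add_nx {F : Type u} [Field F] (k : ℕ) (hk : k = 2 ∨ k = 4) :
    Xm F k * Nm F k + Nm F k * Xm F k = 1 := by
  rcases hk with rfl | rfl
  · ext p q
    fin_cases p <;> fin_cases q <;>
      simp [Xm, Nm, sh2, Matrix.mul_apply, Matrix.add_apply, Matrix.one_apply]
  · ext p q
    fin_cases p <;> fin_cases q <;>
      simp [Xm, Nm, sh4, Matrix.mul_apply, Fin.sum_univ_four, Matrix.add_apply, Matrix.one_apply]

theorem xu_col {F : Type u} [Field F] (k : ℕ) (hk : k = 2 ∨ k = 4) (z0 c : Fin k)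
    (h0 : z0.val = 0) (hc : c.val = k / 2) (p : Fin k) :
    (Xm F k * Um F k) p z0 = if p = c then 1 else 0 := by
  rcases hk with rfl | rfl
  · obtain rfl : z0 = 0 := Fin.ext h0
    obtain rfl : c = 1 := Fin.ext (by rw [hc]; rfl)
    fin_cases p <;>
      simp [Xm, Nm, Um, sh2, Matrix.mul_apply, Matrix.add_apply, Matrix.one_apply]
  · obtain rfl : z0 = 0 := Fin.ext h0
    obtain rfl : c = 2 := Fin.ext (by rw [hc]; rfl)
    fin_cases p <;>
      simp [Xm, Nm, Um, sh4, Matrix.mul_apply, Fin.sum_univ_four, Matrix.add_apply, Matrix.one_apply]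

theorem u_col {F : Type u} [Field F] (k : ℕ) (hk : k = 2 ∨ k = 4) (z0 : Fin k)
    (h0 : z0.val = 0) (p : Fin k) :
    Um F k p z0 = if p = z0 then 1 else 0 := by
  rcases hk with rfl | rfl
  · obtain rfl : z0 = 0 := Fin.ext h0
    fin_cases p <;> simp [Nm, Um, Matrix.add_apply]
  · obtain rfl : z0 = 0 := Fin.ext h0
    fin_cases p <;> simp [Nm, Um, Matrix.add_apply]

theorem n_col {F : Type u} [Field F] (k : ℕ) (hk : k = 2 ∨ k = 4) (z0 c : Fin k)
    (h0 : z0.val = 0) (hc : c.val = k / 2) (p : Fin k) :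
    Nm F k p c = if p = z0 then 1 else 0 := by
  rcases hk with rfl | rfl
  · obtain rfl : z0 = 0 := Fin.ext h0
    obtain rfl : c = 1 := Fin.ext (by rw [hc]; rfl)
    fin_cases p <;> simp [Nm]
  · obtain rfl : z0 = 0 := Fin.ext h0
    obtain rfl : c = 2 := Fin.ext (by rw [hc]; rfl)
    fin_cases p <;> simp [Nm]

/-- the noncommutative algebra: `γ b γ b = 1 + γ b`. -/
theorem comm_alg {R : Type*} [Ring R] (Lx Ln Li : R) (c2 : ∀ M : R, M + M = 0)
    (hXX : Lx * Lx = 1) (hNN : Ln * Ln = 0) (hII : Li * Li = 0)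
    (hXI : Lx * Li + Li * Lx = 1) (hXN : Lx * Ln = Ln * Lx) (hIN : Li * Ln = Ln * Li) :
    (Lx + Ln) * (Lx + Ln) = 1 ∧ (1 + Li) * (1 + Li) = 1 ∧
    (Lx + Ln) * (1 + Li) * (Lx + Ln) * (1 + Li) = 1 + (Lx + Ln) * (1 + Li) := by
  have hγγ : (Lx + Ln) * (Lx + Ln) = 1 := by
    linear_combination (norm := noncomm_ring) hXX + hXN + c2 (Ln * Lx) + hNN
  have hbb : (1 + Li) * (1 + Li) = 1 := by
    linear_combination (norm := noncomm_ring) c2 Li + hII
  have hbγb : (1 + Li) * (Lx + Ln) * (1 + Li) = (Lx + Ln) + (1 + Li) := by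
    linear_combination (norm := noncomm_ring)
      hXI + hIN + c2 (Ln * Li) + hIN * Li + Ln * hII + Li * hXI - hII * Lx
  refine ⟨hγγ, hbb, ?_⟩
  linear_combination (norm := noncomm_ring) (Lx + Ln) * hbγb + hγγ

theorem g1not : Cfsg.Agent.Lib.Helper96.TW.StG1Not.{u} := by
  intro hAlg hCliff hNF F _ k t h2 hCases i j hij γ b hγ hb hmem
  classical
  have hk : k = 2 ∨ k = 4 := by
    rcases hCases with ⟨h, _⟩ | ⟨h, _⟩
    · exact Or.inl h
    · exact Or.inr h
  have hkpos : 0 < k := by rcases hk with rfl | rfl <;> norm_num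
  have hhalf : 0 < k / 2 := by rcases hk with rfl | rfl <;> norm_num
  obtain ⟨a1, a2, a3, a4, a5, -, -, -, -, -, -, -⟩ := hAlg F k t
  obtain ⟨-, -, -, -, -, -, -, hXX, hNN, hUU⟩ := hCliff F k h2 hk
  have hloc0 : ∀ l : Fin t, (loc l (0 : Matrix (Fin k) (Fin k) F) : Matrix (Idx k t) (Idx k t) F) = 0 := by
    intro l
    have := a4 l (0 : F) 0
    simpa using this
  have c2 : ∀ M : Matrix (Idx k t) (Idx k t) F, M + M = 0 := by
    intro M
    rw [← two_smul F M, h2, zero_smul]
  obtain ⟨Lx, hLx⟩ : ∃ L : Matrix (Idx k t) (Idx k t) F, L = loc i (Xm F k) := ⟨_, rfl⟩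
  obtain ⟨Ln, hLn⟩ : ∃ L : Matrix (Idx k t) (Idx k t) F, L = loc j (Nm F k) := ⟨_, rfl⟩
  obtain ⟨Li, hLi⟩ : ∃ L : Matrix (Idx k t) (Idx k t) F, L = loc i (Nm F k) := ⟨_, rfl⟩
  have hXXl : Lx * Lx = 1 := by rw [hLx, ← a2, hXX, a1]
  have hNNl : Ln * Ln = 0 := by rw [hLn, ← a2, hNN, hloc0]
  have hIIl : Li * Li = 0 := by rw [hLi, ← a2, hNN, hloc0]
  have hXIl : Lx * Li + Li * Lx = 1 := by
    rw [hLx, hLi, ← a2, ← a2, ← a3, xn_add_nx k hk, a1]
  have hXNc : Lx * Ln = Ln * Lx := by rw [hLx, hLn]; exact a5 i j _ _ hij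
  have hINc : Li * Ln = Ln * Li := by rw [hLi, hLn]; exact a5 i j _ _ hij
  have hU : (loc i (Um F k) : Matrix (Idx k t) (Idx k t) F) = 1 + Li := by
    rw [hLi]
    show loc i (1 + Nm F k) = _
    rw [a3, a1]
  obtain ⟨hγγ, hbb, hg⟩ := comm_alg Lx Ln Li c2 hXXl hNNl hIIl hXIl hXNc hINc
  have hγm : (γ : Matrix (Idx k t) (Idx k t) F) = Lx + Ln := by rw [hγ, hLx, hLn]
  have hbm : (b : Matrix (Idx k t) (Idx k t) F) = 1 + Li := by rw [hb, hU]
  have hγu : γ * γ = 1 := by
    apply Units.ext
    rw [Units.val_mul, hγm, hγγ]; rfl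
  have hbu : b * b = 1 := by
    apply Units.ext
    rw [Units.val_mul, hbm, hbb]; rfl
  have hγinv : γ⁻¹ = γ := inv_eq_of_mul_eq_one_right hγu
  have hbinv : b⁻¹ = b := inv_eq_of_mul_eq_one_right hbu
  rw [hγinv, hbinv] at hmem
  obtain ⟨gs, σ, hgs⟩ := hNF hAlg F k t _ hmem
  -- the matrix of the commutator
  have hG : ((γ * b * γ * b : GL (Idx k t) F) : Matrix (Idx k t) (Idx k t) F) =
      1 + (loc i (Xm F k * Um F k) + Ln * loc i (Um F k)) := by
    rw [Units.val_mul, Units.val_mul, Units.val_mul, hγm, hbm, hg, a2, hU, ← hLx, add_mul]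
  -- the indices
  let z0 : Fin k := ⟨0, hkpos⟩
  let c : Fin k := ⟨k / 2, Nat.div_lt_self hkpos (by norm_num)⟩
  have hz0 : z0.val = 0 := rfl
  have hcv : c.val = k / 2 := rfl
  have hz0c : z0 ≠ c := by
    intro h
    have := congrArg Fin.val h
    rw [hz0, hcv] at this
    omega
  let a : Idx k t := fun l => if l = j then c else z0
  have ai : a i = z0 := if_neg hij
  have aj : a j = c := if_pos rfl
  -- the column `a`
  have hE : ∀ x : Idx k t,
      (1 + (loc i (Xm F k * Um F k) + Ln * loc i (Um F k)) : Matrix (Idx k t) (Idx k t) F) x a =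
      (if x = a then 1 else 0) +
        ((if (∀ l, l ≠ i → x l = a l) then (if x i = c then (1 : F) else 0) else 0) +
         (if (∀ l, l ≠ j → x l = a l) then (if x j = z0 then (1 : F) else 0) else 0)) := by
    intro x
    rw [Matrix.add_apply, Matrix.add_apply, Matrix.one_apply]
    congr 1
    congr 1
    · show (if (∀ l, l ≠ i → x l = a l) then (Xm F k * Um F k) (x i) (a i) else 0) = _
      rw [ai, xu_col k hk z0 c hz0 hcv]
    · rw [Matrix.mul_apply, Finset.sum_eq_single a]
      · have h1 : (loc i (Um F k) : Matrix (Idx k t) (Idx k t) F) a a = 1 := by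
          show (if (∀ l, l ≠ i → a l = a l) then Um F k (a i) (a i) else 0) = _
          rw [if_pos (fun _ _ => rfl), ai, u_col k hk z0 hz0, if_pos rfl]
        rw [h1, mul_one, hLn]
        show (if (∀ l, l ≠ j → x l = a l) then Nm F k (x j) (a j) else 0) = _
        rw [aj, n_col k hk z0 c hz0 hcv]
      · intro z _ hz
        have h1 : (loc i (Um F k) : Matrix (Idx k t) (Idx k t) F) z a = 0 := by
          show (if (∀ l, l ≠ i → z l = a l) then Um F k (z i) (a i) else 0) = _
          by_cases hh : ∀ l, l ≠ i → z l = a l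
          · rw [if_pos hh, ai, u_col k hk z0 hz0, if_neg]
            intro hzi
            apply hz
            funext l
            by_cases hl : l = i
            · rw [hl, hzi, ai]
            · exact hh l hl
          · rw [if_neg hh]
        rw [h1, mul_zero]
      · intro h
        exact absurd (Finset.mem_univ _) h
  -- the four rows
  let a' : Idx k t := Function.update a i c
  let a'' : Idx k t := Function.update a j z0
  let a''' : Idx k t := Function.update a' j z0
  have a'_i : a' i = c := Function.update_self _ _ _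
  have a'_ne : ∀ l, l ≠ i → a' l = a l := fun l hl => Function.update_of_ne hl _ _
  have a''_j : a'' j = z0 := Function.update_self _ _ _
  have a''_ne : ∀ l, l ≠ j → a'' l = a l := fun l hl => Function.update_of_ne hl _ _
  have a'''_j : a''' j = z0 := Function.update_self _ _ _
  have a'''_ne : ∀ l, l ≠ j → a''' l = a' l := fun l hl => Function.update_of_ne hl _ _
  have a'''_i : a''' i = c := by rw [a'''_ne i hij, a'_i]
  have hji : j ≠ i := fun h => hij h.symm
  have e0 : (1 + (loc i (Xm F k * Um F k) + Ln * loc i (Um F k)) : Matrix (Idx k t) (Idx k t) F) a a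
      = 1 := by
    rw [hE a, if_pos rfl, if_pos (fun _ _ => rfl), if_neg (by rw [ai]; exact hz0c),
      if_pos (fun _ _ => rfl), if_neg (by rw [aj]; exact hz0c.symm)]
    simp
  have e1 : (1 + (loc i (Xm F k * Um F k) + Ln * loc i (Um F k)) : Matrix (Idx k t) (Idx k t) F) a' a
      = 1 := by
    have n1 : ¬ (a' = a) := by
      intro h
      have := congrFun h i
      rw [a'_i, ai] at this
      exact hz0c this.symm
    have n3 : ¬ (∀ l, l ≠ j → a' l = a l) := by
      intro h
      have := h i hij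
      rw [a'_i, ai] at this
      exact hz0c this.symm
    rw [hE a', if_neg n1, if_pos a'_ne, if_pos a'_i, if_neg n3]
    simp
  have e2 : (1 + (loc i (Xm F k * Um F k) + Ln * loc i (Um F k)) : Matrix (Idx k t) (Idx k t) F) a'' a
      = 1 := by
    have n1 : ¬ (a'' = a) := by
      intro h
      have := congrFun h j
      rw [a''_j, aj] at this
      exact hz0c this
    have n2 : ¬ (∀ l, l ≠ i → a'' l = a l) := by
      intro h
      have := h j hji
      rw [a''_j, aj] at this
      exact hz0c this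
    rw [hE a'', if_neg n1, if_neg n2, if_pos a''_ne, if_pos a''_j]
    simp
  have e3 : (1 + (loc i (Xm F k * Um F k) + Ln * loc i (Um F k)) : Matrix (Idx k t) (Idx k t) F) a''' a
      = 0 := by
    have n1 : ¬ (a''' = a) := by
      intro h
      have := congrFun h j
      rw [a'''_j, aj] at this
      exact hz0c this
    have n2 : ¬ (∀ l, l ≠ i → a''' l = a l) := by
      intro h
      have := h j hji
      rw [a'''_j, aj] at this
      exact hz0c this
    have n3 : ¬ (∀ l, l ≠ j → a''' l = a l) := by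
      intro h
      have := h i hij
      rw [a'''_i, ai] at this
      exact hz0c this.symm
    rw [hE a''', if_neg n1, if_neg n2, if_neg n3]
    simp
  -- the column is a pure tensor
  let z₀ : Idx k t := a ∘ σ.symm
  have hz₀ : a = z₀ ∘ σ := by
    funext l
    show a l = a (σ.symm (σ l))
    rw [Equiv.symm_apply_apply]
  have hP : ∀ x : Idx k t,
      (pureM (fun i => ((gs i : GL (Fin k) F) : Matrix (Fin k) (Fin k) F)) * permM F k t σ) x a =
      ∏ l, ((gs l : GL (Fin k) F) : Matrix (Fin k) (Fin k) F) (x l) (z₀ l) := by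
    intro x
    rw [Matrix.mul_apply, Finset.sum_eq_single z₀]
    · have h1 : permM F k t σ z₀ a = 1 := by
        show (if a = z₀ ∘ σ then (1 : F) else 0) = 1
        rw [if_pos hz₀]
      rw [h1, mul_one]
      rfl
    · intro z _ hz
      have h1 : permM F k t σ z a = 0 := by
        show (if a = z ∘ σ then (1 : F) else 0) = 0
        rw [if_neg]
        intro h
        apply hz
        funext l
        show z l = a (σ.symm l)
        rw [h]
        show z l = z (σ (σ.symm l))
        rw [Equiv.apply_symm_apply]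
      rw [h1, mul_zero]
    · intro h
      exact absurd (Finset.mem_univ _) h
  have hprod : (∏ l, ((gs l : GL (Fin k) F) : Matrix (Fin k) (Fin k) F) (a l) (z₀ l)) *
      (∏ l, ((gs l : GL (Fin k) F) : Matrix (Fin k) (Fin k) F) (a''' l) (z₀ l)) =
      (∏ l, ((gs l : GL (Fin k) F) : Matrix (Fin k) (Fin k) F) (a' l) (z₀ l)) *
      (∏ l, ((gs l : GL (Fin k) F) : Matrix (Fin k) (Fin k) F) (a'' l) (z₀ l)) := by
    rw [← Finset.prod_mul_distrib, ← Finset.prod_mul_distrib]
    apply Finset.prod_congr rfl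
    intro l _
    by_cases hli : l = i
    · rw [hli, a'''_i, a'_i, a''_ne i hij, mul_comm]
    · by_cases hlj : l = j
      · rw [hlj, a'''_j, a''_j, a'_ne j hji]
      · rw [a'''_ne l hlj, a'_ne l hli, a''_ne l hlj]
  rw [← hP, ← hP, ← hP, ← hP, ← hgs, hG, e0, e1, e2, e3] at hprod
  simp at hprod

example : StAlg.{u} → StCliff.{u} → StNF.{u} → ∀ (F : Type u) [Field F] (k t : ℕ), (2 : F) = 0 → Cases k t →
    ∀ (i j : Fin t), i ≠ j → ∀ γ b : GL (Idx k t) F,
      (γ : Matrix (Idx k t) (Idx k t) F) = loc i (Xm F k) + loc j (Nm F k) →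
      (b : Matrix (Idx k t) (Idx k t) F) = loc i (Um F k) →
      γ * b * γ⁻¹ * b⁻¹ ∉ tensorWreathStandard k t F := g1not

end Cfsg.Agent.H53.TW
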