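import Mathlib
import Cfsg.Agent.H74.TsDefs
import Cfsg.Agent.H14.Thompson

/-!
# S2948 piece TS-SYL (helper53 for helper74)

A maximal straddling 2-subgroup `T` inside a 2-local `L ≰ M` is a Sylow 2-subgroup of `L`
(from TS-EQ applied to a Sylow 2-subgroup `T₂ ⊇ T` of `L`).
-/

set_option autoImplicit false

namespace Cfsg.Agent.H53.Ts

open Cfsg Cfsg.Agent.H74.Ts

universe u

/-- the order of a largest elementary abelian 2-subgroup, read off from any largest one -/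
theorem maxOrder_eq {G : Type u} [Group G] (T : Subgroup G) {A : Subgroup ↥T}
    (hA : A ∈ maxElementaryAbelianSubgroups 2 ↥T) : maxElemAbelianOrder T = Nat.card ↥A := by
  unfold maxElemAbelianOrder
  have hs : (fun B : Subgroup ↥T => Nat.card ↥B) '' maxElementaryAbelianSubgroups 2 ↥T =
      {Nat.card ↥A} := by
    ext n
    constructor
    · rintro ⟨B, hB, rfl⟩
      exact le_antisymm (hA.2 B hB.1) (hB.2 A hA.1)
    · rintro rfl
      exact ⟨A, hA, rfl⟩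
  rw [hs, csSup_singleton]

/-- `a(T)` is monotone in `T` -/
theorem maxOrder_mono {G : Type u} [Group G] [Finite G] {T T₂ : Subgroup G} (hle : T ≤ T₂) :
    maxElemAbelianOrder T ≤ maxElemAbelianOrder T₂ := by
  obtain ⟨A, hA⟩ := Cfsg.Agent.H14.maxElementaryAbelian_nonempty (G := ↥T) 2
  obtain ⟨A₂, hA₂⟩ := Cfsg.Agent.H14.maxElementaryAbelian_nonempty (G := ↥T₂) 2
  rw [maxOrder_eq T hA, maxOrder_eq T₂ hA₂]
  have h1 := hA₂.2 (A.map (Subgroup.inclusion hle))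
    (Cfsg.Agent.H14.elemAb_map' hA.1 (Subgroup.inclusion hle))
  rwa [Subgroup.card_map_of_injective (Subgroup.inclusion_injective hle)] at h1

/-- every 2-subgroup of `L` lies in a Sylow 2-subgroup of `L` -/
theorem exists_sylowIn {G : Type u} [Group G] [Finite G] (T L : Subgroup G) (hTL : T ≤ L)
    (hT2 : IsPGroup 2 ↥T) : ∃ T₂ : Subgroup G, T ≤ T₂ ∧ IsSylowTwoIn T₂ L := by
  have : Fact (Nat.Prime 2) := ⟨Nat.prime_two⟩
  obtain ⟨P, hP⟩ := (hT2.comap_subtype : IsPGroup 2 ↥(T.subgroupOf L)).exists_le_sylow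
  refine ⟨(P : Subgroup ↥L).map L.subtype, ?_, Subgroup.map_subtype_le _, P.isPGroup'.map _, ?_⟩
  · intro t ht
    exact ⟨⟨t, hTL ht⟩, hP (Subgroup.mem_subgroupOf.mpr ht), rfl⟩
  · have h1 : ((P : Subgroup ↥L).map L.subtype).subgroupOf L = (P : Subgroup ↥L) :=
      Subgroup.comap_map_eq_self_of_injective L.subtype_injective _
    show Odd (((P : Subgroup ↥L).map L.subtype).subgroupOf L).index
    rw [h1]
    have h2 := P.not_dvd_index
    rcases Nat.even_or_odd (P : Subgroup ↥L).index with h | h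
    · exact absurd (even_iff_two_dvd.mp h) h2
    · exact h

theorem syl (h : StEQ.{u}) : StSyl.{u} := by
  intro G _ _ M T hT hNJ L hL hLM hTL
  obtain ⟨hTs, hTmax⟩ := hT
  have hT2 : IsPGroup 2 ↥T := hTs.1
  obtain ⟨T₂, hTT₂, hT₂⟩ := exists_sylowIn T L hTL hT2
  obtain ⟨hJ, hT₂s⟩ := h M T ⟨hTs, hTmax⟩ hNJ L hL hLM T₂ hT₂.2.1 hT₂.1
    ((Cfsg.Agent.H14.thompsonSubgroupOf_le 2 T).trans hTT₂)
  obtain ⟨ha, hrest⟩ := hTmax T₂ hT₂s
  have hcard : Nat.card ↥T₂ ≤ Nat.card ↥T :=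
    (hrest (le_antisymm ha (maxOrder_mono hTT₂))).2 (by rw [hJ])
  have hEq : T = T₂ := Subgroup.eq_of_le_of_card_ge hTT₂ hcard
  rw [hEq]
  exact hT₂

end Cfsg.Agent.H53.Ts

universe u in
example (h : Cfsg.Agent.H74.Ts.StEQ.{u}) : Cfsg.Agent.H74.Ts.StSyl.{u} :=
  Cfsg.Agent.H53.Ts.syl h
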