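import Mathlib
import Cfsg.Agent.H74.TsDefs

/-!
# S2948 piece TS-TRA (helper53 for helper74)

Transport from `↥L` to `G` of "generated by its elements of odd order" and `[K, J(T)] = K` for
`K := K'.map L.subtype`.
-/

set_option autoImplicit false

namespace Cfsg.Agent.H53.Ts

open Cfsg Cfsg.Agent.H74.Ts
open scoped commutatorElement

universe u

theorem trA : StTrA.{u} := by
  intro G _ _ T L K' hTL hgen hcomm
  have hJL : thompsonSubgroupOf 2 T ≤ L := by
    unfold thompsonSubgroupOf
    exact (Subgroup.map_subtype_le _).trans hTL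
  constructor
  · have hset : {g : G | g ∈ K'.map L.subtype ∧ Odd (orderOf g)} =
        L.subtype '' {g : ↥L | g ∈ K' ∧ Odd (orderOf g)} := by
      ext g
      constructor
      · rintro ⟨⟨k, hk, rfl⟩, hodd⟩
        refine ⟨k, ⟨hk, ?_⟩, rfl⟩
        rw [← Subgroup.orderOf_coe]
        exact hodd
      · rintro ⟨k, ⟨hk, hodd⟩, rfl⟩
        refine ⟨⟨k, hk, rfl⟩, ?_⟩
        show Odd (orderOf ((k : ↥L) : G))
        rw [Subgroup.orderOf_coe]
        exact hodd
    rw [hset, ← MonoidHom.map_closure, hgen]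
  · have h1 : ((thompsonSubgroupOf 2 T).subgroupOf L).map L.subtype = thompsonSubgroupOf 2 T :=
      Subgroup.map_subgroupOf_eq_of_le hJL
    calc ⁅K'.map L.subtype, thompsonSubgroupOf 2 T⁆
        = ⁅K'.map L.subtype, ((thompsonSubgroupOf 2 T).subgroupOf L).map L.subtype⁆ := by
          rw [h1]
      _ = (⁅K', (thompsonSubgroupOf 2 T).subgroupOf L⁆).map L.subtype :=
          (Subgroup.map_commutator _ _ _).symm
      _ = K'.map L.subtype := by rw [hcomm]

end Cfsg.Agent.H53.Ts

universe u in
example : Cfsg.Agent.H74.Ts.StTrA.{u} := Cfsg.Agent.H53.Ts.trA
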