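import Mathlib
import Cfsg.Agent.H81.TypePDefs
import Cfsg.Agent.H32.SNC2
import Cfsg.Agent.H4.BrauerBasic

/-!
# helper53: S1511 piece K1 (induction of differences of linear characters agreeing on `W₂`),
for helper81
-/

set_option autoImplicit false

namespace Cfsg.Agent.H53.TyP

open Cfsg Cfsg.Agent.H81.TyP

universe u

theorem k1 : StmtK1.{u} := by
  intro L _ _ W₁ W₂ hSNC χ hχ H ω ω' hag
  have hm1 : ∀ f : ↥(W₁ ⊔ W₂) →* ℂˣ, f * 1 = f := fun f => by ext w; simp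
  have h1m : ∀ f : ↥(W₁ ⊔ W₂) →* ℂˣ, 1 * f = f := fun f => by ext w; simp
  obtain ⟨φ, ψ, hφ, hψ, rfl⟩ := Cfsg.Agent.H32.snc_decomp W₁ W₂ hSNC ω
  obtain ⟨φ', ψ', hφ', hψ', rfl⟩ := Cfsg.Agent.H32.snc_decomp W₁ W₂ hSNC ω'
  have hψeq : ψ = ψ' := by
    apply Cfsg.Agent.H32.hom_eq_of_eqOn W₁ W₂
    · intro w hw; rw [hψ w hw, hψ' w hw]
    · intro w hw
      have h1 := hag w hw
      rw [MonoidHom.mul_apply, MonoidHom.mul_apply, hφ w hw, hφ' w hw, one_mul, one_mul] at h1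
      exact h1
  subst hψeq
  by_cases hψ1 : ψ = 1
  · subst hψ1
    rw [hm1, hm1]
    exact H φ φ' hφ hφ'
  · have hα : ∀ φ₀ : ↥(W₁ ⊔ W₂) →* ℂˣ, (∀ w : ↥(W₁ ⊔ W₂), (w : L) ∈ W₂ → φ₀ w = 1) →
        indFun (W₁ ⊔ W₂) (fun w => 1 - (φ₀ w : ℂ) - (ψ w : ℂ) + (φ₀ w : ℂ) * (ψ w : ℂ)) =
          fun g => 1 - χ φ₀ g - χ ψ g + χ (φ₀ * ψ) g := by
      intro φ₀ hφ₀
      by_cases h1 : φ₀ = 1
      · subst h1
        have e1 : (fun w : ↥(W₁ ⊔ W₂) => 1 - (((1 : ↥(W₁ ⊔ W₂) →* ℂˣ) w : ℂˣ) : ℂ) - (ψ w : ℂ) +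
            (((1 : ↥(W₁ ⊔ W₂) →* ℂˣ) w : ℂˣ) : ℂ) * (ψ w : ℂ)) = 0 := by
          funext w; simp
        rw [e1, Cfsg.Agent.H4.indFun_zero]
        funext g
        rw [h1m, hχ.map_one]; simp
      · exact hχ.induced_eq φ₀ ψ h1 hψ1 hφ₀ hψ
    have hdecomp : (fun w : ↥(W₁ ⊔ W₂) => (((φ * ψ) w : ℂˣ) : ℂ) - (((φ' * ψ) w : ℂˣ) : ℂ)) =
        ((fun w : ↥(W₁ ⊔ W₂) => 1 - (φ w : ℂ) - (ψ w : ℂ) + (φ w : ℂ) * (ψ w : ℂ)) -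
          (fun w : ↥(W₁ ⊔ W₂) => 1 - (φ' w : ℂ) - (ψ w : ℂ) + (φ' w : ℂ) * (ψ w : ℂ))) +
          (fun w : ↥(W₁ ⊔ W₂) => (φ w : ℂ) - (φ' w : ℂ)) := by
      funext w
      simp only [MonoidHom.mul_apply, Units.val_mul, Pi.add_apply, Pi.sub_apply]
      ring
    rw [hdecomp, Cfsg.Agent.H4.indFun_add, Cfsg.Agent.H4.indFun_sub, hα φ hφ, hα φ' hφ',
      H φ φ' hφ hφ']
    funext g
    simp only [Pi.add_apply, Pi.sub_apply]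
    ring

example : Cfsg.Agent.H81.TyP.StmtK1.{u} := k1

end Cfsg.Agent.H53.TyP
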