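import Mathlib
import Cfsg.Agent.H81.TypePDefs

/-!
# helper53: S1511 piece LIN (a linear character of `W` trivial on `W₂` extends to `L`),
for helper81
-/

set_option autoImplicit false

namespace Cfsg.Agent.H53.TyP

open Cfsg Cfsg.Agent.H81.TyP

universe u

theorem lin : StmtLin.{u} := by
  intro L _ _ K W₁ W₂ hT φ hφ
  have hKn : K.Normal := hT.normal
  -- the retraction `L → W₁` with kernel `K`
  let e : W₁ →* L ⧸ K := (QuotientGroup.mk' K).comp W₁.subtype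
  have he_inj : Function.Injective e := by
    rw [injective_iff_map_eq_one]
    intro a ha
    have h1 : (a : L) ∈ K := by
      have : ((a : L) : L ⧸ K) = 1 := ha
      exact (QuotientGroup.eq_one_iff _).mp this
    have h2 : (a : L) ∈ K ⊓ W₁ := ⟨h1, a.2⟩
    rw [hT.inf, Subgroup.mem_bot] at h2
    exact Subtype.ext h2
  have he_surj : Function.Surjective e := by
    intro q
    obtain ⟨g, rfl⟩ := QuotientGroup.mk_surjective q
    have hg : g ∈ K ⊔ W₁ := by rw [hT.sup]; exact Subgroup.mem_top g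
    have hg' : g ∈ ((K ⊔ W₁ : Subgroup L) : Set L) := hg
    rw [Subgroup.normal_mul] at hg'
    obtain ⟨k, hk, a, ha, rfl⟩ := hg'
    refine ⟨⟨a, ha⟩, ?_⟩
    show ((a : L) : L ⧸ K) = ((k * a : L) : L ⧸ K)
    rw [QuotientGroup.mk_mul, (QuotientGroup.eq_one_iff k).mpr hk, one_mul]
  let ē : W₁ ≃* L ⧸ K := MulEquiv.ofBijective e ⟨he_inj, he_surj⟩
  let r : L →* W₁ := ē.symm.toMonoidHom.comp (QuotientGroup.mk' K)
  have hr₁ : ∀ a : W₁, r (a : L) = a := by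
    intro a
    show ē.symm ((a : L) : L ⧸ K) = a
    rw [MulEquiv.symm_apply_eq]
    rfl
  have hrK : ∀ k ∈ K, r k = 1 := by
    intro k hk
    show ē.symm ((k : L) : L ⧸ K) = 1
    rw [(QuotientGroup.eq_one_iff k).mpr hk, map_one]
  let Λ : L →* ℂˣ := (φ.comp (Subgroup.inclusion (le_sup_left : W₁ ≤ W₁ ⊔ W₂))).comp r
  have hΛ₁ : ∀ a (ha : a ∈ W₁), Λ a = φ ⟨a, le_sup_left (a := W₁) (b := W₂) ha⟩ := by
    intro a ha
    show φ (Subgroup.inclusion _ (r a)) = _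
    rw [hr₁ ⟨a, ha⟩]
    rfl
  have hΛ₂ : ∀ b (hb : b ∈ W₂), Λ b = φ ⟨b, le_sup_right (a := W₁) (b := W₂) hb⟩ := by
    intro b hb
    show φ (Subgroup.inclusion _ (r b)) = _
    rw [hrK b (hT.le hb), map_one, map_one]
    exact (hφ ⟨b, le_sup_right (a := W₁) (b := W₂) hb⟩ hb).symm
  have hsup : W₁ ⊔ W₂ = Subgroup.closure ((W₁ : Set L) ∪ W₂) := by
    rw [Subgroup.closure_union, Subgroup.closure_eq, Subgroup.closure_eq]
  have hC : ∀ x, x ∈ Subgroup.closure ((W₁ : Set L) ∪ W₂) →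
      ∃ hw : x ∈ W₁ ⊔ W₂, Λ x = φ ⟨x, hw⟩ := by
    intro x hx
    refine Subgroup.closure_induction (p := fun y _ => ∃ hw : y ∈ W₁ ⊔ W₂, Λ y = φ ⟨y, hw⟩)
      ?_ ?_ ?_ ?_ hx
    · rintro y (hy | hy)
      · exact ⟨_, hΛ₁ y hy⟩
      · exact ⟨_, hΛ₂ y hy⟩
    · exact ⟨one_mem _, by rw [map_one]; exact (map_one φ).symm⟩
    · rintro y z _ _ ⟨hy, hy'⟩ ⟨hz, hz'⟩
      refine ⟨mul_mem hy hz, ?_⟩
      rw [map_mul, hy', hz', ← map_mul]
      rfl
    · rintro y _ ⟨hy, hy'⟩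
      refine ⟨inv_mem hy, ?_⟩
      rw [map_inv, hy', ← map_inv]
      rfl
  refine ⟨Λ, fun w => ?_⟩
  obtain ⟨hw, h⟩ := hC (w : L) (hsup ▸ w.2)
  exact h

example : Cfsg.Agent.H81.TyP.StmtLin.{u} := lin

end Cfsg.Agent.H53.TyP
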