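import Mathlib
import Cfsg.Agent.H83.UPDefs

/-!
# S6001 (helper83's project): from the four generators to `Nrm` (helper53)
-/

set_option autoImplicit false

namespace Cfsg.Agent.H53.UP

open Matrix Cfsg.Agent.H83.UP

universe u

theorem bit_cases (a : ZMod 2) : a = 0 ∨ a = 1 := by revert a; decide

/-- A matrix with unit determinant that conjugates the four generators into the group of the
`ι^j • pauli w` satisfies `Nrm`. -/
theorem nrm_of_gens (hB : StPBasic.{u}) {F : Type u} [Field F] (ι : F) (hι : ι ^ 2 = -1)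
    (y : Matrix (Fin 4) (Fin 4) F) (hdet : IsUnit y.det)
    (h0 : ∃ (j : ℕ) (w : Fin 4 → ZMod 2), y * A1 = ι ^ j • (pauli w * y))
    (h1 : ∃ (j : ℕ) (w : Fin 4 → ZMod 2), y * B1 = ι ^ j • (pauli w * y))
    (h2 : ∃ (j : ℕ) (w : Fin 4 → ZMod 2), y * A2 = ι ^ j • (pauli w * y))
    (h3 : ∃ (j : ℕ) (w : Fin 4 → ZMod 2), y * B2 = ι ^ j • (pauli w * y)) : Nrm ι y := by
  obtain ⟨hz, ⟨hA1, hB1, hA2, hB2⟩, hmul, -, -, -, -⟩ := hB F
  refine ⟨hdet, ?_⟩
  have hzero : ∃ (j : ℕ) (w : Fin 4 → ZMod 2),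
      y * pauli (0 : Fin 4 → ZMod 2) = ι ^ j • (pauli w * y) :=
    ⟨0, 0, by rw [hz]; simp⟩
  have hadd : ∀ v v' : Fin 4 → ZMod 2,
      (∃ (j : ℕ) (w : Fin 4 → ZMod 2), y * pauli v = ι ^ j • (pauli w * y)) →
      (∃ (j : ℕ) (w : Fin 4 → ZMod 2), y * pauli v' = ι ^ j • (pauli w * y)) →
      ∃ (j : ℕ) (w : Fin 4 → ZMod 2), y * pauli (v + v') = ι ^ j • (pauli w * y) := by
    rintro v v' ⟨j, w, h⟩ ⟨j', w', h'⟩
    obtain ⟨ε, hε, e⟩ := hmul v v'
    obtain ⟨ε', hε', e'⟩ := hmul w w'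
    have hεε : ε * ε = 1 := by rcases hε with rfl | rfl <;> simp
    have e2 : (pauli (v + v') : Matrix (Fin 4) (Fin 4) F) = ε • (pauli v * pauli v') := by
      rw [e, smul_smul, hεε, one_smul]
    have hk : ∃ k : ℕ, ε * ε' = ι ^ k := by
      rcases hε with rfl | rfl <;> rcases hε' with rfl | rfl
      · exact ⟨0, by simp⟩
      · exact ⟨2, by simp [hι]⟩
      · exact ⟨2, by simp [hι]⟩
      · exact ⟨0, by simp⟩
    obtain ⟨k, hk⟩ := hk
    refine ⟨j + j' + k, w + w', ?_⟩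
    calc y * pauli (v + v') = ε • (y * pauli v * pauli v') := by
          rw [e2, Matrix.mul_smul, mul_assoc]
      _ = ε • (ι ^ j • (pauli w * y) * pauli v') := by rw [h]
      _ = ε • (ι ^ j • (pauli w * (y * pauli v'))) := by rw [Matrix.smul_mul, mul_assoc]
      _ = ε • (ι ^ j • (pauli w * (ι ^ j' • (pauli w' * y)))) := by rw [h']
      _ = (ε * ι ^ j * ι ^ j') • (pauli w * pauli w' * y) := by
          rw [Matrix.mul_smul, smul_smul, smul_smul, Matrix.mul_assoc]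
      _ = (ε * ι ^ j * ι ^ j') • (ε' • pauli (w + w') * y) := by rw [e']
      _ = ι ^ (j + j' + k) • (pauli (w + w') * y) := by
          rw [Matrix.smul_mul, smul_smul, pow_add, pow_add, ← hk]; congr 1; ring
  have hsingle : ∀ (i : Fin 4) (a : ZMod 2),
      ∃ (j : ℕ) (w : Fin 4 → ZMod 2), y * pauli (Pi.single i a) = ι ^ j • (pauli w * y) := by
    intro i a
    rcases bit_cases a with rfl | rfl
    · rw [Pi.single_zero]; exact hzero
    · fin_cases i
      · show ∃ (j : ℕ) (w : Fin 4 → ZMod 2), y * pauli (Pi.single 0 1) = ι ^ j • (pauli w * y)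
        rw [hA1]; exact h0
      · show ∃ (j : ℕ) (w : Fin 4 → ZMod 2), y * pauli (Pi.single 1 1) = ι ^ j • (pauli w * y)
        rw [hB1]; exact h1
      · show ∃ (j : ℕ) (w : Fin 4 → ZMod 2), y * pauli (Pi.single 2 1) = ι ^ j • (pauli w * y)
        rw [hA2]; exact h2
      · show ∃ (j : ℕ) (w : Fin 4 → ZMod 2), y * pauli (Pi.single 3 1) = ι ^ j • (pauli w * y)
        rw [hB2]; exact h3
  intro v
  have hv : v = (Pi.single 0 (v 0) : Fin 4 → ZMod 2) + (Pi.single 1 (v 1) : Fin 4 → ZMod 2) +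
      (Pi.single 2 (v 2) : Fin 4 → ZMod 2) + (Pi.single 3 (v 3) : Fin 4 → ZMod 2) := by
    funext i; fin_cases i <;> simp
  rw [hv]
  exact hadd _ _ (hadd _ _ (hadd _ _ (hsingle 0 _) (hsingle 1 _)) (hsingle 2 _)) (hsingle 3 _)

/-- `pauli` of an explicit vector, as a product of generators. -/
theorem pauli_vec {F : Type u} [Field F] (a b c d : ZMod 2) :
    (pauli ![a, b, c, d] : Matrix (Fin 4) (Fin 4) F) =
      A1 ^ a.val * B1 ^ b.val * A2 ^ c.val * B2 ^ d.val := rfl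

end Cfsg.Agent.H53.UP
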