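import Mathlib
import Cfsg.Agent.H83.UPDefs
import Cfsg.Agent.H53.UPNrm

/-!
# S6001-N3 (helper83's project): the explicit elements `yA`, `yB` of order 3 (helper53)
-/

set_option autoImplicit false
set_option linter.unusedSimpArgs false
set_option linter.unusedTactic false
set_option linter.unusedVariables false
set_option linter.unreachableTactic false

namespace Cfsg.Agent.H53.UP

open Matrix Cfsg.Agent.H83.UP

universe u

theorem bit_val0 : (0 : ZMod 2).val = 0 := rfl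
theorem bit_val1 : (1 : ZMod 2).val = 1 := rfl

section
variable {F : Type u} [Field F]

theorem yA_A1 (ι : F) (h2 : (2 : F) ≠ 0) (hι : ι ^ 2 = -1) : yA ι * A1 = B1 * yA ι := by
  ext i j; fin_cases i <;> fin_cases j <;>
    simp [yA, A1, B1, Matrix.mul_apply, Fin.sum_univ_four] <;> grind

theorem yA_B1 (ι : F) (h2 : (2 : F) ≠ 0) (hι : ι ^ 2 = -1) :
    yA ι * B1 = ι ^ 3 • (A1 * B1 * yA ι) := by
  ext i j; fin_cases i <;> fin_cases j <;>
    simp [yA, A1, B1, Matrix.mul_apply, Fin.sum_univ_four] <;> grind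

theorem yA_A2 (ι : F) (h2 : (2 : F) ≠ 0) (hι : ι ^ 2 = -1) : yA ι * A2 = B2 * yA ι := by
  ext i j; fin_cases i <;> fin_cases j <;>
    simp [yA, A2, B2, Matrix.mul_apply, Fin.sum_univ_four] <;> grind

theorem yA_B2 (ι : F) (h2 : (2 : F) ≠ 0) (hι : ι ^ 2 = -1) :
    yA ι * B2 = ι ^ 3 • (A2 * B2 * yA ι) := by
  ext i j; fin_cases i <;> fin_cases j <;>
    simp [yA, A2, B2, Matrix.mul_apply, Fin.sum_univ_four] <;> grind

theorem yB_A1 (ι : F) (h2 : (2 : F) ≠ 0) (hι : ι ^ 2 = -1) : yB ι * A1 = B1 * yB ι := by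
  ext i j; fin_cases i <;> fin_cases j <;>
    simp [yB, A1, B1, Matrix.mul_apply, Fin.sum_univ_four] <;> grind

theorem yB_B1 (ι : F) (h2 : (2 : F) ≠ 0) (hι : ι ^ 2 = -1) :
    yB ι * B1 = ι ^ 3 • (A1 * B1 * yB ι) := by
  ext i j; fin_cases i <;> fin_cases j <;>
    simp [yB, A1, B1, Matrix.mul_apply, Fin.sum_univ_four] <;> grind

theorem yB_A2 (ι : F) (h2 : (2 : F) ≠ 0) (hι : ι ^ 2 = -1) : yB ι * A2 = A2 * yB ι := by
  ext i j; fin_cases i <;> fin_cases j <;>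
    simp [yB, A2, Matrix.mul_apply, Fin.sum_univ_four] <;> grind

theorem yB_B2 (ι : F) (h2 : (2 : F) ≠ 0) (hι : ι ^ 2 = -1) : yB ι * B2 = B2 * yB ι := by
  ext i j; fin_cases i <;> fin_cases j <;>
    simp [yB, B2, Matrix.mul_apply, Fin.sum_univ_four] <;> grind

theorem yA_cube (ι : F) (h2 : (2 : F) ≠ 0) (hι : ι ^ 2 = -1) : yA ι ^ 3 = 1 := by
  rw [pow_three]
  ext i j; fin_cases i <;> fin_cases j <;>
    simp [yA, Matrix.mul_apply, Fin.sum_univ_four] <;> grind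

theorem yB_cube (ι : F) (h2 : (2 : F) ≠ 0) (hι : ι ^ 2 = -1) : yB ι ^ 3 = 1 := by
  rw [pow_three]
  ext i j; fin_cases i <;> fin_cases j <;>
    simp [yB, Matrix.mul_apply, Fin.sum_univ_four] <;> grind

theorem yA_trace (ι : F) (h2 : (2 : F) ≠ 0) : Matrix.trace (yA ι) = 1 := by
  simp [Matrix.trace, yA, Fin.sum_univ_four]
  grind

theorem yB_trace (ι : F) (h2 : (2 : F) ≠ 0) : Matrix.trace (yB ι) = -2 := by
  simp [Matrix.trace, yB, Fin.sum_univ_four]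
  grind

theorem yA_map (p : ℕ) [Fact p.Prime] [CharP F p] (ι : F) (hιp : ι ^ p = -ι) :
    (yA ι).map (fun a => a ^ p) = yA (-ι) := by
  have hf : (fun a : F => a ^ p) = ⇑(frobenius F p) := rfl
  have hfι : frobenius F p ι = -ι := hιp
  have hf2 : frobenius F p 2 = 2 := map_ofNat _ 2
  rw [hf]
  ext i j; fin_cases i <;> fin_cases j <;> simp [yA, hfι, hf2]

theorem yB_map (p : ℕ) [Fact p.Prime] [CharP F p] (ι : F) (hιp : ι ^ p = -ι) :
    (yB ι).map (fun a => a ^ p) = yB (-ι) := by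
  have hf : (fun a : F => a ^ p) = ⇑(frobenius F p) := rfl
  have hfι : frobenius F p ι = -ι := hιp
  have hf2 : frobenius F p 2 = 2 := map_ofNat _ 2
  rw [hf]
  ext i j; fin_cases i <;> fin_cases j <;> simp [yB, hfι, hf2] <;> grind

theorem yA_unitary (ι : F) (h2 : (2 : F) ≠ 0) (hι : ι ^ 2 = -1) : (yA ι)ᵀ * yA (-ι) = 1 := by
  ext i j; fin_cases i <;> fin_cases j <;>
    simp [yA, Matrix.mul_apply, Fin.sum_univ_four] <;> grind

theorem yB_unitary (ι : F) (h2 : (2 : F) ≠ 0) (hι : ι ^ 2 = -1) : (yB ι)ᵀ * yB (-ι) = 1 := by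
  ext i j; fin_cases i <;> fin_cases j <;>
    simp [yB, Matrix.mul_apply, Fin.sum_univ_four] <;> grind

end

/-- S6001-N3. -/
theorem n3 (hB : StPBasic.{u}) : StN3.{u} := by
  intro F _ p _ ι hp h2 hι hιp
  haveI : Fact p.Prime := ⟨hp⟩
  have hA3 := yA_cube ι h2 hι
  have hB3 := yB_cube ι h2 hι
  have hdetA : IsUnit (yA ι).det := by
    have h : (yA ι).det ^ 3 = 1 := by rw [← Matrix.det_pow, hA3, Matrix.det_one]
    exact IsUnit.of_pow_eq_one h (by norm_num)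
  have hdetB : IsUnit (yB ι).det := by
    have h : (yB ι).det ^ 3 = 1 := by rw [← Matrix.det_pow, hB3, Matrix.det_one]
    exact IsUnit.of_pow_eq_one h (by norm_num)
  refine ⟨?_, ?_, hA3, hB3, yA_trace ι h2, yB_trace ι h2, ?_, ?_⟩
  · refine nrm_of_gens hB ι hι _ hdetA ⟨0, ![0, 1, 0, 0], ?_⟩ ⟨3, ![1, 1, 0, 0], ?_⟩
      ⟨0, ![0, 0, 0, 1], ?_⟩ ⟨3, ![0, 0, 1, 1], ?_⟩
    · rw [pauli_vec]; simpa [bit_val0, bit_val1] using yA_A1 ι h2 hι
    · rw [pauli_vec]; simpa [bit_val0, bit_val1] using yA_B1 ι h2 hι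
    · rw [pauli_vec]; simpa [bit_val0, bit_val1] using yA_A2 ι h2 hι
    · rw [pauli_vec]; simpa [bit_val0, bit_val1] using yA_B2 ι h2 hι
  · refine nrm_of_gens hB ι hι _ hdetB ⟨0, ![0, 1, 0, 0], ?_⟩ ⟨3, ![1, 1, 0, 0], ?_⟩
      ⟨0, ![0, 0, 1, 0], ?_⟩ ⟨0, ![0, 0, 0, 1], ?_⟩
    · rw [pauli_vec]; simpa [bit_val0, bit_val1] using yB_A1 ι h2 hι
    · rw [pauli_vec]; simpa [bit_val0, bit_val1] using yB_B1 ι h2 hι
    · rw [pauli_vec]; simpa [bit_val0, bit_val1] using yB_A2 ι h2 hι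
    · rw [pauli_vec]; simpa [bit_val0, bit_val1] using yB_B2 ι h2 hι
  · unfold IsU
    rw [yA_map p ι hιp]
    exact yA_unitary ι h2 hι
  · unfold IsU
    rw [yB_map p ι hιp]
    exact yB_unitary ι h2 hι

example (hB : Cfsg.Agent.H83.UP.StPBasic.{u}) : Cfsg.Agent.H83.UP.StN3.{u} := n3 hB

end Cfsg.Agent.H53.UP
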