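import Mathlib
import Cfsg.Agent.H83.UPDefs
import Cfsg.Agent.H53.UPNrm

/-!
# S6001-N5 (helper83's project): the explicit element `g5` of order 5 (helper53)
-/

set_option autoImplicit false
set_option linter.unusedSimpArgs false
set_option linter.unusedTactic false
set_option linter.unusedVariables false
set_option linter.unreachableTactic false

namespace Cfsg.Agent.H53.UP

open Matrix Cfsg.Agent.H83.UP

universe u

theorem n5_val0 : (0 : ZMod 2).val = 0 := rfl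
theorem n5_val1 : (1 : ZMod 2).val = 1 := rfl

section
variable {F : Type u} [Field F]

theorem g5_A1 (ι : F) (h2 : (2 : F) ≠ 0) (hι : ι ^ 2 = -1) :
    g5 ι * A1 = ι ^ 3 • (A1 * B1 * g5 ι) := by
  ext i j; fin_cases i <;> fin_cases j <;>
    simp [g5, A1, B1, Matrix.mul_apply, Fin.sum_univ_four] <;> grind

theorem g5_B1 (ι : F) (h2 : (2 : F) ≠ 0) (hι : ι ^ 2 = -1) :
    g5 ι * B1 = A1 * A2 * g5 ι := by
  ext i j; fin_cases i <;> fin_cases j <;>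
    simp [g5, A1, B1, A2, Matrix.mul_apply, Fin.sum_univ_four] <;> grind

theorem g5_A2 (ι : F) (h2 : (2 : F) ≠ 0) (hι : ι ^ 2 = -1) :
    g5 ι * A2 = ι ^ 3 • (A1 * B1 * B2 * g5 ι) := by
  ext i j; fin_cases i <;> fin_cases j <;>
    simp [g5, A1, B1, A2, B2, Matrix.mul_apply, Fin.sum_univ_four] <;> grind

theorem g5_B2 (ι : F) (h2 : (2 : F) ≠ 0) (hι : ι ^ 2 = -1) :
    g5 ι * B2 = A2 * g5 ι := by
  ext i j; fin_cases i <;> fin_cases j <;>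
    simp [g5, A2, B2, Matrix.mul_apply, Fin.sum_univ_four] <;> grind

/-- `g5 ^ 2`. -/
def g5sq (ι : F) : Matrix (Fin 4) (Fin 4) F :=
  (2 : F)⁻¹ • !![-1 - ι, 0, 0, -1 + ι; 0, -1 + ι, -1 - ι, 0; -1 - ι, 0, 0, 1 - ι; 0, 1 - ι, -1 - ι, 0]

/-- `g5 ^ 4`. -/
def g5four (ι : F) : Matrix (Fin 4) (Fin 4) F :=
  (2 : F)⁻¹ • !![ι, ι, 1, 1; ι, -ι, 1, -1; ι, -ι, -1, 1; ι, ι, -1, -1]

theorem g5_sq (ι : F) (h2 : (2 : F) ≠ 0) (hι : ι ^ 2 = -1) : g5 ι * g5 ι = g5sq ι := by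
  ext i j; fin_cases i <;> fin_cases j <;>
    simp [g5, g5sq, Matrix.mul_apply, Fin.sum_univ_four] <;> grind

theorem g5_four (ι : F) (h2 : (2 : F) ≠ 0) (hι : ι ^ 2 = -1) : g5sq ι * g5sq ι = g5four ι := by
  ext i j; fin_cases i <;> fin_cases j <;>
    simp [g5sq, g5four, Matrix.mul_apply, Fin.sum_univ_four] <;> grind

theorem g5_five (ι : F) (h2 : (2 : F) ≠ 0) (hι : ι ^ 2 = -1) : g5four ι * g5 ι = 1 := by
  ext i j; fin_cases i <;> fin_cases j <;>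
    simp [g5, g5four, Matrix.mul_apply, Fin.sum_univ_four] <;> grind

theorem g5_pow (ι : F) (h2 : (2 : F) ≠ 0) (hι : ι ^ 2 = -1) : g5 ι ^ 5 = 1 := by
  have e : g5 ι ^ 5 = (g5 ι * g5 ι) * (g5 ι * g5 ι) * g5 ι := by
    simp only [pow_succ, pow_zero, one_mul, mul_assoc]
  rw [e, g5_sq ι h2 hι, g5_four ι h2 hι, g5_five ι h2 hι]

theorem g5_ne_one (ι : F) (h2 : (2 : F) ≠ 0) (hι : ι ^ 2 = -1) : g5 ι ≠ 1 := by
  intro h
  have h01 := congrFun (congrFun h 0) 1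
  simp [g5] at h01
  grind

theorem g5_map (p : ℕ) [Fact p.Prime] [CharP F p] (ι : F) (hιp : ι ^ p = -ι) :
    (g5 ι).map (fun a => a ^ p) = g5 (-ι) := by
  have hf : (fun a : F => a ^ p) = ⇑(frobenius F p) := rfl
  have hfι : frobenius F p ι = -ι := hιp
  have hf2 : frobenius F p 2 = 2 := map_ofNat _ 2
  rw [hf]
  ext i j; fin_cases i <;> fin_cases j <;> simp [g5, hfι, hf2]

theorem g5_unitary (ι : F) (h2 : (2 : F) ≠ 0) (hι : ι ^ 2 = -1) : (g5 ι)ᵀ * g5 (-ι) = 1 := by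
  ext i j; fin_cases i <;> fin_cases j <;>
    simp [g5, Matrix.mul_apply, Fin.sum_univ_four] <;> grind

end

/-- S6001-N5. -/
theorem n5 (hB : StPBasic.{u}) : StN5.{u} := by
  intro F _ p _ ι hp h2 hι hιp
  haveI : Fact p.Prime := ⟨hp⟩
  have h5 := g5_pow ι h2 hι
  have hdet : IsUnit (g5 ι).det := by
    have h : (g5 ι).det ^ 5 = 1 := by rw [← Matrix.det_pow, h5, Matrix.det_one]
    exact IsUnit.of_pow_eq_one h (by norm_num)
  refine ⟨?_, h5, g5_ne_one ι h2 hι, ?_⟩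
  · refine nrm_of_gens hB ι hι _ hdet ⟨3, ![1, 1, 0, 0], ?_⟩ ⟨0, ![1, 0, 1, 0], ?_⟩
      ⟨3, ![1, 1, 0, 1], ?_⟩ ⟨0, ![0, 0, 1, 0], ?_⟩
    · rw [pauli_vec]; simpa [n5_val0, n5_val1] using g5_A1 ι h2 hι
    · rw [pauli_vec]; simpa [n5_val0, n5_val1] using g5_B1 ι h2 hι
    · rw [pauli_vec]; simpa [n5_val0, n5_val1] using g5_A2 ι h2 hι
    · rw [pauli_vec]; simpa [n5_val0, n5_val1] using g5_B2 ι h2 hι
  · unfold IsU
    rw [g5_map p ι hιp]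
    exact g5_unitary ι h2 hι

example (hB : Cfsg.Agent.H83.UP.StPBasic.{u}) : Cfsg.Agent.H83.UP.StN5.{u} := n5 hB

end Cfsg.Agent.H53.UP
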