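import Mathlib
import Cfsg.Agent.H83.UPDefs
import Cfsg.Agent.H53.UPNrm

/-!
# S6001-NDIAG (helper83's project): diagonal `±1` matrices and scalar multiples normalize (helper53)
-/

set_option autoImplicit false
set_option linter.unusedSimpArgs false
set_option linter.unusedTactic false
set_option linter.unusedVariables false
set_option linter.unreachableTactic false

namespace Cfsg.Agent.H53.UP

open Matrix Cfsg.Agent.H83.UP

universe u

theorem nd_val0 : (0 : ZMod 2).val = 0 := rfl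
theorem nd_val1 : (1 : ZMod 2).val = 1 := rfl

section
variable {F : Type u} [Field F]

theorem diag_A1 (d : Fin 4 → F) : Matrix.diagonal d * A1 = A1 * Matrix.diagonal d := by
  ext i j; fin_cases i <;> fin_cases j <;> simp [A1, Matrix.diagonal_mul, Matrix.mul_diagonal]

theorem diag_A2 (d : Fin 4 → F) : Matrix.diagonal d * A2 = A2 * Matrix.diagonal d := by
  ext i j; fin_cases i <;> fin_cases j <;> simp [A2, Matrix.diagonal_mul, Matrix.mul_diagonal]

set_option maxHeartbeats 4000000 in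
theorem diag_B1 (ι : F) (hι : ι ^ 2 = -1) (d0 d1 d2 d3 : F) (h0 : d0 = 1 ∨ d0 = -1)
    (h1 : d1 = 1 ∨ d1 = -1) (h2 : d2 = 1 ∨ d2 = -1) (h3 : d3 = 1 ∨ d3 = -1) :
    ∃ (j : ℕ) (w : Fin 4 → ZMod 2), Matrix.diagonal ![d0, d1, d2, d3] * B1 =
      ι ^ j • (pauli w * Matrix.diagonal ![d0, d1, d2, d3]) := by
  rcases h0 with rfl | rfl <;> rcases h1 with rfl | rfl <;> rcases h2 with rfl | rfl <;>
  rcases h3 with rfl | rfl
  · refine ⟨0, ![0, 1, 0, 0], ?_⟩
    rw [pauli_vec]
    simp only [nd_val0, nd_val1, pow_zero, pow_one, one_mul, mul_one]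
    ext i j; fin_cases i <;> fin_cases j <;>
      simp only [Matrix.mul_apply, Matrix.smul_apply, Fin.sum_univ_four, smul_eq_mul] <;>
      simp [B1, A2, hι, Matrix.diagonal_apply]
  · refine ⟨0, ![0, 1, 1, 0], ?_⟩
    rw [pauli_vec]
    simp only [nd_val0, nd_val1, pow_zero, pow_one, one_mul, mul_one]
    ext i j; fin_cases i <;> fin_cases j <;>
      simp only [Matrix.mul_apply, Matrix.smul_apply, Fin.sum_univ_four, smul_eq_mul] <;>
      simp [B1, A2, hι, Matrix.diagonal_apply]
  · refine ⟨2, ![0, 1, 1, 0], ?_⟩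
    rw [pauli_vec]
    simp only [nd_val0, nd_val1, pow_zero, pow_one, one_mul, mul_one]
    ext i j; fin_cases i <;> fin_cases j <;>
      simp only [Matrix.mul_apply, Matrix.smul_apply, Fin.sum_univ_four, smul_eq_mul] <;>
      simp [B1, A2, hι, Matrix.diagonal_apply]
  · refine ⟨2, ![0, 1, 0, 0], ?_⟩
    rw [pauli_vec]
    simp only [nd_val0, nd_val1, pow_zero, pow_one, one_mul, mul_one]
    ext i j; fin_cases i <;> fin_cases j <;>
      simp only [Matrix.mul_apply, Matrix.smul_apply, Fin.sum_univ_four, smul_eq_mul] <;>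
      simp [B1, A2, hι, Matrix.diagonal_apply]
  · refine ⟨0, ![0, 1, 1, 0], ?_⟩
    rw [pauli_vec]
    simp only [nd_val0, nd_val1, pow_zero, pow_one, one_mul, mul_one]
    ext i j; fin_cases i <;> fin_cases j <;>
      simp only [Matrix.mul_apply, Matrix.smul_apply, Fin.sum_univ_four, smul_eq_mul] <;>
      simp [B1, A2, hι, Matrix.diagonal_apply]
  · refine ⟨0, ![0, 1, 0, 0], ?_⟩
    rw [pauli_vec]
    simp only [nd_val0, nd_val1, pow_zero, pow_one, one_mul, mul_one]
    ext i j; fin_cases i <;> fin_cases j <;>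
      simp only [Matrix.mul_apply, Matrix.smul_apply, Fin.sum_univ_four, smul_eq_mul] <;>
      simp [B1, A2, hι, Matrix.diagonal_apply]
  · refine ⟨2, ![0, 1, 0, 0], ?_⟩
    rw [pauli_vec]
    simp only [nd_val0, nd_val1, pow_zero, pow_one, one_mul, mul_one]
    ext i j; fin_cases i <;> fin_cases j <;>
      simp only [Matrix.mul_apply, Matrix.smul_apply, Fin.sum_univ_four, smul_eq_mul] <;>
      simp [B1, A2, hι, Matrix.diagonal_apply]
  · refine ⟨2, ![0, 1, 1, 0], ?_⟩
    rw [pauli_vec]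
    simp only [nd_val0, nd_val1, pow_zero, pow_one, one_mul, mul_one]
    ext i j; fin_cases i <;> fin_cases j <;>
      simp only [Matrix.mul_apply, Matrix.smul_apply, Fin.sum_univ_four, smul_eq_mul] <;>
      simp [B1, A2, hι, Matrix.diagonal_apply]
  · refine ⟨2, ![0, 1, 1, 0], ?_⟩
    rw [pauli_vec]
    simp only [nd_val0, nd_val1, pow_zero, pow_one, one_mul, mul_one]
    ext i j; fin_cases i <;> fin_cases j <;>
      simp only [Matrix.mul_apply, Matrix.smul_apply, Fin.sum_univ_four, smul_eq_mul] <;>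
      simp [B1, A2, hι, Matrix.diagonal_apply]
  · refine ⟨2, ![0, 1, 0, 0], ?_⟩
    rw [pauli_vec]
    simp only [nd_val0, nd_val1, pow_zero, pow_one, one_mul, mul_one]
    ext i j; fin_cases i <;> fin_cases j <;>
      simp only [Matrix.mul_apply, Matrix.smul_apply, Fin.sum_univ_four, smul_eq_mul] <;>
      simp [B1, A2, hι, Matrix.diagonal_apply]
  · refine ⟨0, ![0, 1, 0, 0], ?_⟩
    rw [pauli_vec]
    simp only [nd_val0, nd_val1, pow_zero, pow_one, one_mul, mul_one]
    ext i j; fin_cases i <;> fin_cases j <;>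
      simp only [Matrix.mul_apply, Matrix.smul_apply, Fin.sum_univ_four, smul_eq_mul] <;>
      simp [B1, A2, hι, Matrix.diagonal_apply]
  · refine ⟨0, ![0, 1, 1, 0], ?_⟩
    rw [pauli_vec]
    simp only [nd_val0, nd_val1, pow_zero, pow_one, one_mul, mul_one]
    ext i j; fin_cases i <;> fin_cases j <;>
      simp only [Matrix.mul_apply, Matrix.smul_apply, Fin.sum_univ_four, smul_eq_mul] <;>
      simp [B1, A2, hι, Matrix.diagonal_apply]
  · refine ⟨2, ![0, 1, 0, 0], ?_⟩
    rw [pauli_vec]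
    simp only [nd_val0, nd_val1, pow_zero, pow_one, one_mul, mul_one]
    ext i j; fin_cases i <;> fin_cases j <;>
      simp only [Matrix.mul_apply, Matrix.smul_apply, Fin.sum_univ_four, smul_eq_mul] <;>
      simp [B1, A2, hι, Matrix.diagonal_apply]
  · refine ⟨2, ![0, 1, 1, 0], ?_⟩
    rw [pauli_vec]
    simp only [nd_val0, nd_val1, pow_zero, pow_one, one_mul, mul_one]
    ext i j; fin_cases i <;> fin_cases j <;>
      simp only [Matrix.mul_apply, Matrix.smul_apply, Fin.sum_univ_four, smul_eq_mul] <;>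
      simp [B1, A2, hι, Matrix.diagonal_apply]
  · refine ⟨0, ![0, 1, 1, 0], ?_⟩
    rw [pauli_vec]
    simp only [nd_val0, nd_val1, pow_zero, pow_one, one_mul, mul_one]
    ext i j; fin_cases i <;> fin_cases j <;>
      simp only [Matrix.mul_apply, Matrix.smul_apply, Fin.sum_univ_four, smul_eq_mul] <;>
      simp [B1, A2, hι, Matrix.diagonal_apply]
  · refine ⟨0, ![0, 1, 0, 0], ?_⟩
    rw [pauli_vec]
    simp only [nd_val0, nd_val1, pow_zero, pow_one, one_mul, mul_one]
    ext i j; fin_cases i <;> fin_cases j <;>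
      simp only [Matrix.mul_apply, Matrix.smul_apply, Fin.sum_univ_four, smul_eq_mul] <;>
      simp [B1, A2, hι, Matrix.diagonal_apply]

set_option maxHeartbeats 4000000 in
theorem diag_B2 (ι : F) (hι : ι ^ 2 = -1) (d0 d1 d2 d3 : F) (h0 : d0 = 1 ∨ d0 = -1)
    (h1 : d1 = 1 ∨ d1 = -1) (h2 : d2 = 1 ∨ d2 = -1) (h3 : d3 = 1 ∨ d3 = -1) :
    ∃ (j : ℕ) (w : Fin 4 → ZMod 2), Matrix.diagonal ![d0, d1, d2, d3] * B2 =
      ι ^ j • (pauli w * Matrix.diagonal ![d0, d1, d2, d3]) := by
  rcases h0 with rfl | rfl <;> rcases h1 with rfl | rfl <;> rcases h2 with rfl | rfl <;>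
  rcases h3 with rfl | rfl
  · refine ⟨0, ![0, 0, 0, 1], ?_⟩
    rw [pauli_vec]
    simp only [nd_val0, nd_val1, pow_zero, pow_one, one_mul, mul_one]
    ext i j; fin_cases i <;> fin_cases j <;>
      simp only [Matrix.mul_apply, Matrix.smul_apply, Fin.sum_univ_four, smul_eq_mul] <;>
      simp [B2, A1, hι, Matrix.diagonal_apply]
  · refine ⟨0, ![1, 0, 0, 1], ?_⟩
    rw [pauli_vec]
    simp only [nd_val0, nd_val1, pow_zero, pow_one, one_mul, mul_one]
    ext i j; fin_cases i <;> fin_cases j <;>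
      simp only [Matrix.mul_apply, Matrix.smul_apply, Fin.sum_univ_four, smul_eq_mul] <;>
      simp [B2, A1, hι, Matrix.diagonal_apply]
  · refine ⟨0, ![1, 0, 0, 1], ?_⟩
    rw [pauli_vec]
    simp only [nd_val0, nd_val1, pow_zero, pow_one, one_mul, mul_one]
    ext i j; fin_cases i <;> fin_cases j <;>
      simp only [Matrix.mul_apply, Matrix.smul_apply, Fin.sum_univ_four, smul_eq_mul] <;>
      simp [B2, A1, hι, Matrix.diagonal_apply]
  · refine ⟨0, ![0, 0, 0, 1], ?_⟩
    rw [pauli_vec]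
    simp only [nd_val0, nd_val1, pow_zero, pow_one, one_mul, mul_one]
    ext i j; fin_cases i <;> fin_cases j <;>
      simp only [Matrix.mul_apply, Matrix.smul_apply, Fin.sum_univ_four, smul_eq_mul] <;>
      simp [B2, A1, hι, Matrix.diagonal_apply]
  · refine ⟨2, ![1, 0, 0, 1], ?_⟩
    rw [pauli_vec]
    simp only [nd_val0, nd_val1, pow_zero, pow_one, one_mul, mul_one]
    ext i j; fin_cases i <;> fin_cases j <;>
      simp only [Matrix.mul_apply, Matrix.smul_apply, Fin.sum_univ_four, smul_eq_mul] <;>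
      simp [B2, A1, hι, Matrix.diagonal_apply]
  · refine ⟨2, ![0, 0, 0, 1], ?_⟩
    rw [pauli_vec]
    simp only [nd_val0, nd_val1, pow_zero, pow_one, one_mul, mul_one]
    ext i j; fin_cases i <;> fin_cases j <;>
      simp only [Matrix.mul_apply, Matrix.smul_apply, Fin.sum_univ_four, smul_eq_mul] <;>
      simp [B2, A1, hι, Matrix.diagonal_apply]
  · refine ⟨2, ![0, 0, 0, 1], ?_⟩
    rw [pauli_vec]
    simp only [nd_val0, nd_val1, pow_zero, pow_one, one_mul, mul_one]
    ext i j; fin_cases i <;> fin_cases j <;>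
      simp only [Matrix.mul_apply, Matrix.smul_apply, Fin.sum_univ_four, smul_eq_mul] <;>
      simp [B2, A1, hι, Matrix.diagonal_apply]
  · refine ⟨2, ![1, 0, 0, 1], ?_⟩
    rw [pauli_vec]
    simp only [nd_val0, nd_val1, pow_zero, pow_one, one_mul, mul_one]
    ext i j; fin_cases i <;> fin_cases j <;>
      simp only [Matrix.mul_apply, Matrix.smul_apply, Fin.sum_univ_four, smul_eq_mul] <;>
      simp [B2, A1, hι, Matrix.diagonal_apply]
  · refine ⟨2, ![1, 0, 0, 1], ?_⟩
    rw [pauli_vec]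
    simp only [nd_val0, nd_val1, pow_zero, pow_one, one_mul, mul_one]
    ext i j; fin_cases i <;> fin_cases j <;>
      simp only [Matrix.mul_apply, Matrix.smul_apply, Fin.sum_univ_four, smul_eq_mul] <;>
      simp [B2, A1, hι, Matrix.diagonal_apply]
  · refine ⟨2, ![0, 0, 0, 1], ?_⟩
    rw [pauli_vec]
    simp only [nd_val0, nd_val1, pow_zero, pow_one, one_mul, mul_one]
    ext i j; fin_cases i <;> fin_cases j <;>
      simp only [Matrix.mul_apply, Matrix.smul_apply, Fin.sum_univ_four, smul_eq_mul] <;>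
      simp [B2, A1, hι, Matrix.diagonal_apply]
  · refine ⟨2, ![0, 0, 0, 1], ?_⟩
    rw [pauli_vec]
    simp only [nd_val0, nd_val1, pow_zero, pow_one, one_mul, mul_one]
    ext i j; fin_cases i <;> fin_cases j <;>
      simp only [Matrix.mul_apply, Matrix.smul_apply, Fin.sum_univ_four, smul_eq_mul] <;>
      simp [B2, A1, hι, Matrix.diagonal_apply]
  · refine ⟨2, ![1, 0, 0, 1], ?_⟩
    rw [pauli_vec]
    simp only [nd_val0, nd_val1, pow_zero, pow_one, one_mul, mul_one]
    ext i j; fin_cases i <;> fin_cases j <;>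
      simp only [Matrix.mul_apply, Matrix.smul_apply, Fin.sum_univ_four, smul_eq_mul] <;>
      simp [B2, A1, hι, Matrix.diagonal_apply]
  · refine ⟨0, ![0, 0, 0, 1], ?_⟩
    rw [pauli_vec]
    simp only [nd_val0, nd_val1, pow_zero, pow_one, one_mul, mul_one]
    ext i j; fin_cases i <;> fin_cases j <;>
      simp only [Matrix.mul_apply, Matrix.smul_apply, Fin.sum_univ_four, smul_eq_mul] <;>
      simp [B2, A1, hι, Matrix.diagonal_apply]
  · refine ⟨0, ![1, 0, 0, 1], ?_⟩
    rw [pauli_vec]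
    simp only [nd_val0, nd_val1, pow_zero, pow_one, one_mul, mul_one]
    ext i j; fin_cases i <;> fin_cases j <;>
      simp only [Matrix.mul_apply, Matrix.smul_apply, Fin.sum_univ_four, smul_eq_mul] <;>
      simp [B2, A1, hι, Matrix.diagonal_apply]
  · refine ⟨0, ![1, 0, 0, 1], ?_⟩
    rw [pauli_vec]
    simp only [nd_val0, nd_val1, pow_zero, pow_one, one_mul, mul_one]
    ext i j; fin_cases i <;> fin_cases j <;>
      simp only [Matrix.mul_apply, Matrix.smul_apply, Fin.sum_univ_four, smul_eq_mul] <;>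
      simp [B2, A1, hι, Matrix.diagonal_apply]
  · refine ⟨0, ![0, 0, 0, 1], ?_⟩
    rw [pauli_vec]
    simp only [nd_val0, nd_val1, pow_zero, pow_one, one_mul, mul_one]
    ext i j; fin_cases i <;> fin_cases j <;>
      simp only [Matrix.mul_apply, Matrix.smul_apply, Fin.sum_univ_four, smul_eq_mul] <;>
      simp [B2, A1, hι, Matrix.diagonal_apply]

end

/-- S6001-NDIAG. -/
theorem ndiag (hB : StPBasic.{u}) : StNDiag.{u} := by
  intro F _ ι h2 hι
  refine ⟨?_, ?_⟩
  · intro d hd
    have hdet : IsUnit (Matrix.diagonal d).det := by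
      rw [Matrix.det_diagonal]
      refine (IsUnit.prod_univ_iff).mpr fun i => ?_
      rcases hd i with h | h <;> rw [h]
      · exact isUnit_one
      · exact isUnit_one.neg
    have hd' : d = ![d 0, d 1, d 2, d 3] := by
      funext i; fin_cases i <;> rfl
    refine nrm_of_gens hB ι hι _ hdet ⟨0, ![1, 0, 0, 0], ?_⟩ ?_ ⟨0, ![0, 0, 1, 0], ?_⟩ ?_
    · rw [pauli_vec]; simpa [nd_val0, nd_val1] using diag_A1 d
    · rw [hd']; exact diag_B1 ι hι _ _ _ _ (hd 0) (hd 1) (hd 2) (hd 3)
    · rw [pauli_vec]; simpa [nd_val0, nd_val1] using diag_A2 d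
    · rw [hd']; exact diag_B2 ι hι _ _ _ _ (hd 0) (hd 1) (hd 2) (hd 3)
  · rintro y c hc ⟨hdet, hy⟩
    refine ⟨?_, ?_⟩
    · rw [Matrix.det_smul]
      exact ((isUnit_iff_ne_zero.mpr hc).pow _).mul hdet
    · intro v
      obtain ⟨j, w, h⟩ := hy v
      refine ⟨j, w, ?_⟩
      rw [Matrix.smul_mul, h, Matrix.mul_smul, smul_comm]

example (hB : Cfsg.Agent.H83.UP.StPBasic.{u}) : Cfsg.Agent.H83.UP.StNDiag.{u} := ndiag hB

end Cfsg.Agent.H53.UP
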