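import Mathlib
import Cfsg.Agent.H83.UPDefs

set_option autoImplicit false
set_option linter.unusedSimpArgs false
set_option linter.unusedTactic false

namespace Cfsg.Agent.H53.UP

open Matrix Cfsg.Agent.H83.UP

universe u

theorem z2_cases (a : ZMod 2) : a = 0 ∨ a = 1 := by revert a; decide
theorem z2_val0 : (0 : ZMod 2).val = 0 := rfl
theorem z2_val1 : (1 : ZMod 2).val = 1 := rfl
theorem z2_11 : (1 : ZMod 2) + 1 = 0 := by decide

section
variable {F : Type u} [Field F]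

theorem A1_mul_self : (A1 : Matrix (Fin 4) (Fin 4) F) * A1 = 1 := by
  ext i j; fin_cases i <;> fin_cases j <;> simp [A1, Matrix.mul_apply, Fin.sum_univ_four]
theorem B1_mul_self : (B1 : Matrix (Fin 4) (Fin 4) F) * B1 = 1 := by
  ext i j; fin_cases i <;> fin_cases j <;> simp [B1, Matrix.mul_apply, Fin.sum_univ_four]
theorem A2_mul_self : (A2 : Matrix (Fin 4) (Fin 4) F) * A2 = 1 := by
  ext i j; fin_cases i <;> fin_cases j <;> simp [A2, Matrix.mul_apply, Fin.sum_univ_four]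
theorem B2_mul_self : (B2 : Matrix (Fin 4) (Fin 4) F) * B2 = 1 := by
  ext i j; fin_cases i <;> fin_cases j <;> simp [B2, Matrix.mul_apply, Fin.sum_univ_four]
theorem B1_mul_A1 : (B1 : Matrix (Fin 4) (Fin 4) F) * A1 = -(A1 * B1) := by
  ext i j; fin_cases i <;> fin_cases j <;> simp [A1, B1, Matrix.mul_apply, Fin.sum_univ_four]
theorem B2_mul_A2 : (B2 : Matrix (Fin 4) (Fin 4) F) * A2 = -(A2 * B2) := by
  ext i j; fin_cases i <;> fin_cases j <;> simp [A2, B2, Matrix.mul_apply, Fin.sum_univ_four]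
theorem A1_comm_A2 : Commute (A1 : Matrix (Fin 4) (Fin 4) F) A2 := by
  show A1 * A2 = A2 * A1
  ext i j; fin_cases i <;> fin_cases j <;> simp [A1, A2, Matrix.mul_apply, Fin.sum_univ_four]
theorem A1_comm_B2 : Commute (A1 : Matrix (Fin 4) (Fin 4) F) B2 := by
  show A1 * B2 = B2 * A1
  ext i j; fin_cases i <;> fin_cases j <;> simp [A1, B2, Matrix.mul_apply, Fin.sum_univ_four]
theorem B1_comm_A2 : Commute (B1 : Matrix (Fin 4) (Fin 4) F) A2 := by
  show B1 * A2 = A2 * B1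
  ext i j; fin_cases i <;> fin_cases j <;> simp [B1, A2, Matrix.mul_apply, Fin.sum_univ_four]
theorem B1_comm_B2 : Commute (B1 : Matrix (Fin 4) (Fin 4) F) B2 := by
  show B1 * B2 = B2 * B1
  ext i j; fin_cases i <;> fin_cases j <;> simp [B1, B2, Matrix.mul_apply, Fin.sum_univ_four]

/-- `A^a B^b` for bits `a`, `b`. -/
def Xp (A B : Matrix (Fin 4) (Fin 4) F) (a b : ZMod 2) : Matrix (Fin 4) (Fin 4) F :=
  A ^ a.val * B ^ b.val

theorem xp_mul (A B : Matrix (Fin 4) (Fin 4) F) (hA : A * A = 1) (hB : B * B = 1)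
    (hBA : B * A = -(A * B)) (a b a' b' : ZMod 2) :
    ∃ ε : F, (ε = 1 ∨ ε = -1) ∧ Xp A B a b * Xp A B a' b' = ε • Xp A B (a + a') (b + b') := by
  have hA' : ∀ X : Matrix (Fin 4) (Fin 4) F, A * (A * X) = X := fun X => by
    rw [← mul_assoc, hA, one_mul]
  have hB' : ∀ X : Matrix (Fin 4) (Fin 4) F, B * (B * X) = X := fun X => by
    rw [← mul_assoc, hB, one_mul]
  have hBA' : ∀ X : Matrix (Fin 4) (Fin 4) F, B * (A * X) = -(A * (B * X)) := fun X => by
    rw [← mul_assoc, hBA, neg_mul, mul_assoc]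
  rcases z2_cases a with rfl | rfl <;> rcases z2_cases b with rfl | rfl <;>
  rcases z2_cases a' with rfl | rfl <;> rcases z2_cases b' with rfl | rfl <;>
  first
  | (refine ⟨1, Or.inl rfl, ?_⟩
     simp [Xp, z2_val0, z2_val1, z2_11, mul_assoc, hA, hB, hBA, hA', hB', hBA']; done)
  | (refine ⟨-1, Or.inr rfl, ?_⟩
     simp [Xp, z2_val0, z2_val1, z2_11, mul_assoc, hA, hB, hBA, hA', hB', hBA']; done)

theorem xp_comm (A B : Matrix (Fin 4) (Fin 4) F) (hA : A * A = 1) (hB : B * B = 1)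
    (hBA : B * A = -(A * B)) (a b a' b' : ZMod 2) :
    Xp A B a b * Xp A B a' b' =
      (-1 : F) ^ (a * b' + b * a').val • (Xp A B a' b' * Xp A B a b) := by
  have hA' : ∀ X : Matrix (Fin 4) (Fin 4) F, A * (A * X) = X := fun X => by
    rw [← mul_assoc, hA, one_mul]
  have hB' : ∀ X : Matrix (Fin 4) (Fin 4) F, B * (B * X) = X := fun X => by
    rw [← mul_assoc, hB, one_mul]
  have hBA' : ∀ X : Matrix (Fin 4) (Fin 4) F, B * (A * X) = -(A * (B * X)) := fun X => by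
    rw [← mul_assoc, hBA, neg_mul, mul_assoc]
  rcases z2_cases a with rfl | rfl <;> rcases z2_cases b with rfl | rfl <;>
  rcases z2_cases a' with rfl | rfl <;> rcases z2_cases b' with rfl | rfl <;>
  simp [Xp, z2_val0, z2_val1, z2_11, mul_assoc, hA, hB, hBA, hA', hB', hBA']

theorem xp_commute (a b c d : ZMod 2) :
    Commute (Xp (A1 : Matrix (Fin 4) (Fin 4) F) B1 a b) (Xp A2 B2 c d) := by
  unfold Xp
  exact Commute.mul_left
    (Commute.mul_right (Commute.pow_pow A1_comm_A2 _ _) (Commute.pow_pow A1_comm_B2 _ _))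
    (Commute.mul_right (Commute.pow_pow B1_comm_A2 _ _) (Commute.pow_pow B1_comm_B2 _ _))

theorem pauli_eq_xp (v : Fin 4 → ZMod 2) :
    (pauli v : Matrix (Fin 4) (Fin 4) F) = Xp A1 B1 (v 0) (v 1) * Xp A2 B2 (v 2) (v 3) := by
  simp only [pauli, Xp, mul_assoc]

theorem sign_mul (x y : ZMod 2) : (-1 : F) ^ x.val * (-1 : F) ^ y.val = (-1 : F) ^ (x + y).val := by
  rcases z2_cases x with rfl | rfl <;> rcases z2_cases y with rfl | rfl <;>
  simp [z2_val0, z2_val1, z2_11]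

theorem pauli_mul (v w : Fin 4 → ZMod 2) : ∃ ε : F, (ε = 1 ∨ ε = -1) ∧
    (pauli v * pauli w : Matrix (Fin 4) (Fin 4) F) = ε • pauli (v + w) := by
  obtain ⟨e1, he1, h1⟩ := xp_mul (A1 : Matrix (Fin 4) (Fin 4) F) B1 A1_mul_self B1_mul_self
    B1_mul_A1 (v 0) (v 1) (w 0) (w 1)
  obtain ⟨e2, he2, h2⟩ := xp_mul (A2 : Matrix (Fin 4) (Fin 4) F) B2 A2_mul_self B2_mul_self
    B2_mul_A2 (v 2) (v 3) (w 2) (w 3)
  refine ⟨e1 * e2, ?_, ?_⟩
  · rcases he1 with rfl | rfl <;> rcases he2 with rfl | rfl <;> simp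
  · rw [pauli_eq_xp, pauli_eq_xp, pauli_eq_xp]
    have hc := (xp_commute (F := F) (w 0) (w 1) (v 2) (v 3)).eq
    calc Xp A1 B1 (v 0) (v 1) * Xp A2 B2 (v 2) (v 3) * (Xp A1 B1 (w 0) (w 1) * Xp A2 B2 (w 2) (w 3))
        = Xp A1 B1 (v 0) (v 1) * (Xp A2 B2 (v 2) (v 3) * Xp A1 B1 (w 0) (w 1)) *
            Xp A2 B2 (w 2) (w 3) := by simp only [mul_assoc]
      _ = Xp A1 B1 (v 0) (v 1) * (Xp A1 B1 (w 0) (w 1) * Xp A2 B2 (v 2) (v 3)) *
            Xp A2 B2 (w 2) (w 3) := by rw [hc]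
      _ = (Xp A1 B1 (v 0) (v 1) * Xp A1 B1 (w 0) (w 1)) *
            (Xp A2 B2 (v 2) (v 3) * Xp A2 B2 (w 2) (w 3)) := by simp only [mul_assoc]
      _ = (e1 * e2) • (Xp A1 B1 ((v + w) 0) ((v + w) 1) * Xp A2 B2 ((v + w) 2) ((v + w) 3)) := by
          rw [h1, h2, Matrix.smul_mul, Matrix.mul_smul, smul_smul]; rfl

theorem pauli_comm (v w : Fin 4 → ZMod 2) : (pauli v * pauli w : Matrix (Fin 4) (Fin 4) F) =
    (-1 : F) ^ (symp v w).val • (pauli w * pauli v) := by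
  have h1 := xp_comm (A1 : Matrix (Fin 4) (Fin 4) F) B1 A1_mul_self B1_mul_self
    B1_mul_A1 (v 0) (v 1) (w 0) (w 1)
  have h2 := xp_comm (A2 : Matrix (Fin 4) (Fin 4) F) B2 A2_mul_self B2_mul_self
    B2_mul_A2 (v 2) (v 3) (w 2) (w 3)
  rw [pauli_eq_xp, pauli_eq_xp]
  have hc := (xp_commute (F := F) (w 0) (w 1) (v 2) (v 3)).eq
  have hc' := (xp_commute (F := F) (v 0) (v 1) (w 2) (w 3)).eq
  have hs : (-1 : F) ^ (symp v w).val =
      (-1 : F) ^ (v 0 * w 1 + v 1 * w 0).val * (-1 : F) ^ (v 2 * w 3 + v 3 * w 2).val := by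
    rw [sign_mul]; congr 2; unfold symp; ring
  calc Xp A1 B1 (v 0) (v 1) * Xp A2 B2 (v 2) (v 3) * (Xp A1 B1 (w 0) (w 1) * Xp A2 B2 (w 2) (w 3))
      = Xp A1 B1 (v 0) (v 1) * (Xp A2 B2 (v 2) (v 3) * Xp A1 B1 (w 0) (w 1)) *
          Xp A2 B2 (w 2) (w 3) := by simp only [mul_assoc]
    _ = Xp A1 B1 (v 0) (v 1) * (Xp A1 B1 (w 0) (w 1) * Xp A2 B2 (v 2) (v 3)) *
          Xp A2 B2 (w 2) (w 3) := by rw [hc]
    _ = (Xp A1 B1 (v 0) (v 1) * Xp A1 B1 (w 0) (w 1)) *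
          (Xp A2 B2 (v 2) (v 3) * Xp A2 B2 (w 2) (w 3)) := by simp only [mul_assoc]
    _ = (-1 : F) ^ (symp v w).val • (Xp A1 B1 (w 0) (w 1) * (Xp A1 B1 (v 0) (v 1) *
          Xp A2 B2 (w 2) (w 3)) * Xp A2 B2 (v 2) (v 3)) := by
          rw [h1, h2, Matrix.smul_mul, Matrix.mul_smul, smul_smul, hs]; simp only [mul_assoc]
    _ = (-1 : F) ^ (symp v w).val • (Xp A1 B1 (w 0) (w 1) * Xp A2 B2 (w 2) (w 3) *
          (Xp A1 B1 (v 0) (v 1) * Xp A2 B2 (v 2) (v 3))) := by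
          rw [hc']; simp only [mul_assoc]

set_option maxHeartbeats 4000000 in
theorem pauli_entries (v : Fin 4 → ZMod 2) (i j : Fin 4) :
    (pauli v : Matrix (Fin 4) (Fin 4) F) i j = 0 ∨ (pauli v : Matrix (Fin 4) (Fin 4) F) i j = 1 ∨
      (pauli v : Matrix (Fin 4) (Fin 4) F) i j = -1 := by
  unfold pauli
  generalize v 0 = a
  generalize v 1 = b
  generalize v 2 = c
  generalize v 3 = d
  rcases z2_cases a with rfl | rfl <;> rcases z2_cases b with rfl | rfl <;>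
  rcases z2_cases c with rfl | rfl <;> rcases z2_cases d with rfl | rfl <;>
  fin_cases i <;> fin_cases j <;>
  simp [z2_val0, z2_val1, A1, B1, A2, B2, Matrix.mul_apply, Fin.sum_univ_four]

theorem A1_transpose : (A1 : Matrix (Fin 4) (Fin 4) F)ᵀ = A1 := by
  ext i j; fin_cases i <;> fin_cases j <;> simp [A1]
theorem B1_transpose : (B1 : Matrix (Fin 4) (Fin 4) F)ᵀ = B1 := by
  ext i j; fin_cases i <;> fin_cases j <;> simp [B1]
theorem A2_transpose : (A2 : Matrix (Fin 4) (Fin 4) F)ᵀ = A2 := by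
  ext i j; fin_cases i <;> fin_cases j <;> simp [A2]
theorem B2_transpose : (B2 : Matrix (Fin 4) (Fin 4) F)ᵀ = B2 := by
  ext i j; fin_cases i <;> fin_cases j <;> simp [B2]

theorem pow_self_cancel (M : Matrix (Fin 4) (Fin 4) F) (h : M * M = 1) (n : ℕ)
    (X : Matrix (Fin 4) (Fin 4) F) : M ^ n * (M ^ n * X) = X := by
  rw [← mul_assoc, ← (Commute.refl M).mul_pow, h, one_pow, one_mul]

theorem pauli_transpose_mul (v : Fin 4 → ZMod 2) :
    (pauli v : Matrix (Fin 4) (Fin 4) F)ᵀ * pauli v = 1 := by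
  unfold pauli
  simp only [Matrix.transpose_mul, Matrix.transpose_pow, A1_transpose, B1_transpose, A2_transpose,
    B2_transpose, mul_assoc]
  rw [pow_self_cancel _ A1_mul_self, pow_self_cancel _ B1_mul_self, pow_self_cancel _ A2_mul_self]
  rw [← (Commute.refl (B2 : Matrix (Fin 4) (Fin 4) F)).mul_pow, B2_mul_self, one_pow]

theorem pauli_map_pow (v : Fin 4 → ZMod 2) (q : ℕ) (hq : Odd q) :
    (pauli v : Matrix (Fin 4) (Fin 4) F).map (fun a => a ^ q) = pauli v := by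
  have hq0 : q ≠ 0 := by rintro rfl; simp at hq
  ext i j
  rw [Matrix.map_apply]
  rcases pauli_entries (F := F) v i j with h | h | h <;> rw [h]
  · exact zero_pow hq0
  · exact one_pow q
  · exact hq.neg_one_pow

set_option maxHeartbeats 1000000 in
theorem pauli_trace (v : Fin 4 → ZMod 2) (hv : v ≠ 0) :
    Matrix.trace (pauli v : Matrix (Fin 4) (Fin 4) F) = 0 := by
  have hv' : ¬ (v 0 = 0 ∧ v 1 = 0 ∧ v 2 = 0 ∧ v 3 = 0) := by
    rintro ⟨h0, h1, h2, h3⟩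
    apply hv
    funext i
    fin_cases i
    · exact h0
    · exact h1
    · exact h2
    · exact h3
  revert hv'
  unfold pauli
  generalize v 0 = a
  generalize v 1 = b
  generalize v 2 = c
  generalize v 3 = d
  intro hv'
  rcases z2_cases a with rfl | rfl <;> rcases z2_cases b with rfl | rfl <;>
  rcases z2_cases c with rfl | rfl <;> rcases z2_cases d with rfl | rfl <;>
  first
  | exact absurd ⟨rfl, rfl, rfl, rfl⟩ hv'
  | simp [Matrix.trace, Fin.sum_univ_four, z2_val0, z2_val1, A1, B1, A2, B2, Matrix.mul_apply]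

end

/-- S6001-PBASIC. -/
theorem pbasic : StPBasic.{u} := by
  intro F _
  refine ⟨?_, ⟨?_, ?_, ?_, ?_⟩, pauli_mul, pauli_comm, pauli_transpose_mul, pauli_map_pow,
    pauli_trace⟩
  · simp [pauli]
  · simp [pauli, z2_val1]
  · simp [pauli, z2_val1]
  · simp [pauli, z2_val1]
  · simp [pauli, z2_val1]

example : Cfsg.Agent.H83.UP.StPBasic.{u} := pbasic

end Cfsg.Agent.H53.UP
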