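import Mathlib
import Cfsg.Agent.H58.UqDefs
import Cfsg.Agent.H14.Thompson

/-!
# S2950 piece UQ-ORB (helper53 for helper58)

The orbit of `K ∈ 𝒦₀(T)` under `R = ⟨N_L(J), N_{L'}(J)⟩` stays in `𝒦₀(T)` and inside `L ∩ L'`.
-/

set_option autoImplicit false

namespace Cfsg.Agent.H53.Uq

open Cfsg Cfsg.Agent.H58.Uq

universe u

section Aux

variable {G : Type u} [Group G]

theorem map_conj_one (K : Subgroup G) : K.map (MulAut.conj (1 : G)).toMonoidHom = K := by
  ext y
  constructor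
  · rintro ⟨k, hk, rfl⟩
    simpa using hk
  · intro hy
    exact ⟨y, hy, by simp⟩

theorem map_conj_mul (K : Subgroup G) (a b : G) :
    K.map (MulAut.conj (a * b)).toMonoidHom =
      (K.map (MulAut.conj b).toMonoidHom).map (MulAut.conj a).toMonoidHom := by
  rw [Subgroup.map_map]
  congr 1
  ext y
  simp [mul_assoc]

theorem map_conj_le {K L : Subgroup G} {x : G} (hx : x ∈ L) (h : K ≤ L) :
    K.map (MulAut.conj x).toMonoidHom ≤ L := by
  rintro _ ⟨k, hk, rfl⟩
  show x * k * x⁻¹ ∈ L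
  exact L.mul_mem (L.mul_mem hx (h hk)) (L.inv_mem hx)

theorem map_conj_eq_of_mem_normalizer {H : Subgroup G} {x : G}
    (hx : x ∈ Subgroup.normalizer (H : Set G)) : H.map (MulAut.conj x).toMonoidHom = H := by
  ext y
  constructor
  · rintro ⟨h, hh, rfl⟩
    exact (Subgroup.mem_normalizer_iff.mp hx h).mp hh
  · intro hy
    refine ⟨x⁻¹ * y * x, (Subgroup.mem_normalizer_iff''.mp hx y).mp hy, ?_⟩
    show x * (x⁻¹ * y * x) * x⁻¹ = y
    group

end Aux

theorem orb (hKey : StKey.{u}) (hK : StK0Conj.{u}) : StOrb.{u} := by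
  intro G _ _ hZN T hT2 hT1 L L' T₁ T₂ hLmax hL'max hLT₁ hL'T₂ hJ₁ hJ₂ K hK0 hKL hKL' ρ hρ
  have base : ∀ x ∈ (((L ⊓ Subgroup.normalizer (thompsonSubgroupOf 2 T : Set G) : Subgroup G) :
        Set G) ∪ ((L' ⊓ Subgroup.normalizer (thompsonSubgroupOf 2 T : Set G) : Subgroup G) :
        Set G)),
      ∀ K : Subgroup G, K ∈ jComponentsZero T → K ≤ L → K ≤ L' →
        (K.map (MulAut.conj x).toMonoidHom ∈ jComponentsZero T ∧
          K.map (MulAut.conj x).toMonoidHom ≤ L ∧ K.map (MulAut.conj x).toMonoidHom ≤ L') := by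
    intro x hx K h1 h2 h3
    have hxN : x ∈ Subgroup.normalizer (thompsonSubgroupOf 2 T : Set G) := by
      rcases hx with hx | hx
      · exact hx.2
      · exact hx.2
    have hJx : thompsonSubgroupOf 2 (T.map (MulAut.conj x).toMonoidHom) =
        thompsonSubgroupOf 2 T := by
      rw [← Cfsg.Agent.H14.thompsonSubgroupOf_conj 2 x T]
      exact map_conj_eq_of_mem_normalizer hxN
    have hK0x : K.map (MulAut.conj x).toMonoidHom ∈ jComponentsZero T := by
      rw [← (k0_congr T (T.map (MulAut.conj x).toMonoidHom) hJx).1]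
      exact hK T K x h1
    rcases hx with hx | hx
    · exact ⟨hK0x, map_conj_le hx.1 h2,
        hKey hZN T hT2 hT1 L' L T₂ T₁ hL'max hL'T₂ hLT₁ hJ₂ hJ₁ K h1 h3 h2 x hx.1⟩
    · exact ⟨hK0x,
        hKey hZN T hT2 hT1 L L' T₁ T₂ hLmax hLT₁ hL'T₂ hJ₁ hJ₂ K h1 h2 h3 x hx.1,
        map_conj_le hx.1 h3⟩
  have key : ∀ ρ ∈ (L ⊓ Subgroup.normalizer (thompsonSubgroupOf 2 T : Set G)) ⊔
        (L' ⊓ Subgroup.normalizer (thompsonSubgroupOf 2 T : Set G)),
      ∀ K : Subgroup G, K ∈ jComponentsZero T → K ≤ L → K ≤ L' →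
        (K.map (MulAut.conj ρ).toMonoidHom ∈ jComponentsZero T ∧
          K.map (MulAut.conj ρ).toMonoidHom ≤ L ∧ K.map (MulAut.conj ρ).toMonoidHom ≤ L') := by
    intro ρ hρ
    rw [Subgroup.sup_eq_closure] at hρ
    induction hρ using Subgroup.closure_induction'' with
    | mem x hx => exact base x hx
    | inv_mem x hx =>
      apply base
      rcases hx with hx | hx
      · exact Or.inl (Subgroup.inv_mem _ hx)
      · exact Or.inr (Subgroup.inv_mem _ hx)
    | one =>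
      intro K h1 h2 h3
      rw [map_conj_one]
      exact ⟨h1, h2, h3⟩
    | mul x y hx hy ihx ihy =>
      intro K h1 h2 h3
      obtain ⟨a1, a2, a3⟩ := ihy K h1 h2 h3
      rw [map_conj_mul]
      exact ihx _ a1 a2 a3
  exact key ρ hρ K hK0 hKL hKL'

end Cfsg.Agent.H53.Uq

universe u in
example (hKey : Cfsg.Agent.H58.Uq.StKey.{u}) (hK : Cfsg.Agent.H58.Uq.StK0Conj.{u}) :
    Cfsg.Agent.H58.Uq.StOrb.{u} := Cfsg.Agent.H53.Uq.orb hKey hK
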